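import Cfsg.Agent.Lib.H64.J2X

set_option autoImplicit false

/-! Groups of Hall-Janko type: elements of order five do not commute with elements of order seven. -/

namespace H64.J2

section general
variable {G : Type*} [Group G] [Finite G]

omit [Finite G] in
theorem cent_of_zpowers {g g' : G} (h : Subgroup.zpowers g = Subgroup.zpowers g') :
    Subgroup.centralizer ({g} : Set G) = Subgroup.centralizer ({g'} : Set G) := by
  have key : ∀ a b : G, Subgroup.zpowers a = Subgroup.zpowers b → Subgroup.centralizer ({a} : Set G) ≤ Subgroup.centralizer ({b} : Set G) := by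
    intro a b hab x hx
    have h1 : b ∈ Subgroup.zpowers a := by rw [hab]; exact Subgroup.mem_zpowers b
    exact Subgroup.mem_centralizer_singleton_iff.2 (mem_zpowers_comm h1 (Subgroup.mem_centralizer_singleton_iff.1 hx)).symm
  exact le_antisymm (key _ _ h) (key _ _ h.symm)

omit [Finite G] in
theorem card_cent_conj {g g' : G} (h : IsConj g g') : Nat.card (Subgroup.centralizer ({g} : Set G)) =
    Nat.card (Subgroup.centralizer ({g'} : Set G)) := by
  obtain ⟨c, hc⟩ := isConj_iff.1 h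
  rw [← hc, ← map_centralizer, Subgroup.card_map_of_injective (MulAut.conj c).injective]

theorem card_norm_dvd {p : ℕ} (hp : p.Prime) (D : Subgroup G) (hD : Nat.card D = p) :
    Nat.card (Subgroup.normalizer (D : Set G)) ∣ Nat.card (Subgroup.centralizer (D : Set G)) * (p - 1) := by
  have hpf : Fact p.Prime := ⟨hp⟩
  have hcyc : IsCyclic D := isCyclic_of_prime_card (p := p) hD
  have h1 := (Subgroup.normalizerMonoidHom D).ker.card_mul_index
  rw [Subgroup.index_ker] at h1
  have h2 : Nat.card (Subgroup.normalizerMonoidHom D).ker = Nat.card (Subgroup.centralizer (D : Set G)) := by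
    rw [Subgroup.normalizerMonoidHom_ker]
    exact Nat.card_congr (Subgroup.subgroupOfEquivOfLe (Subgroup.centralizer_le_normalizer _)).toEquiv
  rw [h2] at h1
  rw [← h1]
  apply Nat.mul_dvd_mul_left
  have h3 : Nat.card (MulAut D) = p - 1 := by
    rw [IsCyclic.card_mulAut, hD, Nat.totient_prime hp]
  rw [← h3]
  exact Subgroup.card_subgroup_dvd_card _

end general

variable {G : Type*} [Group G] [Finite G] {z t r : G}

/-- the centralizer of an element of order five of the second kind -/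
theorem Five.cent_B (h : Five t r) (hzz : z * z = 1) (hz1 : z ≠ 1) {x : G} (hx5 : orderOf x = 5) (hxz : x * z = z * x)
    (hc : Nat.card (Subgroup.centralizer ({x} : Set G) ⊓ Subgroup.centralizer ({z} : Set G) : Subgroup G) = 10) :
    Nat.card (Subgroup.centralizer ({x} : Set G)) ∣ 300 := by
  have hp : Fact (Nat.Prime 5) := ⟨by norm_num⟩
  let H := Subgroup.centralizer ({x} : Set G)
  let R : Subgroup H := (Subgroup.zpowers x).subgroupOf H
  have hRH : Subgroup.zpowers x ≤ H := by
    rw [Subgroup.zpowers_le]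
    exact Subgroup.mem_centralizer_singleton_iff.2 rfl
  have hodd : Odd (orderOf x) := by rw [hx5]; decide
  have hRc : ∀ a ∈ R, ∀ m : H, a * m = m * a := fun a ha m =>
    Subtype.ext (mem_zpowers_comm ha (Subgroup.mem_centralizer_singleton_iff.1 m.2))
  have hR2 : ∀ a ∈ R, a * a = 1 → a = 1 := fun a ha h =>
    Subtype.ext (odd_zpowers hodd ha (congrArg Subtype.val h))
  have hRn : R.Normal := ⟨fun a ha m => by
    rw [← hRc a ha m, mul_inv_cancel_right]
    exact ha⟩
  have hRcard : Nat.card R = 5 := by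
    rw [Nat.card_congr (Subgroup.subgroupOfEquivOfLe hRH).toEquiv, Nat.card_zpowers, hx5]
  let z' : H := ⟨z, Subgroup.mem_centralizer_singleton_iff.2 hxz.symm⟩
  have hz' : z' * z' = 1 := Subtype.ext hzz
  have hz1' : z' ≠ 1 := fun h => hz1 (congrArg Subtype.val h)
  have hzR : z' ∉ R := fun h => hz1' (hR2 z' h hz')
  let π := QuotientGroup.mk' R
  have hπz : orderOf (π z') = 2 := by
    refine orderOf_eq_prime ?_ ?_
    · rw [← map_pow, pow_two, hz', map_one]
    · intro h1
      exact hzR ((QuotientGroup.eq_one_iff z').1 h1)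
  -- the centralizer in the quotient
  have hcz : Nat.card (Subgroup.centralizer ({π z'} : Set (H ⧸ R))) = 2 := by
    rw [show (Subgroup.centralizer ({π z'} : Set (H ⧸ R))) = _ from quot_cent hRc hR2 hz']
    have hC : Nat.card (Subgroup.centralizer ({z'} : Set H)) = 10 := by
      rw [← hc]
      refine Nat.card_congr ⟨fun w => ⟨w.1.1, w.1.2, ?_⟩, fun w => ⟨⟨w.1, w.2.1⟩, ?_⟩, fun w => rfl, fun w => rfl⟩
      · exact Subgroup.mem_centralizer_singleton_iff.2 (congrArg Subtype.val (Subgroup.mem_centralizer_singleton_iff.1 w.2))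
      · have h1 := Subgroup.mem_centralizer_singleton_iff.1 w.2.2
        exact Subgroup.mem_centralizer_singleton_iff.2 (Subtype.ext h1)
    let ψ := (QuotientGroup.mk' R).domRestrict (Subgroup.centralizer ({z'} : Set H))
    have h1 := ψ.ker.card_mul_index
    rw [Subgroup.index_ker, hC] at h1
    have h2 : ψ.range = (Subgroup.centralizer ({z'} : Set H)).map (QuotientGroup.mk' R) := MonoidHom.domRestrict_range _ _
    rw [h2] at h1
    have hRC : R ≤ Subgroup.centralizer ({z'} : Set H) := fun a ha =>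
      Subgroup.mem_centralizer_singleton_iff.2 (hRc a ha z')
    have h3 : Nat.card ψ.ker = 5 := by
      rw [← hRcard]
      refine Nat.card_congr ⟨fun k => ⟨k.1.1, (QuotientGroup.eq_one_iff _).1 k.2⟩,
        fun a => ⟨⟨a.1, hRC a.2⟩, (QuotientGroup.eq_one_iff _).2 a.2⟩, fun k => rfl, fun a => rfl⟩
    rw [h3] at h1
    omega
  obtain ⟨A, hAn, hAi, hzA, hAinv⟩ := inverted_of_card_two hπz hcz
  have hAcomm : ∀ a ∈ A, ∀ b ∈ A, a * b = b * a := by
    intro a ha b hb
    have h1 := hAinv _ (A.mul_mem ha hb)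
    have h2 := hAinv a ha
    have h3 := hAinv b hb
    have hzz' : π z' * π z' = 1 := by rw [← map_mul, hz', map_one]
    have h4 : a⁻¹ * b⁻¹ = b⁻¹ * a⁻¹ := by
      calc a⁻¹ * b⁻¹ = (π z' * a * π z') * (π z' * b * π z') := by rw [h2, h3]
        _ = π z' * a * (π z' * π z') * b * π z' := by group
        _ = π z' * (a * b) * π z' := by rw [hzz']; group
        _ = b⁻¹ * a⁻¹ := by rw [h1, mul_inv_rev]
    calc a * b = (b⁻¹ * a⁻¹)⁻¹ := by group
      _ = (a⁻¹ * b⁻¹)⁻¹ := by rw [h4]
      _ = b * a := by group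
  -- a Sylow 5-subgroup containing `x`
  have hxp : IsPGroup 5 (Subgroup.zpowers x) := IsPGroup.of_card (n := 1) (by rw [Nat.card_zpowers, hx5, pow_one])
  obtain ⟨P, hP⟩ := hxp.exists_le_sylow
  have hxP : x ∈ P := hP (Subgroup.mem_zpowers x)
  have hcomm := h.comm P
  have hPH : (P : Subgroup G) ≤ H := fun a ha => Subgroup.mem_centralizer_singleton_iff.2 (hcomm a ha x hxP)
  obtain ⟨-, hcP, hN⟩ := h.any P
  rw [← hN]
  apply Subgroup.card_dvd_of_le
  -- elements of `P` are in `A`
  have hPA : ∀ p : H, (p : G) ∈ P → π p ∈ A := by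
    intro p hp
    have h25 : p ^ 25 = 1 := by
      apply Subtype.ext
      change (p : G) ^ 25 = 1
      have h1 : (⟨(p : G), hp⟩ : P) ^ Nat.card P = 1 := pow_card_eq_one'
      rw [hcP] at h1
      exact congrArg Subtype.val h1
    have h1 : π p ^ 25 ∈ A := by rw [← map_pow, h25, map_one]; exact A.one_mem
    have h2 : π p ^ 2 ∈ A := by
      rw [pow_two]
      exact (Subgroup.mul_mem_iff_of_index_two hAi).2 Iff.rfl
    have h3 : π p = π p ^ 25 * ((π p ^ 2) ^ 12)⁻¹ := by
      rw [← pow_mul, show (25 : ℕ) = 1 + 2 * 12 by norm_num, pow_add, pow_one, mul_inv_cancel_right]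
    rw [h3]
    exact A.mul_mem h1 (A.inv_mem (A.pow_mem h2 12))
  have key : ∀ hh : H, ∀ p : H, (p : G) ∈ P → (hh : G) * p * (hh : G)⁻¹ ∈ P := by
    intro hh p hp
    have hpA := hPA p hp
    have hcase : π (hh * p * hh⁻¹) = π p ∨ π (hh * p * hh⁻¹) = π p⁻¹ := by
      by_cases hhA : π hh ∈ A
      · left
        rw [map_mul, map_mul, map_inv, hAcomm _ hhA _ hpA, mul_inv_cancel_right]
      · right
        have h1 : π hh * π z' ∈ A := (Subgroup.mul_mem_iff_of_index_two hAi).2 ⟨fun h2 => absurd h2 hhA, fun h2 => absurd h2 hzA⟩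
        have hzz' : π z' * π z' = 1 := by rw [← map_mul, hz', map_one]
        have hzi : (π z')⁻¹ = π z' := inv_eq_of_mul_eq_one_right hzz'
        have h2 := hAinv _ hpA
        have h3 := hAcomm _ h1 _ (A.inv_mem hpA)
        rw [map_mul, map_mul, map_inv, map_inv]
        calc π hh * π p * (π hh)⁻¹ = (π hh * π z') * (π z' * π p * π z') * (π hh * π z')⁻¹ := by
              rw [mul_inv_rev, hzi]
              calc π hh * π p * (π hh)⁻¹ = π hh * 1 * π p * 1 * (π hh)⁻¹ := by group
                _ = π hh * (π z' * π z') * π p * (π z' * π z') * (π hh)⁻¹ := by rw [hzz']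
                _ = _ := by group
          _ = (π p)⁻¹ := by rw [h2, h3, mul_inv_cancel_right]
    have hRP : ∀ a ∈ R, (a : G) ∈ P := fun a ha => hP ha
    rcases hcase with h1 | h1
    · have h2 : p⁻¹ * (hh * p * hh⁻¹) ∈ R := QuotientGroup.eq.1 h1.symm
      have h3 := P.mul_mem hp (hRP _ h2)
      have e1 : (p : G) * ((p⁻¹ * (hh * p * hh⁻¹) : H) : G) = (hh : G) * p * (hh : G)⁻¹ := by
        change (p : G) * ((p : G)⁻¹ * ((hh : G) * p * (hh : G)⁻¹)) = _
        group
      rwa [e1] at h3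
    · have h2 : (p⁻¹)⁻¹ * (hh * p * hh⁻¹) ∈ R := QuotientGroup.eq.1 h1.symm
      have h3 := P.mul_mem (P.inv_mem hp) (hRP _ h2)
      have e1 : (p : G)⁻¹ * (((p⁻¹)⁻¹ * (hh * p * hh⁻¹) : H) : G) = (hh : G) * p * (hh : G)⁻¹ := by
        change (p : G)⁻¹ * (((p : G)⁻¹)⁻¹ * ((hh : G) * p * (hh : G)⁻¹)) = _
        group
      rwa [e1] at h3
  intro g hg
  rw [Subgroup.mem_normalizer_iff]
  intro k
  constructor
  · intro hk
    exact key ⟨g, hg⟩ ⟨k, hPH hk⟩ hk
  · intro hk
    have h1 := key ⟨g, hg⟩⁻¹ ⟨_, hPH hk⟩ hk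
    have e1 : ((⟨g, hg⟩⁻¹ : H) : G) * (g * k * g⁻¹) * ((⟨g, hg⟩⁻¹ : H) : G)⁻¹ = k := by
      change g⁻¹ * (g * k * g⁻¹) * g⁻¹⁻¹ = k
      group
    rwa [e1] at h1

/-- centralizers of elements of order five -/
theorem Five.cent_dvd (h : Five t r) (hzz : z * z = 1) (hz1 : z ≠ 1) {x : G} (hx5 : orderOf x = 5) (hxz : x * z = z * x)
    (hxT : ¬ TA r x)
    (hc : Nat.card (Subgroup.centralizer ({x} : Set G) ⊓ Subgroup.centralizer ({z} : Set G) : Subgroup G) = 10)
    {g : G} (hg : orderOf g = 5) : Nat.card (Subgroup.centralizer ({g} : Set G)) ∣ 300 := by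
  have hp : Fact (Nat.Prime 5) := ⟨by norm_num⟩
  have hp5 : Nat.Prime 5 := by norm_num
  have hg1 : g ≠ 1 := by
    intro h1
    rw [h1, orderOf_one] at hg
    norm_num at hg
  have hrp : IsPGroup 5 (Subgroup.zpowers r) := IsPGroup.of_card (n := 1) (by rw [Nat.card_zpowers, h.o, pow_one])
  obtain ⟨P, hP⟩ := hrp.exists_le_sylow
  have hr : r ∈ P := hP (Subgroup.mem_zpowers r)
  have hinto : ∀ a : G, orderOf a = 5 → ∃ g : G, g * a * g⁻¹ ∈ P := by
    intro a ha
    have hap : IsPGroup 5 (Subgroup.zpowers a) := IsPGroup.of_card (n := 1) (by rw [Nat.card_zpowers, ha, pow_one])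
    obtain ⟨T, hT⟩ := hap.exists_le_sylow
    obtain ⟨g, hg⟩ := MulAction.exists_smul_eq G T P
    refine ⟨g, ?_⟩
    rw [← hg]
    exact Subgroup.smul_mem_pointwise_smul a (MulAut.conj g) _ (hT (Subgroup.mem_zpowers a))
  have hord : ∀ c a : G, orderOf (c * a * c⁻¹) = orderOf a := fun c a =>
    orderOf_injective (MulAut.conj c).toMonoidHom (MulAut.conj c).injective a
  by_cases hT : TA r g
  · obtain ⟨j, hj⟩ := hT
    rw [← card_cent_conj hj]
    have h1 : r ^ j ≠ 1 := by
      intro h1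
      obtain ⟨c, hc⟩ := isConj_iff.1 hj
      apply hg1
      rw [← hc, h1]; group
    rw [cent_of_zpowers (zpowers_eq_of_mem hp5 h.o (Subgroup.npow_mem_zpowers r j) h1), h.cardM]
  · obtain ⟨c, hcP⟩ := hinto x hx5
    obtain ⟨d, hdP⟩ := hinto g hg
    obtain ⟨f, j, hf⟩ := h.rest_conj P hr hcP ((hord c x).trans hx5) (fun h1 => hxT h1.of_conj) hdP
      (fun h1 => hg1 (conj_eq_one_iff.1 h1)) (fun h1 => hT h1.of_conj)
    have h1 : (c * x * c⁻¹) ^ j ≠ 1 := by
      intro h1
      rw [h1] at hf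
      apply hg1
      rw [← conj_eq_one_iff (a := d), hf]; group
    have h2 : Nat.card (Subgroup.centralizer ({g} : Set G)) = Nat.card (Subgroup.centralizer ({x} : Set G)) := by
      rw [card_cent_conj (isConj_iff.2 ⟨d, rfl⟩ : IsConj g (d * g * d⁻¹)),
        ← card_cent_conj (isConj_iff.2 ⟨f, hf.symm⟩ : IsConj ((c * x * c⁻¹) ^ j) (d * g * d⁻¹)),
        cent_of_zpowers (zpowers_eq_of_mem hp5 ((hord c x).trans hx5) (Subgroup.npow_mem_zpowers _ j) h1),
        ← card_cent_conj (isConj_iff.2 ⟨c, rfl⟩ : IsConj x (c * x * c⁻¹))]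
    rw [h2]
    exact h.cent_B hzz hz1 hx5 hxz hc

end H64.J2
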