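import Mathlib
set_option autoImplicit false

namespace H64.TwoOrbits
open MulAction

variable {G Ω : Type*} [Group G] [MulAction G Ω] (H : Subgroup G)

/-- The intertwining matrix of an `H`-invariant function. -/
noncomputable def mat (c : Ω → ℚ) (x : G ⧸ H) (ω : Ω) : ℚ := c (x.out⁻¹ • ω)

variable {H}

theorem mat_mk (c : Ω → ℚ) (hc : ∀ h ∈ H, ∀ ω, c (h • ω) = c ω) (g : G) (ω : Ω) :
    mat H c (g : G ⧸ H) ω = c (g⁻¹ • ω) := by
  unfold mat
  obtain ⟨h, hh⟩ := QuotientGroup.mk_out_eq_mul H g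
  rw [hh, mul_inv_rev, mul_smul]
  exact hc _ (H.inv_mem h.2) _

theorem mat_smul (c : Ω → ℚ) (hc : ∀ h ∈ H, ∀ ω, c (h • ω) = c ω) (g : G) (x : G ⧸ H) (ω : Ω) :
    mat H c (g • x) (g • ω) = mat H c x ω := by
  induction x using QuotientGroup.induction_on with
  | H z =>
    rw [MulAction.Quotient.smul_mk, smul_eq_mul]
    change mat H c ((g * z : G) : G ⧸ H) (g • ω) = mat H c (z : G ⧸ H) ω
    rw [mat_mk c hc, mat_mk c hc, mul_inv_rev, mul_smul, inv_smul_smul]

/-- The Gram matrix. -/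
noncomputable def gram (H : Subgroup G) [Fintype (G ⧸ H)] (c d : Ω → ℚ) (ω ω' : Ω) : ℚ :=
  ∑ x : G ⧸ H, mat H c x ω * mat H d x ω'

theorem gram_smul [Fintype (G ⧸ H)] (c d : Ω → ℚ) (hc : ∀ h ∈ H, ∀ ω, c (h • ω) = c ω)
    (hd : ∀ h ∈ H, ∀ ω, d (h • ω) = d ω) (g : G) (ω ω' : Ω) :
    gram H c d (g • ω) (g • ω') = gram H c d ω ω' := by
  unfold gram
  rw [← Equiv.sum_comp (MulAction.toPerm g)]
  apply Finset.sum_congr rfl
  intro x _
  rw [MulAction.toPerm_apply, mat_smul c hc, mat_smul d hd]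

/-- If the row sums of `d` vanish, the Gram matrix of `c` and `d` is determined by its diagonal. -/
theorem gram_eq [Fintype Ω] [DecidableEq Ω] [Fintype (G ⧸ H)]
    (h2 : ∀ a b a' b' : Ω, a ≠ b → a' ≠ b' → ∃ g : G, g • a = a' ∧ g • b = b')
    (htr : ∀ a b : Ω, ∃ g : G, g • a = b)
    (c d : Ω → ℚ) (hc : ∀ h ∈ H, ∀ ω, c (h • ω) = c ω)
    (hd : ∀ h ∈ H, ∀ ω, d (h • ω) = d ω) (hs : ∑ ω, d ω = 0) (ω₀ : Ω) :
    ∀ ω ω', gram H c d ω ω' * (Fintype.card Ω - 1 : ℚ) =
      gram H c d ω₀ ω₀ * (if ω = ω' then (Fintype.card Ω - 1 : ℚ) else -1) := by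
  have hrow : ∀ ω, ∑ ω', gram H c d ω ω' = 0 := by
    intro ω
    unfold gram
    rw [Finset.sum_comm]
    apply Finset.sum_eq_zero
    intro x _
    rw [← Finset.mul_sum]
    have : ∑ ω', mat H d x ω' = 0 := by
      unfold mat
      rw [← hs, ← Equiv.sum_comp (MulAction.toPerm (x.out⁻¹ : G)) d]
      rfl
    rw [this, mul_zero]
  have hdiag : ∀ ω, gram H c d ω ω = gram H c d ω₀ ω₀ := by
    intro ω
    obtain ⟨g, rfl⟩ := htr ω₀ ω
    exact gram_smul c d hc hd g _ _
  intro ω ω'
  by_cases h : ω = ω'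
  · subst h
    rw [if_pos rfl, hdiag]
  · rw [if_neg h]
    have hoff : ∀ τ, τ ≠ ω → gram H c d ω τ = gram H c d ω ω' := by
      intro τ hτ
      obtain ⟨g, hg1, hg2⟩ := h2 ω ω' ω τ h (Ne.symm hτ)
      have := gram_smul c d hc hd g ω ω'
      rw [hg1, hg2] at this
      exact this
    have h1 := hrow ω
    rw [← Finset.add_sum_erase _ _ (Finset.mem_univ ω), Finset.sum_congr rfl
      (fun τ hτ => hoff τ (Finset.ne_of_mem_erase hτ)), Finset.sum_const,
      Finset.card_erase_of_mem (Finset.mem_univ ω), Finset.card_univ, hdiag, nsmul_eq_mul] at h1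
    have hpos : 1 ≤ Fintype.card Ω := Fintype.card_pos_iff.mpr ⟨ω⟩
    rw [Nat.cast_sub hpos] at h1
    push_cast at h1
    linear_combination h1

theorem key [Finite G] [Fintype Ω]
    (h2 : ∀ a b a' b' : Ω, a ≠ b → a' ≠ b' → ∃ g : G, g • a = a' ∧ g • b = b')
    (htr : ∀ a b : Ω, ∃ g : G, g • a = b) (hn : 2 ≤ Fintype.card Ω)
    (hidx : H.index = Fintype.card Ω)
    (c1 c2 : Ω → ℚ) (hc1 : ∀ h ∈ H, ∀ ω, c1 (h • ω) = c1 ω) (hc2 : ∀ h ∈ H, ∀ ω, c2 (h • ω) = c2 ω)
    (hs1 : ∑ ω, c1 ω = 0) (hs2 : ∑ ω, c2 ω = 0) (hne : c2 ≠ 0) :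
    ∃ a b : ℚ, a ≠ 0 ∧ a • c1 = b • c2 := by
  classical
  have := Fintype.ofFinite (G ⧸ H)
  have hnq : (2 : ℚ) ≤ Fintype.card Ω := by exact_mod_cast hn
  have : Nonempty Ω := Fintype.card_pos_iff.mp (by omega)
  obtain ⟨ω₀⟩ := this
  set α12 := gram H c2 c1 ω₀ ω₀ with hα12
  set α22 := gram H c2 c2 ω₀ ω₀ with hα22
  have hg22 := gram_eq h2 htr c2 c2 hc2 hc2 hs2 ω₀
  -- α22 ≠ 0
  have hα22ne : α22 ≠ 0 := by
    intro h0
    apply hne
    funext ω
    have h1 : gram H c2 c2 ω ω = 0 := by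
      have := hg22 ω ω
      rw [← hα22, h0, zero_mul] at this
      rcases mul_eq_zero.mp this with h | h
      · exact h
      · linarith
    unfold gram at h1
    have h3 := (Finset.sum_eq_zero_iff_of_nonneg (fun x _ => mul_self_nonneg _)).mp h1
      ((1 : G) : G ⧸ H) (Finset.mem_univ _)
    rw [mat_mk c2 hc2, inv_one, one_smul, mul_self_eq_zero] at h3
    exact h3
  refine ⟨α22, α12, hα22ne, ?_⟩
  -- the combination
  set c : Ω → ℚ := α22 • c1 - α12 • c2 with hcdef
  have hc : ∀ h ∈ H, ∀ ω, c (h • ω) = c ω := by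
    intro h hh ω
    simp only [hcdef, Pi.sub_apply, Pi.smul_apply, hc1 h hh, hc2 h hh]
  have hsc : ∑ ω, c ω = 0 := by
    simp only [hcdef, Pi.sub_apply, Pi.smul_apply, smul_eq_mul]
    rw [Finset.sum_sub_distrib, ← Finset.mul_sum, ← Finset.mul_sum, hs1, hs2]
    ring
  have hmatc : ∀ x ω, mat H c x ω = α22 * mat H c1 x ω - α12 * mat H c2 x ω := fun x ω => rfl
  have hgc : gram H c2 c ω₀ ω₀ = 0 := by
    have : gram H c2 c ω₀ ω₀ = α22 * gram H c2 c1 ω₀ ω₀ - α12 * gram H c2 c2 ω₀ ω₀ := by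
      unfold gram
      rw [Finset.mul_sum, Finset.mul_sum, ← Finset.sum_sub_distrib]
      apply Finset.sum_congr rfl
      intro x _
      rw [hmatc]; ring
    rw [this, ← hα12, ← hα22]
    ring
  have hg2c : ∀ ω ω', gram H c2 c ω ω' = 0 := by
    intro ω ω'
    have := gram_eq h2 htr c2 c hc2 hc hsc ω₀ ω ω'
    rw [hgc, zero_mul] at this
    rcases mul_eq_zero.mp this with h | h
    · exact h
    · linarith
  -- column sums vanish
  have hcol : ∀ (d : Ω → ℚ), (∀ h ∈ H, ∀ ω, d (h • ω) = d ω) → ∑ ω, d ω = 0 →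
      ∀ ω, ∑ x : G ⧸ H, mat H d x ω = 0 := by
    intro d hd hsd ω
    have hconst : ∀ ω', ∑ x : G ⧸ H, mat H d x ω' = ∑ x : G ⧸ H, mat H d x ω := by
      intro ω'
      obtain ⟨g, rfl⟩ := htr ω ω'
      rw [← Equiv.sum_comp (MulAction.toPerm g)]
      apply Finset.sum_congr rfl
      intro x _
      rw [MulAction.toPerm_apply, mat_smul d hd]
    have htot : ∑ ω' : Ω, ∑ x : G ⧸ H, mat H d x ω' = 0 := by
      rw [Finset.sum_comm]
      apply Finset.sum_eq_zero
      intro x _
      unfold mat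
      rw [← hsd, ← Equiv.sum_comp (MulAction.toPerm (x.out⁻¹ : G)) d]
      rfl
    rw [Finset.sum_congr rfl (fun ω' _ => hconst ω'), Finset.sum_const, Finset.card_univ,
      nsmul_eq_mul] at htot
    rcases mul_eq_zero.mp htot with h | h
    · linarith
    · exact h
  -- square matrix
  have hcardX : Fintype.card (G ⧸ H) = Fintype.card Ω := by
    rw [← hidx, Subgroup.index, Nat.card_eq_fintype_card]
  let e : (G ⧸ H) ≃ Ω := Fintype.equivOfCardEq hcardX
  let A : Matrix Ω Ω ℚ := fun y ω => mat H c2 (e.symm y) ω + 1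
  have hAinj : Function.Injective A.mulVec := by
    intro u v huv
    have h0 : A.mulVec (u - v) = 0 := by rw [Matrix.mulVec_sub, huv, sub_self]
    set w := u - v with hw
    have h1 : ∀ x : G ⧸ H, ∑ ω, mat H c2 x ω * w ω + ∑ ω, w ω = 0 := by
      intro x
      have := congrFun h0 (e x)
      simp only [Matrix.mulVec, dotProduct, A, Equiv.symm_apply_apply, Pi.zero_apply] at this
      rw [← Finset.sum_add_distrib]
      rw [← this]
      apply Finset.sum_congr rfl
      intro ω _
      ring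
    -- sum over x of the relation
    have h3 : (Fintype.card Ω : ℚ) * ∑ ω, w ω = 0 := by
      have h4 : ∑ x : G ⧸ H, (∑ ω, mat H c2 x ω * w ω + ∑ ω, w ω) = 0 :=
        Finset.sum_eq_zero (fun x _ => h1 x)
      rw [Finset.sum_add_distrib, Finset.sum_comm] at h4
      rw [Finset.sum_congr rfl (fun ω _ => by rw [← Finset.sum_mul, hcol c2 hc2 hs2 ω, zero_mul]),
        Finset.sum_const_zero, zero_add, Finset.sum_const, Finset.card_univ, hcardX,
        nsmul_eq_mul] at h4
      exact h4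
    have h5 : ∑ ω, w ω = 0 := by
      rcases mul_eq_zero.mp h3 with h | h
      · linarith
      · exact h
    have h6 : ∀ ω, ∑ ω', gram H c2 c2 ω ω' * w ω' = 0 := by
      intro ω
      unfold gram
      have : ∀ ω', (∑ x : G ⧸ H, mat H c2 x ω * mat H c2 x ω') * w ω' =
          ∑ x : G ⧸ H, mat H c2 x ω * (mat H c2 x ω' * w ω') := by
        intro ω'
        rw [Finset.sum_mul]
        apply Finset.sum_congr rfl
        intro x _
        ring
      rw [Finset.sum_congr rfl (fun ω' _ => this ω'), Finset.sum_comm]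
      apply Finset.sum_eq_zero
      intro x _
      rw [← Finset.mul_sum]
      have := h1 x
      rw [h5, add_zero] at this
      rw [this, mul_zero]
    have h7 : ∀ ω, w ω = 0 := by
      intro ω
      have h8 : ∑ ω', (gram H c2 c2 ω ω' * (Fintype.card Ω - 1 : ℚ)) * w ω' = 0 := by
        have := h6 ω
        calc ∑ ω', (gram H c2 c2 ω ω' * (Fintype.card Ω - 1 : ℚ)) * w ω'
            = (Fintype.card Ω - 1 : ℚ) * ∑ ω', gram H c2 c2 ω ω' * w ω' := by
              rw [Finset.mul_sum]; apply Finset.sum_congr rfl; intro x _; ring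
          _ = 0 := by rw [this, mul_zero]
      rw [Finset.sum_congr rfl (fun ω' _ => by rw [hg22 ω ω'])] at h8
      have h9 : ∀ ω', gram H c2 c2 ω₀ ω₀ * (if ω = ω' then (Fintype.card Ω - 1 : ℚ) else -1) * w ω' =
          α22 * (if ω = ω' then (Fintype.card Ω : ℚ) * w ω' else 0) - α22 * w ω' := by
        intro ω'
        rw [← hα22]
        split_ifs <;> ring
      rw [Finset.sum_congr rfl (fun ω' _ => h9 ω'), Finset.sum_sub_distrib, ← Finset.mul_sum,
        ← Finset.mul_sum, h5, Finset.sum_ite_eq, if_pos (Finset.mem_univ _), mul_zero, sub_zero] at h8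
      rcases mul_eq_zero.mp h8 with h | h
      · exact absurd h hα22ne
      · rcases mul_eq_zero.mp h with h | h
        · linarith
        · exact h
    exact sub_eq_zero.mp (funext h7)
  have hAT : Function.Injective A.vecMul := by
    rw [Matrix.vecMul_injective_iff_isUnit, ← Matrix.mulVec_injective_iff_isUnit]
    exact hAinj
  -- the columns of `mat c` are killed
  have hfin : ∀ ω, (fun y => mat H c (e.symm y) ω) = 0 := by
    intro ω
    apply hAT
    change Matrix.vecMul (fun y => mat H c (e.symm y) ω) A = Matrix.vecMul 0 A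
    rw [Matrix.zero_vecMul]
    funext ω'
    simp only [Matrix.vecMul, dotProduct, A, Pi.zero_apply]
    rw [← Equiv.sum_comp e]
    simp only [Equiv.symm_apply_apply]
    have h1 := hg2c ω' ω
    unfold gram at h1
    have h3 := hcol c hc hsc ω
    calc ∑ x, mat H c x ω * (mat H c2 x ω' + 1) = ∑ x, mat H c2 x ω' * mat H c x ω + ∑ x, mat H c x ω := by
          rw [← Finset.sum_add_distrib]; apply Finset.sum_congr rfl; intro x _; ring
      _ = 0 := by rw [h1, h3, add_zero]
  have hc0 : c = 0 := by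
    funext ω
    have := congrFun (hfin ω) (e ((1 : G) : G ⧸ H))
    simp only [Equiv.symm_apply_apply, Pi.zero_apply] at this
    rw [mat_mk c hc, inv_one, one_smul] at this
    exact this
  rw [hcdef, sub_eq_zero] at hc0
  exact hc0

/-- A subgroup of index `n` in a 2-transitive group of degree `n` has at most two orbits. -/
theorem card_orbits_le_two [Finite G] [Finite Ω] (h2' : IsMultiplyPretransitive G Ω 2)
    (hidx : H.index = Nat.card Ω) : Nat.card (orbitRel.Quotient H Ω) ≤ 2 := by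
  classical
  have := Fintype.ofFinite Ω
  have : Finite (orbitRel.Quotient H Ω) := Quotient.finite _
  have := Fintype.ofFinite (orbitRel.Quotient H Ω)
  have h2 : ∀ a b a' b' : Ω, a ≠ b → a' ≠ b' → ∃ g : G, g • a = a' ∧ g • b = b' :=
    fun a b a' b' h h' => is_two_pretransitive_iff.mp h2' h h'
  have htr : ∀ a b : Ω, ∃ g : G, g • a = b := by
    have : IsPretransitive G Ω := isPretransitive_of_is_two_pretransitive
    exact fun a b => exists_smul_eq G a b
  by_contra hcon
  push Not at hcon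
  rw [Nat.card_eq_fintype_card, Fintype.two_lt_card_iff] at hcon
  obtain ⟨p, q, r, hpq, hpr, hqr⟩ := hcon
  let π : Ω → orbitRel.Quotient H Ω := fun ω => Quotient.mk _ ω
  have hπ : ∀ h ∈ H, ∀ ω, π (h • ω) = π ω := by
    intro h hh ω
    apply Quotient.sound
    change h • ω ∈ orbit H ω
    exact ⟨⟨h, hh⟩, rfl⟩
  let s : orbitRel.Quotient H Ω → ℚ := fun a => ∑ ω, if π ω = a then 1 else 0
  have hspos : ∀ a, s a ≠ 0 := by
    intro a
    obtain ⟨ω, hω⟩ := Quotient.exists_rep a
    have : 0 < s a := by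
      apply Finset.sum_pos'
      · intro x _; split_ifs <;> norm_num
      · exact ⟨ω, Finset.mem_univ _, by rw [if_pos hω]; norm_num⟩
    exact this.ne'
  let f : orbitRel.Quotient H Ω → orbitRel.Quotient H Ω → Ω → ℚ := fun a b ω =>
    s b * (if π ω = a then 1 else 0) - s a * (if π ω = b then 1 else 0)
  have hf : ∀ a b, ∀ h ∈ H, ∀ ω, f a b (h • ω) = f a b ω := by
    intro a b h hh ω
    simp only [f, hπ h hh]
  have hfs : ∀ a b, ∑ ω, f a b ω = 0 := by
    intro a b
    simp only [f]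
    rw [Finset.sum_sub_distrib, ← Finset.mul_sum, ← Finset.mul_sum]
    change s b * s a - s a * s b = 0
    ring
  obtain ⟨ωp, hωp⟩ := Quotient.exists_rep p
  obtain ⟨ωq, hωq⟩ := Quotient.exists_rep q
  obtain ⟨ωr, hωr⟩ := Quotient.exists_rep r
  have hωp' : π ωp = p := hωp
  have hωq' : π ωq = q := hωq
  have hωr' : π ωr = r := hωr
  have hn : 2 ≤ Fintype.card Ω := by
    have : ωp ≠ ωq := by
      rintro rfl
      exact hpq (hωp'.symm.trans hωq')
    exact Fintype.one_lt_card_iff.mpr ⟨_, _, this⟩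
  have hfne : f p r ≠ 0 := by
    intro h
    have := congrFun h ωp
    simp only [f, hωp', if_true, if_neg hpr, mul_one, mul_zero, sub_zero, Pi.zero_apply] at this
    exact hspos r this
  obtain ⟨a, b, ha, hab⟩ := key h2 htr hn (by rw [hidx, Nat.card_eq_fintype_card]) (f p q) (f p r)
    (hf p q) (hf p r) (hfs p q) (hfs p r) hfne
  have h3 := congrFun hab ωq
  simp only [f, hωq', Pi.smul_apply, if_neg hpq.symm, if_true, if_neg hqr, mul_one, mul_zero,
    sub_zero, zero_sub, smul_eq_mul] at h3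
  rcases mul_eq_zero.mp h3 with h | h
  · exact ha h
  · exact hspos p (neg_eq_zero.mp h)

/-- A subgroup of index `n` in a 2-transitive group of degree `n` which is intransitive has exactly
two orbits. -/
theorem card_orbits_eq_two [Finite G] [Finite Ω] (h2' : IsMultiplyPretransitive G Ω 2)
    (hidx : H.index = Nat.card Ω) (hnt : ¬ IsPretransitive H Ω) :
    Nat.card (orbitRel.Quotient H Ω) = 2 := by
  have : Finite (orbitRel.Quotient H Ω) := Quotient.finite _
  have h1 := card_orbits_le_two h2' hidx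
  have h3 : 1 < Nat.card (orbitRel.Quotient H Ω) := by
    rw [Finite.one_lt_card_iff_nontrivial]
    by_contra hcon
    rw [not_nontrivial_iff_subsingleton] at hcon
    apply hnt
    constructor
    intro x y
    have := Quotient.exact (hcon.elim (Quotient.mk _ y : orbitRel.Quotient H Ω) (Quotient.mk _ x))
    exact this
  omega

end H64.TwoOrbits
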