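import Mathlib
import Cfsg.Prelude.Def_SporadicB

/-!
# S1315, piece P8 (helper69): types
-/

set_option autoImplicit false

universe u

open Subgroup

namespace H64.IcP8

theorem card_quot_congr {A B : Type*} [Group A] [Group B] (e : A ≃* B) :
    Nat.card (A ⧸ center A) = Nat.card (B ⧸ center B) := by
  refine Nat.card_congr (QuotientGroup.congr (center A) (center B) e ?_).toEquiv
  ext x
  rw [Subgroup.mem_map, Subgroup.mem_center_iff]
  constructor
  · rintro ⟨a, ha, rfl⟩ y
    rw [Subgroup.mem_center_iff] at ha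
    have h1 := ha (e.symm y)
    have h3 := congrArg e h1
    rw [map_mul, map_mul, MulEquiv.apply_symm_apply] at h3
    exact h3
  · intro h
    refine ⟨e.symm x, Subgroup.mem_center_iff.mpr (fun a => ?_), by simp⟩
    apply e.injective
    rw [map_mul, map_mul, MulEquiv.apply_symm_apply]
    exact h (e a)

theorem sq_of_sl {A : Type*} [Group A] {F : Type} [Field F] (e : A ≃* Matrix.SpecialLinearGroup (Fin 2) F) :
    ∀ c ∈ center A, c * c = 1 := by
  intro c hc
  have h1 : e c ∈ center (Matrix.SpecialLinearGroup (Fin 2) F) := by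
    rw [Subgroup.mem_center_iff] at hc ⊢
    intro y
    have h1 := hc (e.symm y)
    have h3 := congrArg e h1
    rw [map_mul, map_mul, MulEquiv.apply_symm_apply] at h3
    exact h3
  rw [Matrix.SpecialLinearGroup.mem_center_iff] at h1
  obtain ⟨r, hr, hs⟩ := h1
  apply e.injective
  rw [map_mul, map_one]
  apply Subtype.ext
  rw [Matrix.SpecialLinearGroup.coe_mul, ← hs, ← map_mul, Matrix.SpecialLinearGroup.coe_one]
  rw [Fintype.card_fin, pow_two] at hr
  rw [hr, map_one]

theorem sq_of_card {A : Type*} [Group A] (h : Nat.card (center A) = 2) : ∀ c ∈ center A, c * c = 1 := by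
  intro c hc
  have h1 : (⟨c, hc⟩ : center A) ^ Nat.card (center A) = 1 := pow_card_eq_one'
  rw [h, pow_two] at h1
  exact congrArg Subtype.val h1

theorem types {A B : Type u} [Group A] [Group B] [Finite A] [Finite B]
    (h : (∃ (F : Type) (_ : Field F) (_ : Fintype F), Odd (Fintype.card F) ∧
        Nonempty (A ≃* Matrix.SpecialLinearGroup (Fin 2) F) ∧ Nonempty (B ≃* Matrix.SpecialLinearGroup (Fin 2) F)) ∨
      (Cfsg.IsNonsplitDoubleCover A ↥(alternatingGroup (Fin 7)) ∧
        Cfsg.IsNonsplitDoubleCover B ↥(alternatingGroup (Fin 7)))) :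
    Nat.card (A ⧸ center A) = Nat.card (B ⧸ center B) ∧ (∀ c ∈ center A, c * c = 1) ∧
      (∀ c ∈ center B, c * c = 1) := by
  rcases h with ⟨F, _, _, -, ⟨e⟩, ⟨f⟩⟩ | ⟨⟨ha1, ⟨ea⟩, -⟩, ⟨hb1, ⟨eb⟩, -⟩⟩
  · exact ⟨card_quot_congr (e.trans f.symm), sq_of_sl e, sq_of_sl f⟩
  · exact ⟨Nat.card_congr (ea.trans eb.symm).toEquiv, sq_of_card ha1, sq_of_card hb1⟩

end H64.IcP8
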