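import Mathlib

set_option autoImplicit false

/-! Further finite facts about the symmetric group of degree five. -/

namespace H64.J2

theorem cent_three : ∀ σ : Equiv.Perm (Fin 5), (σ ^ 3 = 1 ∧ σ ≠ 1) → ∀ ρ : Equiv.Perm (Fin 5),
    (Equiv.Perm.sign ρ = 1 ∧ ρ * σ = σ * ρ) → (ρ = 1 ∨ ρ = σ ∨ ρ = σ ^ 2) := by decide +kernel

theorem no_sq5 : ∀ σ : Equiv.Perm (Fin 5), (σ ^ 5 = 1 ∧ σ ≠ 1) → ∀ ρ : Equiv.Perm (Fin 5),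
    Equiv.Perm.sign ρ = 1 → ρ * σ ≠ σ ^ 2 * ρ := by decide +kernel

theorem inv5 : ∀ σ : Equiv.Perm (Fin 5), (σ ^ 5 = 1 ∨ (Equiv.Perm.sign σ = 1 ∧ σ ^ 3 = 1)) →
    ∃ ρ : Equiv.Perm (Fin 5), Equiv.Perm.sign ρ = 1 ∧ ρ * σ = σ⁻¹ * ρ := by decide +kernel

theorem conj_inv5 : ∀ σ : Equiv.Perm (Fin 5), (Equiv.Perm.sign σ = 1 ∧ σ * σ = 1 ∧ σ ≠ 1) →
    ∀ τ : Equiv.Perm (Fin 5), (Equiv.Perm.sign τ = 1 ∧ τ * τ = 1 ∧ τ ≠ 1) →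
    ∃ ρ : Equiv.Perm (Fin 5), Equiv.Perm.sign ρ = 1 ∧ ρ * σ = τ * ρ := by decide +kernel

theorem conj_three : ∀ σ : Equiv.Perm (Fin 5), (σ ^ 3 = 1 ∧ σ ≠ 1) →
    ∀ τ : Equiv.Perm (Fin 5), (τ ^ 3 = 1 ∧ τ ≠ 1) →
    ∃ ρ : Equiv.Perm (Fin 5), Equiv.Perm.sign ρ = 1 ∧ ρ * σ = τ * ρ := by decide +kernel

end H64.J2
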