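import Cfsg.Agent.Lib.H64.J2R

set_option autoImplicit false

/-! Groups with a four-group all of whose involutions have centralizer equal to the four-group. -/

namespace H64.J2

section klein
variable {F : Type*} [Group F] [Finite F] {V : Subgroup F}

/-- a four-group acting on a group of odd order with trivial centralizers -/
theorem four_acts (hc : Nat.card V = 4) (hsq : ∀ v ∈ V, v * v = 1)
    {U : Subgroup F} (hU : U.Normal) (hcent : ∀ v ∈ V, v ≠ 1 → ∀ u ∈ U, v * u = u * v → u = 1) :
    U = ⊥ := by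
  -- an involution acting without fixed points inverts
  have hinv : ∀ v ∈ V, v ≠ 1 → ∀ u ∈ U, v * u * v = u⁻¹ := by
    intro v hv hv1 u hu
    have hvi : v⁻¹ = v := inv_eq_of_mul_eq_one_right (hsq v hv)
    let φ : U → U := fun w => ⟨(w : F)⁻¹ * (v * w * v⁻¹), U.mul_mem (U.inv_mem w.2) (hU.conj_mem _ w.2 v)⟩
    have hφ : Function.Injective φ := by
      intro a b hab
      have h1 : (a : F)⁻¹ * (v * a * v⁻¹) = (b : F)⁻¹ * (v * b * v⁻¹) := congrArg Subtype.val hab
      have h2 : (b : F) * (a : F)⁻¹ ∈ U := U.mul_mem b.2 (U.inv_mem a.2)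
      have h3 : v * ((b : F) * (a : F)⁻¹) = ((b : F) * (a : F)⁻¹) * v := by
        have h4 : (b : F) * (a : F)⁻¹ = (v * b * v⁻¹) * (v * a * v⁻¹)⁻¹ := by
          calc (b : F) * (a : F)⁻¹ = b * ((a : F)⁻¹ * (v * a * v⁻¹)) * (v * a * v⁻¹)⁻¹ := by group
            _ = b * ((b : F)⁻¹ * (v * b * v⁻¹)) * (v * a * v⁻¹)⁻¹ := by rw [h1]
            _ = _ := by group
        calc v * ((b : F) * (a : F)⁻¹) = (v * b * v⁻¹) * (v * a * v⁻¹)⁻¹ * v := by group
          _ = ((b : F) * (a : F)⁻¹) * v := by rw [← h4]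
      have h5 := hcent v hv hv1 _ h2 h3
      exact Subtype.ext (mul_inv_eq_one.1 h5).symm
    have hsurj := Finite.surjective_of_injective hφ
    obtain ⟨w, hw⟩ := hsurj ⟨u, hu⟩
    have hw' : (w : F)⁻¹ * (v * w * v⁻¹) = u := congrArg Subtype.val hw
    rw [hvi] at hw'
    rw [← hw']
    calc v * ((w : F)⁻¹ * (v * w * v)) * v = v * (w : F)⁻¹ * v * w * (v * v) := by group
      _ = v⁻¹ * (w : F)⁻¹ * v⁻¹ * w := by rw [hsq v hv, mul_one, hvi]
      _ = ((w : F)⁻¹ * (v * w * v))⁻¹ := by group
  rw [eq_bot_iff]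
  intro u hu
  rw [Subgroup.mem_bot]
  -- two distinct involutions
  obtain ⟨a, b, ha, hb, ha1, hb1, hab⟩ : ∃ a b, a ∈ V ∧ b ∈ V ∧ a ≠ 1 ∧ b ≠ 1 ∧ a ≠ b := by
    by_contra hcon
    push Not at hcon
    have h1 : (V : Set F) ⊆ {1} ∪ {x | x ∈ V ∧ x ≠ 1} := by
      intro x hx
      by_cases hx1 : x = 1
      · exact Or.inl hx1
      · exact Or.inr ⟨hx, hx1⟩
    have h2 : ({x | x ∈ V ∧ x ≠ 1} : Set F).ncard ≤ 1 := by
      rw [Set.ncard_le_one_iff]
      rintro x y ⟨hx, hx1⟩ ⟨hy, hy1⟩
      exact hcon x y hx hy hx1 hy1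
    have h3 := (Set.ncard_le_ncard h1 (Set.toFinite _)).trans (Set.ncard_union_le _ _)
    rw [← card_eq_ncard, hc, Set.ncard_singleton] at h3
    omega
  have h1 := hinv a ha ha1 u hu
  have h2 := hinv b hb hb1 _ (U.inv_mem hu)
  have hab1 : b * a ≠ 1 := by
    intro h
    apply hab
    calc a = (b * b) * a := by rw [hsq b hb, one_mul]
      _ = b * (b * a) := by group
      _ = b := by rw [h, mul_one]
  have h3 : b * a * u * (b * a)⁻¹ = u := by
    have hai : a⁻¹ = a := inv_eq_of_mul_eq_one_right (hsq a ha)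
    have hbi : b⁻¹ = b := inv_eq_of_mul_eq_one_right (hsq b hb)
    calc b * a * u * (b * a)⁻¹ = b * (a * u * a⁻¹) * b⁻¹ := by group
      _ = b * (a * u * a) * b := by rw [hai, hbi]
      _ = u := by rw [h1, h2, inv_inv]
  exact hcent (b * a) (V.mul_mem hb ha) hab1 u hu (mul_inv_eq_iff_eq_mul.1 h3)

/-- The trichotomy: a finite group with a four-group equal to the centralizer of each of its involutions. -/
theorem klein_cases (hc : Nat.card V = 4) (hsq : ∀ v ∈ V, v * v = 1)
    (hcent : ∀ v ∈ V, v ≠ 1 → Subgroup.centralizer ({v} : Set F) = V) :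
    Nat.card F = 4 ∨ Nat.card F = 12 ∨ Nonempty (F ≃* alternatingGroup (Fin 5)) := by
  have hp : Fact (Nat.Prime 2) := ⟨Nat.prime_two⟩
  have hcomm : ∀ a ∈ V, ∀ b ∈ V, a * b = b * a := by
    intro a ha b hb
    by_cases h1 : a = 1
    · rw [h1, one_mul, mul_one]
    · have h2 := hcent a ha h1
      have h3 : b ∈ Subgroup.centralizer ({a} : Set F) := by rw [h2]; exact hb
      exact (Subgroup.mem_centralizer_singleton_iff.1 h3).symm
  have hVp : IsPGroup 2 V := IsPGroup.of_card (n := 2) (by rw [hc]; norm_num)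
  -- conjugates
  have hconj : ∀ g : F, ∀ v ∈ V, v ≠ 1 → g * v * g⁻¹ ∈ V → ∀ w ∈ V, g * w * g⁻¹ ∈ V := by
    intro g v hv hv1 hgv w hw
    have h1 : g * v * g⁻¹ ≠ 1 := fun h => hv1 (conj_eq_one_iff.1 h)
    rw [← hcent _ hgv h1]
    refine Subgroup.mem_centralizer_singleton_iff.2 ?_
    have h2 := hcomm w hw v hv
    calc g * w * g⁻¹ * (g * v * g⁻¹) = g * (w * v) * g⁻¹ := by group
      _ = g * v * g⁻¹ * (g * w * g⁻¹) := by rw [h2]; group
  -- `V` is a Sylow 2-subgroup
  obtain ⟨S, hS⟩ : ∃ S : Sylow 2 F, (S : Subgroup F) = V := by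
    apply exists_sylow_of_norm hVp
    rintro g ⟨k, hk⟩ hg
    -- `g` fixes an involution of `V`
    have hfix : ∃ v ∈ V, v ≠ 1 ∧ g * v * g⁻¹ = v := by
      have hgk : ∀ j : ℕ, ∀ v ∈ V, g ^ j * v * (g ^ j)⁻¹ ∈ V := by
        intro j
        induction j with
        | zero => intro v hv; simpa using hv
        | succ j ih =>
          intro v hv
          have e : g ^ (j + 1) * v * (g ^ (j + 1))⁻¹ = g * (g ^ j * v * (g ^ j)⁻¹) * g⁻¹ := by rw [pow_succ']; group
          rw [e]
          exact hg _ (ih v hv)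
      have hgz : ∀ c ∈ Subgroup.zpowers g, ∀ v ∈ V, c * v * c⁻¹ ∈ V := by
        intro c hcg v hv
        obtain ⟨j, rfl⟩ := (isOfFinOrder_of_finite g).mem_powers_iff_mem_zpowers.2 hcg
        exact hgk j v hv
      let act : MulAction (Subgroup.zpowers g) V :=
        { smul := fun c w => ⟨c * w * (c : F)⁻¹, hgz c c.2 w w.2⟩
          one_smul := fun w => Subtype.ext (by change (1 : F) * w * (1 : F)⁻¹ = w; simp)
          mul_smul := fun a b w => Subtype.ext (by
            change ((a : F) * b) * w * ((a : F) * b)⁻¹ = a * (b * w * (b : F)⁻¹) * (a : F)⁻¹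
            group) }
      have hpg : IsPGroup 2 (Subgroup.zpowers g) := by
        obtain ⟨j, -, hj⟩ := (Nat.dvd_prime_pow Nat.prime_two).1 (orderOf_dvd_of_pow_eq_one hk)
        exact IsPGroup.of_card (n := j) (by rw [Nat.card_zpowers, hj])
      have h2 : (2 : ℕ) ∣ Nat.card V := by rw [hc]; norm_num
      obtain ⟨w, hw, hw1⟩ := hpg.exists_fixed_point_of_prime_dvd_card_of_fixed_point V h2
        (a := 1) (by
          rw [MulAction.mem_fixedPoints]
          intro c
          apply Subtype.ext
          change (c : F) * 1 * (c : F)⁻¹ = 1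
          group)
      rw [MulAction.mem_fixedPoints] at hw
      refine ⟨w, w.2, fun h => hw1 (Subtype.ext h).symm, ?_⟩
      exact congrArg Subtype.val (hw ⟨g, Subgroup.mem_zpowers g⟩)
    obtain ⟨v, hv, hv1, hgv⟩ := hfix
    rw [← hcent v hv hv1]
    exact Subgroup.mem_centralizer_singleton_iff.2 (mul_inv_eq_iff_eq_mul.1 hgv)
  obtain ⟨x, hxV, hx1⟩ : ∃ x ∈ V, x ≠ 1 := by
    have : Nontrivial V := (Finite.one_lt_card_iff_nontrivial).1 (by rw [hc]; norm_num)
    obtain ⟨e, he⟩ := exists_ne (1 : V)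
    exact ⟨e, e.2, fun h => he (Subtype.ext h)⟩
  have hx2 : orderOf x = 2 := orderOf_eq_prime (by rw [pow_two]; exact hsq x hxV) hx1
  by_cases hnc : Cfsg.HasNormalPComplement 2 F
  · left
    obtain ⟨P, N, hN, hNP⟩ := hnc
    have h1 : N = ⊥ := by
      apply four_acts hc hsq hN
      · intro v hv hv1 u hu huv
        have h2 : u ∈ V := by
          rw [← hcent v hv hv1]
          exact Subgroup.mem_centralizer_singleton_iff.2 huv.symm
        by_contra hu1
        have h3 : orderOf u = 2 := orderOf_eq_prime (by rw [pow_two]; exact hsq u h2) hu1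
        have h4 : orderOf u ∣ Nat.card N := by
          rw [← Subgroup.orderOf_mk u hu]
          exact orderOf_dvd_natCard _
        rw [h3] at h4
        apply P.not_dvd_index
        rw [hNP.index_eq_card]
        exact h4
    have h2 : (P : Subgroup F) = ⊤ := by
      rw [← Subgroup.index_eq_one, hNP.index_eq_card, h1, Subgroup.card_bot]
    have h3 : Nat.card P = Nat.card S := Nat.card_congr (Sylow.equiv P S).toEquiv
    have h4 : Nat.card S = 4 := by
      rw [← hc, ← hS]
    rw [← h4, ← h3]
    change Nat.card F = Nat.card (P : Subgroup F)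
    rw [h2, Subgroup.card_top]
  by_cases hVn : V.Normal
  · right; left
    -- the action on the three involutions
    have hclass := H18.CharInd.card_isConj_mul_card_centralizer x
    rw [hcent x hxV hx1, hc] at hclass
    have hle : Nat.card {u : F // IsConj x u} ≤ 3 := by
      have e2 : ((V : Set F) \ {1}).ncard = 3 := by
        rw [Set.ncard_sdiff_singleton_of_mem V.one_mem, ← card_eq_ncard, hc]
      rw [← e2]
      have e3 : Nat.card {u : F // IsConj x u} = {u : F | IsConj x u}.ncard := Nat.card_coe_set_eq _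
      rw [e3]
      apply Set.ncard_le_ncard _ (Set.toFinite _)
      intro u hu
      obtain ⟨g, hg⟩ := isConj_iff.1 hu
      refine ⟨?_, ?_⟩
      · rw [← hg]; exact hVn.conj_mem x hxV g
      · rintro (rfl : u = 1)
        exact hx1 (conj_eq_one_iff.1 hg)
    have hpos : 0 < Nat.card {u : F // IsConj x u} := Nat.card_pos_iff.2 ⟨⟨⟨x, IsConj.refl x⟩⟩, inferInstance⟩
    -- not 1 (no normal complement) and odd
    have h3 : ¬ 2 ∣ Nat.card {u : F // IsConj x u} := by
      intro h2
      apply S.not_dvd_index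
      have h4 := (S : Subgroup F).card_mul_index
      rw [hS, hc] at h4
      rw [hS]
      omega
    have hne1 : Nat.card {u : F // IsConj x u} ≠ 1 := by
      intro h4
      rw [h4, one_mul] at hclass
      apply hnc
      refine ⟨S, ⊥, inferInstance, ?_⟩
      have h5 : (S : Subgroup F) = ⊤ := by
        rw [hS]
        apply Subgroup.eq_top_of_card_eq
        rw [hc, hclass]
      rw [h5]
      exact Subgroup.isComplement'_bot_top
    have h5 : Nat.card {u : F // IsConj x u} = 3 := by omega
    rw [h5] at hclass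
    exact hclass.symm
  · right; right
    refine H59.Klein1.main x hx2 ?_ ?_ hnc ?_
    · rw [hcent x hxV hx1, hc]
    · intro c hcc
      rw [hcent x hxV hx1] at hcc
      rw [pow_two]
      exact hsq c hcc
    · intro E hE hel
      have hall : ∀ u : F, u * u = 1 → u ≠ 1 → ∃ g : F, g * u * g⁻¹ ∈ V ∧ g * u * g⁻¹ ≠ 1 := by
        intro u hu hu1
        obtain ⟨g, hg⟩ := H25.Fus.exists_conj_mem_sylow S u 1 (by rw [pow_one, pow_two, hu])
        rw [hS] at hg
        exact ⟨g, hg, fun h => hu1 (conj_eq_one_iff.1 h)⟩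
      have hEle : ∀ u ∈ E, u ∈ V := by
        intro u hu
        by_cases hu1 : u = 1
        · rw [hu1]; exact V.one_mem
        have h2 : IsPGroup 2 E := by
          intro w
          exact ⟨1, Subtype.ext (by rw [pow_one]; exact hel.2 w w.2)⟩
        have h3 := h2.le_sylow_of_normal S hu
        rw [hS] at h3
        exact h3
      constructor
      · intro h2
        apply hVn
        -- `E` is central
        obtain ⟨w, hw, hw1⟩ : ∃ w ∈ E, w ≠ 1 := by
          have : Nontrivial E := (Finite.one_lt_card_iff_nontrivial).1 (by rw [h2]; norm_num)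
          obtain ⟨e, he⟩ := exists_ne (1 : E)
          exact ⟨e, e.2, fun h => he (Subtype.ext h)⟩
        have hcen : ∀ g : F, g * w * g⁻¹ = w := by
          intro g
          by_contra hne
          have h9 : ({1, w, g * w * g⁻¹} : Set F) ⊆ (E : Set F) := by
            rintro x (rfl | rfl | rfl)
            · exact E.one_mem
            · exact hw
            · exact hE.conj_mem w hw g
          have h10 := Set.ncard_le_ncard h9 (Set.toFinite _)
          rw [Set.ncard_eq_three.2 ⟨1, w, g * w * g⁻¹, Ne.symm hw1, fun h => hw1 (conj_eq_one_iff.1 h.symm), Ne.symm hne, rfl⟩,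
            ← card_eq_ncard, h2] at h10
          omega
        have h11 := hcent w (hEle w hw) hw1
        have h12 : V = ⊤ := by
          rw [← h11, eq_top_iff]
          intro g _
          exact Subgroup.mem_centralizer_singleton_iff.2 (mul_inv_eq_iff_eq_mul.1 (hcen g))
        rw [h12]
        infer_instance
      · intro h4
        apply hVn
        have h5 : E = V := Subgroup.eq_of_le_of_card_ge hEle (by rw [hc, h4])
        rw [← h5]
        exact hE

end klein

end H64.J2
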