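import Cfsg.Agent.Lib.H64.J2S
import Cfsg.Agent.Lib.H64.J2P2

set_option autoImplicit false

/-! Centralizers of elements of order three and five in the residual of `C(t)`. -/

namespace H64.J2

section general
variable {F : Type*} [Group F] [Finite F]

/-- a fixed point free involution inverts -/
theorem fpf_inv {v : F} (hv : v * v = 1) {U : Subgroup F} (hU : U.Normal) (hcent : ∀ u ∈ U, v * u = u * v → u = 1) :
    ∀ u ∈ U, v * u * v = u⁻¹ := by
  intro u hu
  have hvi : v⁻¹ = v := inv_eq_of_mul_eq_one_right hv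
  let φ : U → U := fun w => ⟨(w : F)⁻¹ * (v * w * v⁻¹), U.mul_mem (U.inv_mem w.2) (hU.conj_mem _ w.2 v)⟩
  have hφ : Function.Injective φ := by
    intro a b hab
    have h1 : (a : F)⁻¹ * (v * a * v⁻¹) = (b : F)⁻¹ * (v * b * v⁻¹) := congrArg Subtype.val hab
    have h2 : (b : F) * (a : F)⁻¹ ∈ U := U.mul_mem b.2 (U.inv_mem a.2)
    have h3 : v * ((b : F) * (a : F)⁻¹) = ((b : F) * (a : F)⁻¹) * v := by
      have h4 : (b : F) * (a : F)⁻¹ = (v * b * v⁻¹) * (v * a * v⁻¹)⁻¹ := by
        calc (b : F) * (a : F)⁻¹ = b * ((a : F)⁻¹ * (v * a * v⁻¹)) * (v * a * v⁻¹)⁻¹ := by group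
          _ = b * ((b : F)⁻¹ * (v * b * v⁻¹)) * (v * a * v⁻¹)⁻¹ := by rw [h1]
          _ = _ := by group
      calc v * ((b : F) * (a : F)⁻¹) = (v * b * v⁻¹) * (v * a * v⁻¹)⁻¹ * v := by group
        _ = ((b : F) * (a : F)⁻¹) * v := by rw [← h4]
    have h5 := hcent _ h2 h3
    exact Subtype.ext (mul_inv_eq_one.1 h5).symm
  have hsurj := Finite.surjective_of_injective hφ
  obtain ⟨w, hw⟩ := hsurj ⟨u, hu⟩
  have hw' : (w : F)⁻¹ * (v * w * v⁻¹) = u := congrArg Subtype.val hw
  rw [hvi] at hw'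
  rw [← hw']
  calc v * ((w : F)⁻¹ * (v * w * v)) * v = v * (w : F)⁻¹ * v * w * (v * v) := by group
    _ = v⁻¹ * (w : F)⁻¹ * v⁻¹ * w := by rw [hv, mul_one, hvi]
    _ = ((w : F)⁻¹ * (v * w * v))⁻¹ := by group

/-- an involution with centralizer of order two inverts a normal subgroup of index two -/
theorem inverted_of_card_two {v : F} (hv : orderOf v = 2) (hc : Nat.card (Subgroup.centralizer ({v} : Set F)) = 2) :
    ∃ A : Subgroup F, A.Normal ∧ A.index = 2 ∧ v ∉ A ∧ ∀ u ∈ A, v * u * v = u⁻¹ := by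
  have hp : Fact (Nat.Prime 2) := ⟨Nat.prime_two⟩
  obtain ⟨S, hS⟩ := sylow_two hv (by rw [hc]; norm_num)
  have vv : v * v = 1 := by rw [← pow_two, ← hv, pow_orderOf_eq_one]
  have v1 : v ≠ 1 := by
    rintro rfl
    rw [orderOf_one] at hv
    norm_num at hv
  have hz2 : ∀ w ∈ Subgroup.zpowers v, w = 1 ∨ w = v := by
    intro w hw
    obtain ⟨m, rfl⟩ := Subgroup.mem_zpowers_iff.1 hw
    rcases Int.even_or_odd' m with ⟨j, hj | hj⟩
    · left; rw [hj, zpow_mul, zpow_two, vv, one_zpow]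
    · right; rw [hj, zpow_add, zpow_mul, zpow_two, vv, one_zpow, zpow_one, one_mul]
  have hP : Subgroup.normalizer ((S : Subgroup F) : Set F) ≤ Subgroup.centralizer ((S : Subgroup F) : Set F) := by
    intro g hg
    rw [Subgroup.mem_normalizer_iff] at hg
    have hgv : g * v * g⁻¹ = v := by
      have h1 := (hg v).1 (by rw [hS]; exact Subgroup.mem_zpowers v)
      rw [hS] at h1
      rcases hz2 _ h1 with h2 | h2
      · exact absurd (conj_eq_one_iff.1 h2) v1
      · exact h2
    rw [Subgroup.mem_centralizer_iff]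
    intro w hw
    rw [hS] at hw
    rcases hz2 w hw with h2 | h2
    · rw [h2, one_mul, mul_one]
    · rw [h2]; exact (mul_inv_eq_iff_eq_mul.1 hgv).symm
  have hcomp := MonoidHom.ker_transferSylow_isComplement' S hP
  refine ⟨(MonoidHom.transferSylow S hP).ker, inferInstance, ?_, ?_, ?_⟩
  · rw [hcomp.symm.index_eq_card, hS, Nat.card_zpowers, hv]
  · intro h
    have h1 : v ∈ (MonoidHom.transferSylow S hP).ker ⊓ (S : Subgroup F) := ⟨h, by rw [hS]; exact Subgroup.mem_zpowers v⟩
    rw [hcomp.disjoint.eq_bot, Subgroup.mem_bot] at h1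
    exact v1 h1
  · apply fpf_inv vv inferInstance
    intro u hu huv
    have h1 : u ∈ Subgroup.centralizer ({v} : Set F) := Subgroup.mem_centralizer_singleton_iff.2 huv.symm
    have h2 : Subgroup.zpowers v = Subgroup.centralizer ({v} : Set F) := by
      apply Subgroup.eq_of_le_of_card_ge
      · rw [Subgroup.zpowers_le]
        exact Subgroup.mem_centralizer_singleton_iff.2 rfl
      · rw [Nat.card_zpowers, hv, hc]
    rw [← h2] at h1
    have h3 : u ∈ (MonoidHom.transferSylow S hP).ker ⊓ (S : Subgroup F) := ⟨hu, by rw [hS]; exact h1⟩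
    rw [hcomp.disjoint.eq_bot, Subgroup.mem_bot] at h3
    exact h3

omit [Finite F] in
/-- centralizers of involutions in quotients by central subgroups without involutions -/
theorem quot_cent {R : Subgroup F} [R.Normal] (hRc : ∀ a ∈ R, ∀ m : F, a * m = m * a) (hR : ∀ a ∈ R, a * a = 1 → a = 1)
    {v : F} (hv : v * v = 1) : Subgroup.centralizer ({(QuotientGroup.mk' R v)} : Set (F ⧸ R)) =
      (Subgroup.centralizer ({v} : Set F)).map (QuotientGroup.mk' R) := by
  ext q
  constructor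
  · intro hq
    obtain ⟨m, rfl⟩ := QuotientGroup.mk'_surjective R q
    refine ⟨m, ?_, rfl⟩
    have h1 := Subgroup.mem_centralizer_singleton_iff.1 hq
    rw [← map_mul, ← map_mul] at h1
    have h2 : (v * m)⁻¹ * (m * v) ∈ R := by
      rw [← QuotientGroup.eq]
      exact h1.symm
    have h3 := hR _ h2
    have h4 : m * v * m⁻¹ = v * ((v * m)⁻¹ * (m * v)) := by
      have h5 := hRc _ h2 m
      calc m * v * m⁻¹ = v * (m * ((v * m)⁻¹ * (m * v))) * m⁻¹ := by group
        _ = v * ((v * m)⁻¹ * (m * v)) := by rw [← h5]; group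
    have h6 : (v * m)⁻¹ * (m * v) = 1 := by
      apply h3
      have h7 : (v * ((v * m)⁻¹ * (m * v))) * (v * ((v * m)⁻¹ * (m * v))) = 1 := by
        rw [← h4]
        calc m * v * m⁻¹ * (m * v * m⁻¹) = m * (v * v) * m⁻¹ := by group
          _ = 1 := by rw [hv]; group
      have h8 := hRc _ h2 v
      calc (v * m)⁻¹ * (m * v) * ((v * m)⁻¹ * (m * v)) =
          (v * v) * ((v * m)⁻¹ * (m * v) * ((v * m)⁻¹ * (m * v))) := by rw [hv, one_mul]
        _ = v * (v * ((v * m)⁻¹ * (m * v))) * ((v * m)⁻¹ * (m * v)) := by group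
        _ = v * (((v * m)⁻¹ * (m * v)) * v) * ((v * m)⁻¹ * (m * v)) := by rw [h8]
        _ = 1 := by rw [← h7]; group
    exact Subgroup.mem_centralizer_singleton_iff.2 (inv_mul_eq_one.1 h6).symm
  · rintro ⟨m, hm, rfl⟩
    have h1 := Subgroup.mem_centralizer_singleton_iff.1 hm
    refine Subgroup.mem_centralizer_singleton_iff.2 ?_
    rw [← map_mul, ← map_mul, h1]

end general

section
variable {G : Type*} [Group G] [Finite G] {z t y : G} (D : GD z t y) (e : D.K ≃* alternatingGroup (Fin 5))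
include e

omit [Finite G] in
/-- elements of `KG` commuting with an element of order three or five -/
theorem GD.cent_KG {r : G} (hr : r ∈ D.KG) (ho : orderOf r = 3 ∨ orderOf r = 5) {k : G} (hk : k ∈ D.KG)
    (hkr : k * r = r * k) : k ∈ Subgroup.zpowers r := by
  obtain ⟨e'⟩ := D.KG_equiv e
  have hval : ∀ a b : D.KG, (e' a : Equiv.Perm (Fin 5)) = e' b → (a : G) = b := fun a b h =>
    congrArg Subtype.val (e'.injective (Subtype.ext h))
  have h1 : (e' ⟨k, hk⟩ : Equiv.Perm (Fin 5)) * e' ⟨r, hr⟩ = e' ⟨r, hr⟩ * e' ⟨k, hk⟩ := by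
    have h2 : e' (⟨k, hk⟩ * ⟨r, hr⟩) = e' (⟨r, hr⟩ * ⟨k, hk⟩) := congrArg e' (Subtype.ext hkr)
    rw [map_mul, map_mul] at h2
    exact congrArg Subtype.val h2
  have hpow : ∀ j : ℕ, (e' ⟨k, hk⟩ : Equiv.Perm (Fin 5)) = (e' ⟨r, hr⟩ : Equiv.Perm (Fin 5)) ^ j → k ∈ Subgroup.zpowers r := by
    intro j hj
    have h3 : (e' ⟨k, hk⟩ : Equiv.Perm (Fin 5)) = e' (⟨r, hr⟩ ^ j) := by
      rw [map_pow]; exact hj
    have h4 : k = r ^ j := hval _ _ h3
    rw [h4]
    exact Subgroup.npow_mem_zpowers r j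
  have hne : (e' ⟨r, hr⟩ : Equiv.Perm (Fin 5)) ≠ 1 := by
    intro h
    have h2 := hval ⟨r, hr⟩ 1 (by rw [map_one]; exact h)
    have h3 : r = 1 := h2
    rw [h3, orderOf_one] at ho
    omega
  have hp : ∀ j : ℕ, r ^ j = 1 → (e' ⟨r, hr⟩ : Equiv.Perm (Fin 5)) ^ j = 1 := by
    intro j hj
    have h2 : e' (⟨r, hr⟩ ^ j) = 1 := by
      rw [← map_one e']
      exact congrArg e' (Subtype.ext hj)
    rw [map_pow] at h2
    exact congrArg Subtype.val h2
  rcases ho with ho | ho
  · have h3 := hp 3 (by rw [← ho, pow_orderOf_eq_one])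
    rcases cent_three _ ⟨h3, hne⟩ _ ⟨Equiv.Perm.mem_alternatingGroup.1 (e' ⟨k, hk⟩).2, h1⟩ with h | h | h
    · exact hpow 0 (by rw [pow_zero]; exact h)
    · exact hpow 1 (by rw [pow_one]; exact h)
    · exact hpow 2 h
  · have h3 := hp 5 (by rw [← ho, pow_orderOf_eq_one])
    rcases cent_five _ h3 hne _ h1 with h | h | h | h | h
    · exact hpow 0 (by rw [pow_zero]; exact h)
    · exact hpow 1 (by rw [pow_one]; exact h)
    · exact hpow 2 h
    · exact hpow 3 h
    · exact hpow 4 h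

omit [Finite G] e in
theorem mem_zpowers_comm {r a m : G} (ha : a ∈ Subgroup.zpowers r) (hm : m * r = r * m) : a * m = m * a := by
  obtain ⟨j, rfl⟩ := Subgroup.mem_zpowers_iff.1 ha
  have h : Commute m r := hm
  exact (h.zpow_right j).symm.eq

omit [Finite G] e in
theorem odd_zpowers {r a : G} (hr : Odd (orderOf r)) (ha : a ∈ Subgroup.zpowers r) (ha2 : a * a = 1) : a = 1 := by
  have h1 : orderOf a ∣ 2 := orderOf_dvd_of_pow_eq_one (by rw [pow_two, ha2])
  have h2 : orderOf a ∣ orderOf r := by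
    rw [← Nat.card_zpowers r, ← Subgroup.orderOf_mk a ha]
    exact orderOf_dvd_natCard _
  have h3 : orderOf a = 1 := Nat.eq_one_of_dvd_coprimes (Nat.Coprime.symm (Nat.coprime_two_right.2 hr)) h1 h2
  exact orderOf_eq_one_iff.1 h3

/-- the quotient of the centralizer of an element of order three or five of `KG` -/
theorem GD.quot_cases {r : G} (hr : r ∈ D.KG) (ho : orderOf r = 3 ∨ orderOf r = 5) :
    ∃ R : Subgroup (Subgroup.centralizer ({r} : Set G)), R.Normal ∧ (∀ a, a ∈ R ↔ (a : G) ∈ Subgroup.zpowers r) ∧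
      Nat.card R = orderOf r ∧ (R.index = 4 ∨ R.index = 12 ∨ (∀ _ : R.Normal, Nonempty
        ((Subgroup.centralizer ({r} : Set G)) ⧸ R ≃* alternatingGroup (Fin 5)))) := by
  classical
  let M := Subgroup.centralizer ({r} : Set G)
  let R : Subgroup M := (Subgroup.zpowers r).subgroupOf M
  have hRM : Subgroup.zpowers r ≤ M := by
    rw [Subgroup.zpowers_le]
    exact Subgroup.mem_centralizer_singleton_iff.2 rfl
  have hodd : Odd (orderOf r) := by
    rcases ho with h | h <;> rw [h] <;> decide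
  have hRc : ∀ a ∈ R, ∀ m : M, a * m = m * a := fun a ha m =>
    Subtype.ext (mem_zpowers_comm ha (Subgroup.mem_centralizer_singleton_iff.1 m.2))
  have hR2 : ∀ a ∈ R, a * a = 1 → a = 1 := fun a ha h =>
    Subtype.ext (odd_zpowers hodd ha (congrArg Subtype.val h))
  have hRn : R.Normal := ⟨fun a ha m => by
    rw [← hRc a ha m, mul_inv_cancel_right]
    exact ha⟩
  refine ⟨R, hRn, fun a => Iff.rfl, ?_, ?_⟩
  · rw [Nat.card_congr (Subgroup.subgroupOfEquivOfLe hRM).toEquiv, Nat.card_zpowers]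
  -- the image of `E`
  have hEM : D.E ≤ M := fun g hg => Subgroup.mem_centralizer_singleton_iff.2 (D.E_comm hg hr)
  let V : Subgroup (M ⧸ R) := (D.E.subgroupOf M).map (QuotientGroup.mk' R)
  have hVc : Nat.card V = 4 := by
    have h1 : Nat.card V = Nat.card (D.E.subgroupOf M) := by
      refine (Nat.card_congr (Equiv.ofBijective (fun g : D.E.subgroupOf M =>
        (⟨QuotientGroup.mk' R g, g, g.2, rfl⟩ : V)) ⟨?_, ?_⟩)).symm
      · intro a b hab
        have h2 : QuotientGroup.mk' R (a : M) = QuotientGroup.mk' R b := congrArg Subtype.val hab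
        have h3 : (a : M)⁻¹ * b ∈ R := QuotientGroup.eq.1 h2
        have h4 : (a : M)⁻¹ * b ∈ D.E.subgroupOf M := Subgroup.mul_mem _ (Subgroup.inv_mem _ a.2) b.2
        have h5 := hR2 _ h3 (Subtype.ext (D.el (D.memE.1 h4).1))
        exact Subtype.ext (inv_mul_eq_one.1 h5)
      · rintro ⟨_, g, hg, rfl⟩
        exact ⟨⟨g, hg⟩, rfl⟩
    rw [h1, Nat.card_congr (Subgroup.subgroupOfEquivOfLe hEM).toEquiv, D.cE e]
  have hVsq : ∀ v ∈ V, v * v = 1 := by
    rintro _ ⟨g, hg, rfl⟩
    rw [← map_mul, show g * g = 1 from Subtype.ext (D.el (D.memE.1 hg).1), map_one]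
  have hcases := klein_cases hVc hVsq (by
    rintro _ ⟨g, hg, rfl⟩ hne
    have hg1 : (g : G) ≠ 1 := by
      intro h
      apply hne
      rw [show g = 1 from Subtype.ext h, map_one]
    rw [quot_cent hRc hR2 (show g * g = 1 from Subtype.ext (D.el (D.memE.1 hg).1))]
    apply le_antisymm
    · rintro _ ⟨m, hm, rfl⟩
      have h1 : (m : G) * g = g * m := congrArg Subtype.val (Subgroup.mem_centralizer_singleton_iff.1 hm)
      have h2 : (m : G) ∈ Subgroup.centralizer ({(g : G)} : Set G) := Subgroup.mem_centralizer_singleton_iff.2 h1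
      rw [D.cent_E e (s := (g : G)) hg hg1] at h2
      obtain ⟨a, ha, k, hk, hm2⟩ := D.decomp' e (Subgroup.mem_centralizer_singleton_iff.1 h2)
      have h3 := Subgroup.mem_centralizer_singleton_iff.1 m.2
      have h4 : k * r = r * k := by
        have h5 := D.E_comm ha hr
        have h6 : a * (k * r) = a * (r * k) := by
          calc a * (k * r) = (a * k) * r := by group
            _ = r * (a * k) := by rw [← hm2]; exact h3
            _ = (r * a) * k := by group
            _ = a * (r * k) := by rw [← h5]; group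
        exact mul_left_cancel h6
      have h7 := D.cent_KG e hr ho hk h4
      refine ⟨⟨a, hEM ha⟩, ha, ?_⟩
      apply QuotientGroup.eq.2
      change (a : G)⁻¹ * m ∈ Subgroup.zpowers r
      rw [hm2]
      have h8 : a⁻¹ * (a * k) = k := by group
      rw [h8]
      exact h7
    · rintro _ ⟨m, hm, rfl⟩
      refine ⟨m, ?_, rfl⟩
      exact Subgroup.mem_centralizer_singleton_iff.2 (Subtype.ext (D.abA (D.memE.1 hm).1 (D.memE.1 hg).1)))
  rw [← Subgroup.index_eq_card] at hcases
  rcases hcases with h | h | h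
  · exact Or.inl h
  · exact Or.inr (Or.inl h)
  · exact Or.inr (Or.inr fun _ => h)

end

end H64.J2
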