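import Cfsg.Agent.Lib.H63.J2Group
import Cfsg.Agent.Lib.H64.J2T0
set_option autoImplicit false
set_option maxRecDepth 100000
/-! Explicit elements of the Hall-Janko group on 315 points: a Sylow 3-subgroup and the normalizer of an
element of order 7 (helper64). -/
namespace H64.J2T

open H63.PC H63.JT H63.J2

/-- value of a word of tables -/
def ev (L : List ℕ) (i : ℕ) : ℕ := List.rec (motive := fun _ => ℕ) i (fun T _ r => ap T r) L

theorem ev_spec {L : List ℕ} {S : List (Equiv.Perm (Fin 315))} (h : List.Forall₂ (Rep 315) L S) (i : Fin 315) :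
    ev L i = (S.prod i : ℕ) := by
  induction h with
  | nil => rfl
  | @cons T σ L S h1 _ ih =>
    change ap T (ev L i) = _
    rw [ih, h1 (S.prod i), List.prod_cons]
    rfl

def wchk (L1 L2 : List ℕ) : Bool := allN (fun i => Nat.beq (ev L1 i) (ev L2 i)) 315

theorem word_eq {L1 L2 : List ℕ} {S1 S2 : List (Equiv.Perm (Fin 315))} (h1 : List.Forall₂ (Rep 315) L1 S1)
    (h2 : List.Forall₂ (Rep 315) L2 S2) (hc : wchk L1 L2 = true) : S1.prod = S2.prod := by
  ext i
  have := Nat.eq_of_beq_eq_true (allN_sound hc i i.2)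
  rw [ev_spec h1, ev_spec h2] at this
  exact this

theorem mk {k1 k2 k3 T M : ℕ} (h1 : k1 < 323) (h2 : k2 < 168) (h3 : k3 < 12)
    (c1 : chkMul 315 M (tab2.get k2) (tab3.get k3) = true) (c2 : chkMul 315 T (tab1.get k1) M = true) :
    ∃ σ ∈ P0, Rep 315 T σ := by
  obtain ⟨σ1, m1, r1⟩ := slp1' k1 h1
  obtain ⟨σ2, m2, r2⟩ := slp2' k2 h2
  obtain ⟨σ3, m3, r3⟩ := slp3' k3 h3
  exact ⟨σ1 * (σ2 * σ3), mul_mem m1 (mul_mem (ok.h2P m2) (ok.h2P (ok.h32 m3))), r1.mul (r2.mul r3 c1) c2⟩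

theorem cX1 : chkMul 315 mX (tab2.get 110) (tab3.get 3) = true := by decide +kernel
theorem cX2 : chkMul 315 tX (tab1.get 1) mX = true := by decide +kernel
theorem exX : ∃ σ ∈ P0, Rep 315 tX σ := mk (by norm_num) (by norm_num) (by norm_num) cX1 cX2
theorem cY1 : chkMul 315 mY (tab2.get 150) (tab3.get 9) = true := by decide +kernel
theorem cY2 : chkMul 315 tY (tab1.get 125) mY = true := by decide +kernel
theorem exY : ∃ σ ∈ P0, Rep 315 tY σ := mk (by norm_num) (by norm_num) (by norm_num) cY1 cY2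
theorem cC1 : chkMul 315 mC (tab2.get 33) (tab3.get 9) = true := by decide +kernel
theorem cC2 : chkMul 315 tC (tab1.get 131) mC = true := by decide +kernel
theorem exC : ∃ σ ∈ P0, Rep 315 tC σ := mk (by norm_num) (by norm_num) (by norm_num) cC1 cC2
theorem cH1 : chkMul 315 mH (tab2.get 17) (tab3.get 7) = true := by decide +kernel
theorem cH2 : chkMul 315 tH (tab1.get 2) mH = true := by decide +kernel
theorem exH : ∃ σ ∈ P0, Rep 315 tH σ := mk (by norm_num) (by norm_num) (by norm_num) cH1 cH2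
theorem cD1 : chkMul 315 mD (tab2.get 91) (tab3.get 11) = true := by decide +kernel
theorem cD2 : chkMul 315 tD (tab1.get 130) mD = true := by decide +kernel
theorem exD : ∃ σ ∈ P0, Rep 315 tD σ := mk (by norm_num) (by norm_num) (by norm_num) cD1 cD2
theorem cE1 : chkMul 315 mE (tab2.get 40) (tab3.get 7) = true := by decide +kernel
theorem cE2 : chkMul 315 tE (tab1.get 42) mE = true := by decide +kernel
theorem exE : ∃ σ ∈ P0, Rep 315 tE σ := mk (by norm_num) (by norm_num) (by norm_num) cE1 cE2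

/-- the list of conjugators -/
def CL : List (ℕ × ℕ × ℕ × ℕ × ℕ) := [(0, 1, 0, 1, 0), (0, 1, 1, 1, 1), (0, 1, 2, 1, 2), (0, 2, 0, 5, 0), (0, 2, 1, 5, 1), (0, 2, 2, 5, 2), (1, 0, 0, 0, 0), (1, 0, 1, 0, 2), (1, 0, 2, 0, 1), (1, 1, 0, 2, 1), (1, 1, 1, 2, 0), (1, 1, 2, 2, 2), (1, 2, 0, 3, 1), (1, 2, 1, 3, 2), (1, 2, 2, 3, 0), (2, 0, 0, 4, 0), (2, 0, 1, 4, 2), (2, 0, 2, 4, 1), (2, 1, 0, 7, 1), (2, 1, 1, 7, 2), (2, 1, 2, 7, 0), (2, 2, 0, 6, 1), (2, 2, 1, 6, 0), (2, 2, 2, 6, 2)]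

def rp (n T : ℕ) (L : List ℕ) : List ℕ := Nat.rec (motive := fun _ => List ℕ) L (fun _ r => T :: r) n

/-- words for `x ^ i * (y ^ j * (c ^ k * L))` -/
def wd (i j k : ℕ) (L : List ℕ) : List ℕ := rp i tX (rp j tY (rp k tC L))
def clChk (t : ℕ × ℕ × ℕ × ℕ × ℕ) : Bool :=
  wchk (rp t.2.2.2.1 tH (rp t.2.2.2.2 tY [tX])) (wd t.1 t.2.1 t.2.2.1 (rp t.2.2.2.1 tH (rp t.2.2.2.2 tY [])))

def allL (f : ℕ × ℕ × ℕ × ℕ × ℕ → Bool) (L : List (ℕ × ℕ × ℕ × ℕ × ℕ)) : Bool :=
  List.rec (motive := fun _ => Bool) true (fun t _ r => band (f t) r) L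

theorem allL_iff {f : ℕ × ℕ × ℕ × ℕ × ℕ → Bool} {L : List (ℕ × ℕ × ℕ × ℕ × ℕ)} : allL f L = true ↔ ∀ t ∈ L, f t = true := by
  induction L with
  | nil => exact ⟨fun _ t ht => absurd ht List.not_mem_nil, fun _ => rfl⟩
  | cons a L ih =>
    change band (f a) (allL f L) = true ↔ _
    rw [band_iff, ih]
    simp

theorem cl_ok : allL clChk CL = true := by decide +kernel
theorem w_x3 : wchk [tX, tX, tX] [] = true := by decide +kernel
theorem w_y3 : wchk [tY, tY, tY] [] = true := by decide +kernel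
theorem w_c3 : wchk [tC, tC, tC] [] = true := by decide +kernel
theorem w_xy : wchk [tX, tY] [tY, tX, tC] = true := by decide +kernel
theorem w_xc : wchk [tX, tC] [tC, tX] = true := by decide +kernel
theorem w_yc : wchk [tY, tC] [tC, tY] = true := by decide +kernel
theorem w_hx : wchk [tH, tX] [tY, tH] = true := by decide +kernel
theorem w_hy : wchk [tH, tY] [tX, tY, tC, tH] = true := by decide +kernel
theorem w_hc : wchk [tH, tC] [tC, tC, tH] = true := by decide +kernel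
theorem w_h8 : wchk [tH, tH, tH, tH, tH, tH, tH, tH] [] = true := by decide +kernel
theorem w_h4 : wchk [tH, tH, tH, tH] [] = false := by decide +kernel
theorem w_c1 : wchk [tC] [] = false := by decide +kernel
theorem w_d7 : wchk [tD, tD, tD, tD, tD, tD, tD] [] = true := by decide +kernel
theorem w_d1 : wchk [tD] [] = false := by decide +kernel
theorem w_e6 : wchk [tE, tE, tE, tE, tE, tE] [] = true := by decide +kernel
theorem w_ed : wchk [tE, tD] [tD, tD, tD, tE] = true := by decide +kernel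

theorem word_ne {L1 L2 : List ℕ} {S1 S2 : List (Equiv.Perm (Fin 315))} (h1 : List.Forall₂ (Rep 315) L1 S1)
    (h2 : List.Forall₂ (Rep 315) L2 S2) (hc : wchk L1 L2 = false) : S1.prod ≠ S2.prod := by
  intro he
  have : wchk L1 L2 = true := by
    have key : ∀ n : ℕ, n ≤ 315 → allN (fun i => Nat.beq (ev L1 i) (ev L2 i)) n = true := by
      intro n
      induction n with
      | zero => intro _; rfl
      | succ n ih =>
        intro hn
        have h3 : Nat.beq (ev L1 n) (ev L2 n) = true := by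
          rw [Nat.beq_eq]
          have e1 := ev_spec h1 ⟨n, hn⟩
          have e2 := ev_spec h2 ⟨n, hn⟩
          rw [he] at e1
          exact e1.trans e2.symm
        change Bool.rec (motive := fun _ => Bool) false (allN _ n) (Nat.beq (ev L1 n) (ev L2 n)) = true
        rw [h3]
        exact ih (by omega)
    exact key 315 le_rfl
  rw [this] at hc
  exact Bool.noConfusion hc

/-- the explicit elements -/
structure Ex {G : Type*} [Group G] (x y c h d e : G) : Prop where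
  x3 : x * x * x = 1
  y3 : y * y * y = 1
  c3 : c * c * c = 1
  c1 : c ≠ 1
  xy : x * y = y * x * c
  xc : x * c = c * x
  yc : y * c = c * y
  hx : h * x = y * h
  hy : h * y = x * y * c * h
  hc : h * c = c * c * h
  h8 : h ^ 8 = 1
  h4 : h ^ 4 ≠ 1
  d7 : d ^ 7 = 1
  d1 : d ≠ 1
  ed : e * d = d ^ 3 * e
  e6 : e ^ 6 = 1
  cl : ∀ t ∈ CL, h ^ t.2.2.2.1 * y ^ t.2.2.2.2 * x = x ^ t.1 * y ^ t.2.1 * c ^ t.2.2.1 * (h ^ t.2.2.2.1 * y ^ t.2.2.2.2)

theorem Ex.of_map {A B : Type*} [Group A] [Group B] (f : A →* B) (hf : Function.Injective f) {x y c h d e : A}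
    (H : Ex (f x) (f y) (f c) (f h) (f d) (f e)) : Ex x y c h d e where
  x3 := hf (by rw [map_mul, map_mul, map_one]; exact H.x3)
  y3 := hf (by rw [map_mul, map_mul, map_one]; exact H.y3)
  c3 := hf (by rw [map_mul, map_mul, map_one]; exact H.c3)
  c1 := fun h1 => H.c1 (by rw [h1, map_one])
  xy := hf (by rw [map_mul, map_mul, map_mul]; exact H.xy)
  xc := hf (by rw [map_mul, map_mul]; exact H.xc)
  yc := hf (by rw [map_mul, map_mul]; exact H.yc)
  hx := hf (by rw [map_mul, map_mul]; exact H.hx)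
  hy := hf (by rw [map_mul, map_mul, map_mul, map_mul]; exact H.hy)
  hc := hf (by rw [map_mul, map_mul, map_mul]; exact H.hc)
  h8 := hf (by rw [map_pow, map_one]; exact H.h8)
  h4 := fun h1 => H.h4 (by rw [← map_pow, h1, map_one])
  d7 := hf (by rw [map_pow, map_one]; exact H.d7)
  d1 := fun h1 => H.d1 (by rw [h1, map_one])
  ed := hf (by rw [map_mul, map_mul, map_pow]; exact H.ed)
  e6 := hf (by rw [map_pow, map_one]; exact H.e6)
  cl := fun t ht => hf (by
    rw [map_mul, map_mul, map_mul, map_mul, map_mul, map_mul, map_pow, map_pow, map_pow, map_pow, map_pow]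
    exact H.cl t ht)

theorem rp_rep {n T : ℕ} {σ : Equiv.Perm (Fin 315)} (hT : Rep 315 T σ) {L : List ℕ} {S : List (Equiv.Perm (Fin 315))}
    (h : List.Forall₂ (Rep 315) L S) : List.Forall₂ (Rep 315) (rp n T L) (List.replicate n σ ++ S) := by
  induction n with
  | zero => exact h
  | succ n ih => exact List.Forall₂.cons hT ih

theorem exists_P0 : ∃ x y c h d e : P0, Ex x y c h d e := by
  obtain ⟨x, hx, rx⟩ := exX
  obtain ⟨y, hy, ry⟩ := exY
  obtain ⟨c, hc, rc⟩ := exC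
  obtain ⟨h, hh, rh⟩ := exH
  obtain ⟨d, hd, rd⟩ := exD
  obtain ⟨e, he, re⟩ := exE
  refine ⟨⟨x, hx⟩, ⟨y, hy⟩, ⟨c, hc⟩, ⟨h, hh⟩, ⟨d, hd⟩, ⟨e, he⟩, Ex.of_map P0.subtype Subtype.val_injective ?_⟩
  change Ex x y c h d e
  have N := List.Forall₂.nil (R := Rep 315)
  have X := fun {L S} (h : List.Forall₂ (Rep 315) L S) => List.Forall₂.cons rx h
  have Y := fun {L S} (h : List.Forall₂ (Rep 315) L S) => List.Forall₂.cons ry h
  have C := fun {L S} (h : List.Forall₂ (Rep 315) L S) => List.Forall₂.cons rc h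
  have H := fun {L S} (h : List.Forall₂ (Rep 315) L S) => List.Forall₂.cons rh h
  have D := fun {L S} (h : List.Forall₂ (Rep 315) L S) => List.Forall₂.cons rd h
  have E := fun {L S} (h : List.Forall₂ (Rep 315) L S) => List.Forall₂.cons re h
  refine ⟨?_, ?_, ?_, ?_, ?_, ?_, ?_, ?_, ?_, ?_, ?_, ?_, ?_, ?_, ?_, ?_, ?_⟩
  · simpa [mul_assoc] using word_eq (X (X (X N))) N w_x3
  · simpa [mul_assoc] using word_eq (Y (Y (Y N))) N w_y3
  · simpa [mul_assoc] using word_eq (C (C (C N))) N w_c3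
  · simpa [mul_assoc] using word_ne (C N) N w_c1
  · simpa [mul_assoc] using word_eq (X (Y N)) (Y (X (C N))) w_xy
  · simpa [mul_assoc] using word_eq (X (C N)) (C (X N)) w_xc
  · simpa [mul_assoc] using word_eq (Y (C N)) (C (Y N)) w_yc
  · simpa [mul_assoc] using word_eq (H (X N)) (Y (H N)) w_hx
  · simpa [mul_assoc] using word_eq (H (Y N)) (X (Y (C (H N)))) w_hy
  · simpa [mul_assoc] using word_eq (H (C N)) (C (C (H N))) w_hc
  · simpa [mul_assoc, pow_succ] using word_eq (H (H (H (H (H (H (H (H N)))))))) N w_h8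
  · simpa [mul_assoc, pow_succ] using word_ne (H (H (H (H N)))) N w_h4
  · simpa [mul_assoc, pow_succ] using word_eq (D (D (D (D (D (D (D N))))))) N w_d7
  · simpa [mul_assoc] using word_ne (D N) N w_d1
  · simpa [mul_assoc, pow_succ] using word_eq (E (D N)) (D (D (D (E N)))) w_ed
  · simpa [mul_assoc, pow_succ] using word_eq (E (E (E (E (E (E N)))))) N w_e6
  · intro t ht
    have h1 := allL_iff.1 cl_ok t ht
    have h2 := word_eq (rp_rep (n := t.2.2.2.1) rh (rp_rep (n := t.2.2.2.2) ry (X N)))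
      (rp_rep (n := t.1) rx (rp_rep (n := t.2.1) ry (rp_rep (n := t.2.2.1) rc (rp_rep (n := t.2.2.2.1) rh
        (rp_rep (n := t.2.2.2.2) ry N))))) h1
    simp only [List.prod_append, List.prod_replicate, List.prod_nil, List.prod_cons, mul_one] at h2
    simpa only [mul_assoc] using h2

theorem mem_CL : ∀ i < 3, ∀ j < 3, ∀ k < 3, (i ≠ 0 ∨ j ≠ 0) → ∃ n b, (i, j, k, n, b) ∈ CL := by
  have h : ∀ i j k : Fin 3, (i.val ≠ 0 ∨ j.val ≠ 0) → ∃ n : Fin 8, ∃ b : Fin 3, (i.val, j.val, k.val, n.val, b.val) ∈ CL := by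
    decide +kernel
  intro i hi j hj k hk hij
  obtain ⟨n, b, h1⟩ := h ⟨i, hi⟩ ⟨j, hj⟩ ⟨k, hk⟩ hij
  exact ⟨n, b, h1⟩

end H64.J2T
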