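import Cfsg.Agent.Lib.H64.J2T1
import Cfsg.Agent.Lib.H64.J2Y
import Cfsg.Agent.Lib.H3.Extraspecial

set_option autoImplicit false

/-! Groups of order 604800 with the explicit elements of the Hall-Janko group: Sylow 3-subgroups. -/

namespace H64.J2T

open H64.J2
open scoped Pointwise

section nf
variable {G : Type*} [Group G] {x y c h d e : G} (H : Ex x y c h d e)
include H

theorem Ex.conj (g : G) : Ex (g * x * g⁻¹) (g * y * g⁻¹) (g * c * g⁻¹) (g * h * g⁻¹) (g * d * g⁻¹) (g * e * g⁻¹) := by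
  have key : ∀ a : G, (MulAut.conj g⁻¹).toMonoidHom (g * a * g⁻¹) = a := by
    intro a
    change g⁻¹ * (g * a * g⁻¹) * g⁻¹⁻¹ = a
    group
  refine Ex.of_map (MulAut.conj g⁻¹).toMonoidHom (MulAut.conj g⁻¹).injective ?_
  rw [key, key, key, key, key, key]
  exact H

theorem Ex.cx (k i : ℕ) : c ^ k * x ^ i = x ^ i * c ^ k := ((show Commute x c from H.xc).pow_pow i k).symm.eq
theorem Ex.cy (k i : ℕ) : c ^ k * y ^ i = y ^ i * c ^ k := ((show Commute y c from H.yc).pow_pow i k).symm.eq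

theorem Ex.yx : y * x = x * y * c ^ 2 := by
  rw [H.xy]
  have h3 : c * c ^ 2 = 1 := by rw [pow_two, ← mul_assoc]; exact H.c3
  rw [mul_assoc, h3, mul_one]

theorem Ex.yxi (i : ℕ) : y * x ^ i = x ^ i * y * c ^ (2 * i) := by
  induction i with
  | zero => simp
  | succ i ih =>
    calc y * x ^ (i + 1) = y * x ^ i * x := by rw [pow_succ, mul_assoc]
      _ = x ^ i * y * (c ^ (2 * i) * x ^ 1) := by rw [ih, pow_one, mul_assoc]
      _ = x ^ i * (y * x) * c ^ (2 * i) := by rw [H.cx, pow_one]; simp only [mul_assoc]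
      _ = x ^ (i + 1) * y * (c ^ 2 * c ^ (2 * i)) := by rw [H.yx, pow_succ x i]; simp only [mul_assoc]
      _ = _ := by rw [← pow_add]; congr 2; ring

theorem Ex.yjxi (i j : ℕ) : y ^ j * x ^ i = x ^ i * y ^ j * c ^ (2 * i * j) := by
  induction j with
  | zero => simp
  | succ j ih =>
    calc y ^ (j + 1) * x ^ i = y * (y ^ j * x ^ i) := by rw [pow_succ', mul_assoc]
      _ = y * x ^ i * (y ^ j * c ^ (2 * i * j)) := by rw [ih]; simp only [mul_assoc]
      _ = x ^ i * y * (c ^ (2 * i) * y ^ j) * c ^ (2 * i * j) := by rw [H.yxi]; simp only [mul_assoc]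
      _ = x ^ i * (y * y ^ j) * (c ^ (2 * i) * c ^ (2 * i * j)) := by rw [H.cy]; simp only [mul_assoc]
      _ = _ := by rw [← pow_add, ← pow_succ']; congr 2; ring

theorem Ex.mul (i j k i' j' k' : ℕ) : x ^ i * y ^ j * c ^ k * (x ^ i' * y ^ j' * c ^ k') =
    x ^ (i + i') * y ^ (j + j') * c ^ (k + k' + 2 * i' * j) := by
  calc x ^ i * y ^ j * c ^ k * (x ^ i' * y ^ j' * c ^ k') = x ^ i * y ^ j * (c ^ k * x ^ i') * (y ^ j' * c ^ k') := by
        simp only [mul_assoc]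
    _ = x ^ i * (y ^ j * x ^ i') * (c ^ k * y ^ j') * c ^ k' := by rw [H.cx]; simp only [mul_assoc]
    _ = x ^ i * x ^ i' * y ^ j * (c ^ (2 * i' * j) * y ^ j') * (c ^ k * c ^ k') := by
      rw [H.yjxi, H.cy]; simp only [mul_assoc]
    _ = x ^ i * x ^ i' * (y ^ j * y ^ j') * (c ^ (2 * i' * j) * (c ^ k * c ^ k')) := by
      rw [H.cy]; simp only [mul_assoc]
    _ = _ := by rw [← pow_add, ← pow_add, ← pow_add, ← pow_add]; congr 2; ring

theorem Ex.mod3 (i j k : ℕ) : x ^ i * y ^ j * c ^ k = x ^ (i % 3) * y ^ (j % 3) * c ^ (k % 3) := by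
  have h1 : x ^ 3 = 1 := by rw [pow_succ, pow_two]; exact H.x3
  have h2 : y ^ 3 = 1 := by rw [pow_succ, pow_two]; exact H.y3
  have h3 : c ^ 3 = 1 := by rw [pow_succ, pow_two]; exact H.c3
  rw [← pow_eq_pow_mod i h1, ← pow_eq_pow_mod j h2, ← pow_eq_pow_mod k h3]

theorem Ex.oc : orderOf c = 3 := by
  have hp : Fact (Nat.Prime 3) := ⟨Nat.prime_three⟩
  exact orderOf_eq_prime (by rw [pow_succ, pow_two]; exact H.c3) H.c1

theorem Ex.ncomm : x * y ≠ y * x := by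
  intro h1
  have h2 := H.xy
  rw [h1] at h2
  exact H.c1 (mul_eq_left.1 h2.symm)

theorem Ex.x1 : x ≠ 1 := by
  intro h1
  apply H.ncomm
  rw [h1, one_mul, mul_one]

theorem Ex.ox : orderOf x = 3 := by
  have hp : Fact (Nat.Prime 3) := ⟨Nat.prime_three⟩
  exact orderOf_eq_prime (by rw [pow_succ, pow_two]; exact H.x3) H.x1

theorem Ex.inj {i j k i' j' k' : ℕ} (hi : i < 3) (hj : j < 3) (hk : k < 3) (hi' : i' < 3) (hj' : j' < 3) (hk' : k' < 3)
    (he : x ^ i * y ^ j * c ^ k = x ^ i' * y ^ j' * c ^ k') : i = i' ∧ j = j' ∧ k = k' := by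
  have hc := H.oc
  have key1 : ∀ i j k : ℕ, x ^ i * y ^ j * c ^ k * x = x * (x ^ i * y ^ j * c ^ k) * c ^ (2 * j) := by
    intro i j k
    have h1 := H.mul i j k 1 0 0
    have h2 := H.mul 1 0 0 i j k
    have h3 := H.mul (1 + i) (0 + j) (0 + k + 2 * i * 0) 0 0 (2 * j)
    simp only [pow_one, pow_zero, mul_one, one_mul, mul_zero, zero_mul, add_zero, zero_add] at h1 h2 h3
    rw [h1, h2, h3, add_comm i 1]
  have key2 : ∀ i j k : ℕ, y * (x ^ i * y ^ j * c ^ k) = x ^ i * y ^ j * c ^ k * y * c ^ (2 * i) := by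
    intro i j k
    have h1 := H.mul i j k 0 1 0
    have h2 := H.mul 0 1 0 i j k
    have h3 := H.mul (i + 0) (j + 1) (k + 0 + 2 * 0 * j) 0 0 (2 * i)
    simp only [pow_one, pow_zero, mul_one, one_mul, mul_zero, zero_mul, add_zero, zero_add] at h1 h2 h3
    rw [h1, h2, h3, add_comm 1 j]
  have h1 : c ^ (2 * j) = c ^ (2 * j') := by
    have a1 := key1 i j k
    rw [he] at a1
    have a2 := key1 i' j' k'
    exact mul_left_cancel (a1.symm.trans a2)
  have h2 : c ^ (2 * i) = c ^ (2 * i') := by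
    have a1 := key2 i j k
    rw [he] at a1
    have a2 := key2 i' j' k'
    exact mul_left_cancel (a1.symm.trans a2)
  rw [pow_inj_mod, hc] at h1 h2
  have e1 : i = i' := by omega
  have e2 : j = j' := by omega
  subst e1 e2
  have h3 : c ^ k = c ^ k' := mul_left_cancel he
  rw [pow_inj_mod, hc] at h3
  exact ⟨rfl, rfl, by omega⟩

/-- the subgroup of order 27 -/
theorem Ex.exists_K [Finite G] : ∃ K : Subgroup G, Nat.card K = 27 ∧
    ∀ g, g ∈ K ↔ ∃ i < 3, ∃ j < 3, ∃ k < 3, g = x ^ i * y ^ j * c ^ k := by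
  let S : Submonoid G :=
    { carrier := {g | ∃ i j k : ℕ, g = x ^ i * y ^ j * c ^ k}
      mul_mem' := by
        rintro _ _ ⟨i, j, k, rfl⟩ ⟨i', j', k', rfl⟩
        exact ⟨_, _, _, H.mul i j k i' j' k'⟩
      one_mem' := ⟨0, 0, 0, by simp⟩ }
  let K : Subgroup G :=
    { S with
      inv_mem' := by
        intro g hg
        have h1 : g⁻¹ ∈ Submonoid.powers g := by
          rw [mem_powers_iff_mem_zpowers]
          exact Subgroup.inv_mem _ (Subgroup.mem_zpowers g)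
        exact (Submonoid.powers_le.2 (show g ∈ S from hg)) h1 }
  have hK : ∀ g, g ∈ K ↔ ∃ i < 3, ∃ j < 3, ∃ k < 3, g = x ^ i * y ^ j * c ^ k := by
    intro g
    constructor
    · rintro ⟨i, j, k, rfl⟩
      exact ⟨_, Nat.mod_lt i (by norm_num), _, Nat.mod_lt j (by norm_num), _, Nat.mod_lt k (by norm_num), H.mod3 i j k⟩
    · rintro ⟨i, _, j, _, k, _, rfl⟩
      exact ⟨i, j, k, rfl⟩
  refine ⟨K, ?_, hK⟩
  have e : Fin 3 × Fin 3 × Fin 3 ≃ K := Equiv.ofBijective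
    (fun p => ⟨x ^ p.1.val * y ^ p.2.1.val * c ^ p.2.2.val, (hK _).2 ⟨_, p.1.2, _, p.2.1.2, _, p.2.2.2, rfl⟩⟩) (by
      constructor
      · rintro ⟨i, j, k⟩ ⟨i', j', k'⟩ hh
        obtain ⟨a1, a2, a3⟩ := H.inj i.2 j.2 k.2 i'.2 j'.2 k'.2 (congrArg Subtype.val hh)
        exact Prod.ext (Fin.ext a1) (Prod.ext (Fin.ext a2) (Fin.ext a3))
      · rintro ⟨g, hg⟩
        obtain ⟨i, hi, j, hj, k, hk, rfl⟩ := (hK g).1 hg
        exact ⟨(⟨i, hi⟩, ⟨j, hj⟩, ⟨k, hk⟩), rfl⟩)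
  rw [← Nat.card_congr e]
  simp

/-- conjugate the explicit elements into a given Sylow subgroup -/
theorem Ex.exists_P [Finite G] (hG : Nat.card G = 604800) (P : Sylow 3 G) :
    ∃ x y c h d e : G, Ex x y c h d e ∧ ∀ g, g ∈ P ↔ ∃ i < 3, ∃ j < 3, ∃ k < 3, g = x ^ i * y ^ j * c ^ k := by
  have hp : Fact (Nat.Prime 3) := ⟨Nat.prime_three⟩
  obtain ⟨K, hK, hKm⟩ := H.exists_K
  have hKp : IsPGroup 3 K := IsPGroup.of_card (n := 3) (by rw [hK]; norm_num)
  obtain ⟨T, hT⟩ := hKp.exists_le_sylow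
  have hT27 : Nat.card T = 3 ^ 3 := card_sylow_eq T (n := 22400) (by rw [hG]; norm_num) (by norm_num)
  have hKT : K = (T : Subgroup G) := Subgroup.eq_of_le_of_card_ge hT (by
    change Nat.card T ≤ _
    rw [hT27, hK]; norm_num)
  obtain ⟨g, hg⟩ := MulAction.exists_smul_eq G T P
  refine ⟨_, _, _, _, _, _, H.conj g, ?_⟩
  intro a
  have h1 : a ∈ P ↔ g⁻¹ * a * g ∈ T := by
    rw [← hg]
    change a ∈ MulAut.conj g • (T : Subgroup G) ↔ _
    rw [Subgroup.mem_pointwise_smul_iff_inv_smul_mem]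
    change (MulAut.conj g)⁻¹ a ∈ (T : Subgroup G) ↔ _
    rw [← map_inv, MulAut.conj_apply, inv_inv]
    rfl
  rw [h1]
  change g⁻¹ * a * g ∈ (T : Subgroup G) ↔ _
  rw [← hKT, hKm]
  have h2 : ∀ i j k : ℕ, (g * x * g⁻¹) ^ i * (g * y * g⁻¹) ^ j * (g * c * g⁻¹) ^ k = g * (x ^ i * y ^ j * c ^ k) * g⁻¹ := by
    intro i j k
    rw [conj_pow, conj_pow, conj_pow]; group
  constructor
  · rintro ⟨i, hi, j, hj, k, hk, h3⟩
    refine ⟨i, hi, j, hj, k, hk, ?_⟩
    rw [h2, ← h3]; group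
  · rintro ⟨i, hi, j, hj, k, hk, h3⟩
    refine ⟨i, hi, j, hj, k, hk, ?_⟩
    rw [h3, h2]; group

end nf

end H64.J2T
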