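import Cfsg.Agent.Lib.H64.J2T2

set_option autoImplicit false

/-! Groups of Hall-Janko type: Sylow 3- and Sylow 7-subgroups from the explicit elements. -/

namespace H64.J2T

open H64.J2
open scoped Pointwise commutatorElement

/-- local information -/
structure Loc (G : Type*) [Group G] (b : G) : Prop where
  cardG : Nat.card G = 604800
  inv : ∀ u : G, orderOf u = 2 → Nat.card (Subgroup.centralizer ({u} : Set G)) ∣ 1920
  five : ∀ g : G, orderOf g = 5 → Nat.card (Subgroup.centralizer ({g} : Set G)) ∣ 300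
  ob : orderOf b = 3
  b27 : ¬ 27 ∣ Nat.card (Subgroup.centralizer ({b} : Set G))
  b7 : ¬ 7 ∣ Nat.card (Subgroup.centralizer ({b} : Set G))
  three : ∀ u a : G, orderOf u = 2 → orderOf a = 3 → a * u = u * a → ¬ 16 ∣ Nat.card (Subgroup.centralizer ({a} : Set G))

theorem div2800 : ∀ k ∈ Nat.divisors 2800, 2800 / k % 3 = 1 → ¬ 32 ∣ 216 * k → ¬ 5 ∣ 216 * k → ¬ 7 ∣ 216 * k → k = 1 := by
  decide +kernel

theorem arith3 {n m : ℕ} (h : n * m = 604800) (hm : m % 3 = 1) (h216 : 216 ∣ n) (h32 : ¬ 32 ∣ n) (h5 : ¬ 5 ∣ n) (h7 : ¬ 7 ∣ n) :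
    n = 216 := by
  obtain ⟨k, rfl⟩ := h216
  have h1 : k * m = 2800 := by
    have : 216 * (k * m) = 216 * 2800 := by rw [← mul_assoc, h]
    exact Nat.eq_of_mul_eq_mul_left (by norm_num) this
  have hk : k ∈ Nat.divisors 2800 := Nat.mem_divisors.2 ⟨Dvd.intro _ h1, by norm_num⟩
  have hk0 : 0 < k := Nat.pos_of_mem_divisors hk
  have hm' : 2800 / k = m := by rw [← h1, Nat.mul_div_cancel_left _ hk0]
  rw [div2800 k hk (by rw [hm', hm]) h32 h5 h7]

theorem div1134 : ∀ k ∈ Nat.divisors 14400, k ∣ 27 → 14400 / k % 7 = 1 → k = 1 := by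
  decide +kernel

theorem arith7 {n m : ℕ} (h : n * m = 604800) (hm : m % 7 = 1) (h42 : 42 ∣ n) (h189 : n ∣ 189 * 6) : n = 42 := by
  obtain ⟨k, rfl⟩ := h42
  have h1 : k * m = 14400 := by
    have : 42 * (k * m) = 42 * 14400 := by rw [← mul_assoc, h]
    exact Nat.eq_of_mul_eq_mul_left (by norm_num) this
  have hk : k ∈ Nat.divisors 14400 := Nat.mem_divisors.2 ⟨Dvd.intro _ h1, by norm_num⟩
  have hk0 : 0 < k := Nat.pos_of_mem_divisors hk
  have hm' : 14400 / k = m := by rw [← h1, Nat.mul_div_cancel_left _ hk0]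
  have h27 : k ∣ 27 := by
    have : 42 * k ∣ 42 * 27 := by simpa using h189
    exact Nat.dvd_of_mul_dvd_mul_left (by norm_num) this
  rw [div1134 k hk h27 (by rw [hm', hm])]

section
variable {G : Type*} [Group G] {x y c h d e : G}

theorem Ex.key1 (H : Ex x y c h d e) (i j k : ℕ) : x ^ i * y ^ j * c ^ k * x = x * (x ^ i * y ^ j * c ^ k) * c ^ (2 * j) := by
  have h1 := H.mul i j k 1 0 0
  have h2 := H.mul 1 0 0 i j k
  have h3 := H.mul (1 + i) (0 + j) (0 + k + 2 * i * 0) 0 0 (2 * j)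
  simp only [pow_one, pow_zero, mul_one, one_mul, mul_zero, zero_mul, add_zero, zero_add] at h1 h2 h3
  rw [h1, h2, h3, add_comm i 1]

theorem Ex.key2 (H : Ex x y c h d e) (i j k : ℕ) : y * (x ^ i * y ^ j * c ^ k) = x ^ i * y ^ j * c ^ k * y * c ^ (2 * i) := by
  have h1 := H.mul i j k 0 1 0
  have h2 := H.mul 0 1 0 i j k
  have h3 := H.mul (i + 0) (j + 1) (k + 0 + 2 * 0 * j) 0 0 (2 * i)
  simp only [pow_one, pow_zero, mul_one, one_mul, mul_zero, zero_mul, add_zero, zero_add] at h1 h2 h3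
  rw [h1, h2, h3, add_comm 1 j]

theorem Ex.central (H : Ex x y c h d e) {i j k : ℕ} (hi : i < 3) (hj : j < 3)
    (h1 : x ^ i * y ^ j * c ^ k * x = x * (x ^ i * y ^ j * c ^ k))
    (h2 : x ^ i * y ^ j * c ^ k * y = y * (x ^ i * y ^ j * c ^ k)) : i = 0 ∧ j = 0 := by
  have hc := H.oc
  have a1 := H.key1 i j k
  rw [h1] at a1
  have b1 : c ^ (2 * j) = 1 := (mul_eq_left.1 a1.symm)
  have a2 := H.key2 i j k
  rw [h2, mul_assoc] at a2
  have a3 : (y * (x ^ i * y ^ j * c ^ k)) * c ^ (2 * i) = y * (x ^ i * y ^ j * c ^ k) := by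
    rw [← h2]
    exact (H.key2 i j k).symm.trans h2.symm
  have b2 : c ^ (2 * i) = 1 := mul_eq_left.1 a3
  have c1 := orderOf_dvd_of_pow_eq_one b1
  have c2 := orderOf_dvd_of_pow_eq_one b2
  rw [hc] at c1 c2
  constructor <;> omega

theorem Ex.isConj_x (H : Ex x y c h d e) {i j k : ℕ} (hi : i < 3) (hj : j < 3) (hk : k < 3) (hij : i ≠ 0 ∨ j ≠ 0) :
    IsConj x (x ^ i * y ^ j * c ^ k) := by
  obtain ⟨n, b, hm⟩ := mem_CL i hi j hj k hk hij
  have h1 := H.cl _ hm
  refine isConj_iff.2 ⟨h ^ n * y ^ b, ?_⟩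
  rw [mul_inv_eq_iff_eq_mul]
  exact h1

theorem Ex.isConj_c (H : Ex x y c h d e) : IsConj c (c ^ 2) := by
  refine isConj_iff.2 ⟨h, ?_⟩
  rw [mul_inv_eq_iff_eq_mul, pow_two]
  exact H.hc

theorem Ex.oh (H : Ex x y c h d e) : orderOf h = 8 := by
  have hp : Fact (Nat.Prime 2) := ⟨Nat.prime_two⟩
  have := orderOf_eq_prime_pow (p := 2) (n := 2) (x := h) (by simpa using H.h4) (by simpa using H.h8)
  simpa using this

theorem Ex.hp (H : Ex x y c h d e) (i j k : ℕ) : h * (x ^ i * y ^ j * c ^ k) * h⁻¹ = y ^ i * (x * y * c) ^ j * (c * c) ^ k := by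
  have e1 : h * x * h⁻¹ = y := by rw [mul_inv_eq_iff_eq_mul]; exact H.hx
  have e2 : h * y * h⁻¹ = x * y * c := by rw [mul_inv_eq_iff_eq_mul]; exact H.hy
  have e3 : h * c * h⁻¹ = c * c := by rw [mul_inv_eq_iff_eq_mul]; exact H.hc
  have e4 : h * (x ^ i * y ^ j * c ^ k) * h⁻¹ = (h * x * h⁻¹) ^ i * (h * y * h⁻¹) ^ j * (h * c * h⁻¹) ^ k := by
    rw [conj_pow, conj_pow, conj_pow]; group
  rw [e4, e1, e2, e3]

theorem Ex.uc (H : Ex x y c h d e) : c * h ^ 4 = h ^ 4 * c := by
  have c3w : ∀ w : G, c * (c * (c * w)) = w := fun w => by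
    rw [← mul_assoc, ← mul_assoc, H.c3, one_mul]
  have hc0 : h * c = c * (c * h) := by rw [H.hc, mul_assoc]
  have hcw : ∀ w : G, h * (c * w) = c * (c * (h * w)) := fun w => by
    rw [← mul_assoc, hc0]; simp only [mul_assoc]
  have e2 : h * h * c = c * (h * h) := by
    simp only [mul_assoc, hc0, hcw, c3w]
  have e4 : h ^ 4 = (h * h) ^ 2 := by rw [← pow_two, ← pow_mul]
  rw [e4]
  exact ((show Commute (h * h) c from e2).pow_left 2).symm.eq

theorem centralizer_zpowers (g : G) : Subgroup.centralizer ((Subgroup.zpowers g : Subgroup G) : Set G) = Subgroup.centralizer ({g} : Set G) := by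
  apply le_antisymm
  · exact Subgroup.centralizer_le (by
      rw [Set.singleton_subset_iff]
      exact Subgroup.mem_zpowers g)
  · intro m hm
    rw [Subgroup.mem_centralizer_iff]
    intro a ha
    exact mem_zpowers_comm ha (Subgroup.mem_centralizer_singleton_iff.1 hm)

variable [Finite G] {b : G}

theorem main3 (L : Loc G b) {x0 y0 c0 h0 d0 e0 : G} (H0 : Ex x0 y0 c0 h0 d0 e0) (P : Sylow 3 G) :
    Cfsg.IsExtraspecial 3 (P : Subgroup G) ∧ Nat.card P = 27 ∧
      Nat.card (Subgroup.normalizer ((P : Subgroup G) : Set G)) = 216 ∧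
      ∃ a b : G, orderOf a = 3 ∧ orderOf b = 3 ∧ ¬ IsConj a b ∧ ∀ c : G, orderOf c = 3 → IsConj c a ∨ IsConj c b := by
  have hp3 : Fact (Nat.Prime 3) := ⟨Nat.prime_three⟩
  obtain ⟨x, y, c, h, d, e, H, hP⟩ := H0.exists_P L.cardG P
  have hPm : ∀ i j k : ℕ, x ^ i * y ^ j * c ^ k ∈ P := fun i j k => by
    rw [H.mod3]
    exact (hP _).2 ⟨_, Nat.mod_lt i (by norm_num), _, Nat.mod_lt j (by norm_num), _, Nat.mod_lt k (by norm_num), rfl⟩
  have hx : x ∈ P := by simpa using hPm 1 0 0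
  have hy : y ∈ P := by simpa using hPm 0 1 0
  have hc : c ∈ P := by simpa using hPm 0 0 1
  have hcard : Nat.card P = 27 := by
    have := card_sylow_eq P (n := 22400) (a := 3) (by rw [L.cardG]; norm_num) (by norm_num)
    rw [this]; norm_num
  have hcc : ∀ p ∈ P, p * c = c * p := by
    intro p hp
    obtain ⟨i, -, j, -, k, -, rfl⟩ := (hP p).1 hp
    have h1 := H.mul i j k 0 0 1
    have h2 := H.mul 0 0 1 i j k
    simp only [pow_one, pow_zero, mul_one, one_mul, mul_zero, zero_mul, add_zero, zero_add] at h1 h2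
    rw [h1, h2, add_comm k 1]
  have hcen : ∀ p ∈ P, (∀ q ∈ P, p * q = q * p) → p ∈ Subgroup.zpowers c := by
    intro p hp hq
    obtain ⟨i, hi, j, hj, k, hk, rfl⟩ := (hP p).1 hp
    obtain ⟨rfl, rfl⟩ := H.central hi hj (hq x hx) (hq y hy)
    rw [pow_zero, pow_zero, one_mul, one_mul]
    exact Subgroup.npow_mem_zpowers c k
  have h27c : 27 ∣ Nat.card (Subgroup.centralizer ({c} : Set G)) := by
    rw [← hcard]
    exact Subgroup.card_dvd_of_le fun p hp => Subgroup.mem_centralizer_singleton_iff.2 (hcc p hp)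
  -- conjugating into `P`
  have hinto : ∀ a : G, orderOf a = 3 → IsConj a c ∨ IsConj a x := by
    intro a ha
    have ha1 : a ≠ 1 := by
      rintro rfl
      rw [orderOf_one] at ha
      norm_num at ha
    have hap : IsPGroup 3 (Subgroup.zpowers a) := IsPGroup.of_card (n := 1) (by rw [Nat.card_zpowers, ha, pow_one])
    obtain ⟨T, hT⟩ := hap.exists_le_sylow
    obtain ⟨g, hg⟩ := MulAction.exists_smul_eq G T P
    have hgP : g * a * g⁻¹ ∈ P := by
      rw [← hg]
      exact Subgroup.smul_mem_pointwise_smul a (MulAut.conj g) _ (hT (Subgroup.mem_zpowers a))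
    have hga : IsConj a (g * a * g⁻¹) := isConj_iff.2 ⟨g, rfl⟩
    obtain ⟨i, hi, j, hj, k, hk, he⟩ := (hP _).1 hgP
    by_cases hij : i ≠ 0 ∨ j ≠ 0
    · right
      rw [he] at hga
      exact hga.trans (H.isConj_x hi hj hk hij).symm
    · left
      have hi0 : i = 0 := by omega
      have hj0 : j = 0 := by omega
      subst hi0 hj0
      rw [pow_zero, pow_zero, one_mul, one_mul] at he
      rw [he] at hga
      have hk0 : k ≠ 0 := by
        rintro rfl
        rw [pow_zero] at he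
        exact ha1 (conj_eq_one_iff.1 he)
      have hk' : k = 1 ∨ k = 2 := by omega
      rcases hk' with rfl | rfl
      · rwa [pow_one] at hga
      · exact hga.trans H.isConj_c.symm
  have hbx : IsConj b x := by
    rcases hinto b L.ob with h1 | h1
    · exact absurd (by rw [card_cent_conj h1]; exact h27c) L.b27
    · exact h1
  have hcx : ¬ IsConj c x := by
    intro h1
    apply L.b27
    rw [card_cent_conj hbx, ← card_cent_conj h1]
    exact h27c
  -- the normalizer
  let N := Subgroup.normalizer ((P : Subgroup G) : Set G)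
  have hhN : h ∈ N := by
    refine Subgroup.mem_normalizer_fintype fun p hp => ?_
    obtain ⟨i, -, j, -, k, -, rfl⟩ := (hP p).1 hp
    rw [H.hp]
    exact P.mul_mem (P.mul_mem (P.pow_mem hy i) (P.pow_mem (P.mul_mem (P.mul_mem hx hy) hc) j)) (P.pow_mem (P.mul_mem hc hc) k)
  have h8 : 8 ∣ Nat.card N := by
    have h1 := orderOf_dvd_natCard (⟨h, hhN⟩ : N)
    rwa [Subgroup.orderOf_mk, H.oh] at h1
  have h27 : 27 ∣ Nat.card N := by
    rw [← hcard]
    exact Subgroup.card_dvd_of_le Subgroup.le_normalizer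
  have h216 : 216 ∣ Nat.card N := Nat.Coprime.mul_dvd_of_dvd_of_dvd (by norm_num) h8 h27
  have h16c : ¬ 16 ∣ Nat.card (Subgroup.centralizer ({c} : Set G)) := by
    refine L.three (h ^ 4) c ?_ H.oc H.uc
    have hp2 : Fact (Nat.Prime 2) := ⟨Nat.prime_two⟩
    exact orderOf_eq_prime (by rw [← pow_mul]; exact H.h8) H.h4
  have h32 : ¬ 32 ∣ Nat.card N := by
    intro h1
    have h2 : N ≤ Subgroup.normalizer ((Subgroup.zpowers c : Subgroup G) : Set G) := by
      intro n hn
      have hn' := Subgroup.mem_normalizer_iff.1 hn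
      have hn2 := Subgroup.mem_normalizer_iff.1 (N.inv_mem hn)
      have h3 : n * c * n⁻¹ ∈ Subgroup.zpowers c := by
        refine hcen _ ((hn' c).1 hc) fun q hq => ?_
        have h4 : n⁻¹ * q * n ∈ (P : Subgroup G) := by simpa using (hn2 q).1 hq
        have h5 := hcc _ h4
        calc n * c * n⁻¹ * q = n * (c * (n⁻¹ * q * n)) * n⁻¹ := by group
          _ = n * (n⁻¹ * q * n * c) * n⁻¹ := by rw [h5]
          _ = q * (n * c * n⁻¹) := by group
      refine Subgroup.mem_normalizer_fintype fun p hp => ?_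
      obtain ⟨k, rfl⟩ := Subgroup.mem_zpowers_iff.1 hp
      rw [← conj_zpow]
      exact Subgroup.zpow_mem _ h3 k
    have h3 := (h1.trans (Subgroup.card_dvd_of_le h2)).trans
      (card_norm_dvd (p := 3) (by norm_num) (Subgroup.zpowers c) (by rw [Nat.card_zpowers, H.oc]))
    rw [centralizer_zpowers] at h3
    apply h16c
    exact Nat.dvd_of_mul_dvd_mul_right (k := 2) (by norm_num) h3
  have hfix : ∀ (r : ℕ), (r = 5 ∨ r = 7) → ∀ u ∈ N, orderOf u = r → (P : Subgroup G) ≤ Subgroup.centralizer ({u} : Set G) := by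
    intro r hr u hu ho
    have h1 := card_fix_mod (p := r) (by rcases hr with rfl | rfl <;> norm_num) ho (W := (P : Subgroup G))
      (fun w hw => (Subgroup.mem_normalizer_iff.1 hu w).1 hw)
    have h2 : Nat.card ((P : Subgroup G) ⊓ Subgroup.centralizer ({u} : Set G) : Subgroup G) ∣ 27 := by
      rw [← hcard]
      exact Subgroup.card_dvd_of_le inf_le_left
    have h3 : Nat.card (P : Subgroup G) = 27 := hcard
    have h4 : Nat.card ((P : Subgroup G) ⊓ Subgroup.centralizer ({u} : Set G) : Subgroup G) = 27 := by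
      rw [h3] at h1
      have key : ∀ m ∈ Nat.divisors 27, (27 % 5 = m % 5 ∨ 27 % 7 = m % 7) → m = 27 := by decide +kernel
      refine key _ (Nat.mem_divisors.2 ⟨h2, by norm_num⟩) ?_
      rcases hr with rfl | rfl
      · exact Or.inl h1
      · exact Or.inr h1
    have h5 : (P : Subgroup G) ⊓ Subgroup.centralizer ({u} : Set G) = P :=
      Subgroup.eq_of_le_of_card_ge inf_le_left (by rw [h4, h3])
    rw [← h5]
    exact inf_le_right
  have hcauchy : ∀ (r : ℕ), r.Prime → r ∣ Nat.card N → ∃ u ∈ N, orderOf u = r := by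
    intro r hr hd
    have hf : Fact r.Prime := ⟨hr⟩
    obtain ⟨u, hu⟩ := exists_prime_orderOf_dvd_card' (G := N) r hd
    exact ⟨u, u.2, by rw [← hu, Subgroup.orderOf_coe]⟩
  have h5 : ¬ 5 ∣ Nat.card N := by
    intro h1
    obtain ⟨u, hu, ho⟩ := hcauchy 5 (by norm_num) h1
    have h2 := Subgroup.card_dvd_of_le (hfix 5 (Or.inl rfl) u hu ho)
    have h3 : Nat.card (P : Subgroup G) = 27 := hcard
    rw [h3] at h2
    have h4 := h2.trans (L.five u ho)
    norm_num at h4
  have h7 : ¬ 7 ∣ Nat.card N := by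
    intro h1
    obtain ⟨u, hu, ho⟩ := hcauchy 7 (by norm_num) h1
    have h2 := Subgroup.mem_centralizer_singleton_iff.1 (hfix 7 (Or.inr rfl) u hu ho hx)
    apply L.b7
    rw [card_cent_conj hbx]
    have h3 : u ∈ Subgroup.centralizer ({x} : Set G) := Subgroup.mem_centralizer_singleton_iff.2 h2.symm
    have h4 := orderOf_dvd_natCard (⟨u, h3⟩ : Subgroup.centralizer ({x} : Set G))
    rwa [Subgroup.orderOf_mk, ho] at h4
  have hN : Nat.card N = 216 := by
    have h1 : Nat.card (Sylow 3 G) = N.index := Sylow.card_eq_index_normalizer P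
    have h2 : Nat.card (Sylow 3 G) ≡ 1 [MOD 3] := card_sylow_modEq_one 3 G
    refine arith3 (m := N.index) ?_ ?_ h216 h32 h5 h7
    · rw [← L.cardG]
      exact N.card_mul_index
    · rw [← h1]
      exact h2
  refine ⟨?_, hcard, hN, c, x, H.oc, H.ox, hcx, hinto⟩
  -- extraspecial
  have hcent : ∀ p : (P : Subgroup G), p ∈ Subgroup.center (P : Subgroup G) ↔ (p : G) ∈ Subgroup.zpowers c := by
    intro p
    rw [Subgroup.mem_center_iff]
    constructor
    · intro h1
      exact hcen p p.2 fun q hq => (congrArg Subtype.val (h1 ⟨q, hq⟩)).symm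
    · intro h1 q
      apply Subtype.ext
      exact (mem_zpowers_comm h1 (hcc q q.2)).symm
  have hcc2 : Nat.card (Subgroup.center (P : Subgroup G)) = 3 := by
    have hle : Subgroup.zpowers c ≤ (P : Subgroup G) := by rw [Subgroup.zpowers_le]; exact hc
    have h1 : Subgroup.center (P : Subgroup G) = (Subgroup.zpowers c).subgroupOf (P : Subgroup G) := by
      ext p
      rw [hcent, Subgroup.mem_subgroupOf]
    rw [h1, Nat.card_congr (Subgroup.subgroupOfEquivOfLe hle).toEquiv, Nat.card_zpowers, H.oc]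
  apply H3.Extraspecial.isExtraspecial_of
  · rw [commutator_def, Subgroup.commutator_le]
    rintro ⟨p, hp⟩ - ⟨q, hq⟩ -
    rw [hcent]
    obtain ⟨i, -, j, -, k, -, rfl⟩ := (hP p).1 hp
    obtain ⟨i', -, j', -, k', -, rfl⟩ := (hP q).1 hq
    change ⁅x ^ i * y ^ j * c ^ k, x ^ i' * y ^ j' * c ^ k'⁆ ∈ _
    have h1 := H.mul i j k i' j' k'
    have h2 := H.mul i' j' k' i j k
    have h3 := H.mul (i' + i) (j' + j) (k' + k + 2 * i * j') 0 0 (2 * i' * j)
    have h4 := H.mul (i + i') (j + j') (k + k' + 2 * i' * j) 0 0 (2 * i * j')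
    rw [add_zero, add_zero, mul_zero, zero_mul, add_zero, pow_zero, pow_zero, one_mul, one_mul, ← h2] at h3
    rw [add_zero, add_zero, mul_zero, zero_mul, add_zero, pow_zero, pow_zero, one_mul, one_mul, ← h1] at h4
    generalize x ^ i * y ^ j * c ^ k = p at *
    generalize x ^ i' * y ^ j' * c ^ k' = q at *
    have h5 : p * q * c ^ (2 * i * j') = q * p * c ^ (2 * i' * j) := by
      have h10 : k' + k + 2 * i * j' + 2 * i' * j = k + k' + 2 * i' * j + 2 * i * j' := by ring
      rw [h3, h4, h10, add_comm i' i, add_comm j' j]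
    have h6 : ⁅p, q⁆ = c ^ (2 * i' * j) * (c ^ (2 * i * j'))⁻¹ := by
      have hcq : ∀ n : ℕ, ∀ r ∈ P, r * c ^ n = c ^ n * r := fun n r hr => ((show Commute r c from hcc r hr).pow_right n).eq
      have hpP : p ∈ P := hp
      have hqP : q ∈ P := hq
      rw [commutatorElement_def]
      have h7 : p * q = q * p * (c ^ (2 * i' * j) * (c ^ (2 * i * j'))⁻¹) := by
        rw [← mul_assoc, ← h5, mul_inv_cancel_right]
      have h8 : p⁻¹ * q⁻¹ = (q * p)⁻¹ := by rw [mul_inv_rev]
      rw [mul_assoc (p * q), h8, h7]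
      have h9 : q * p * (c ^ (2 * i' * j) * (c ^ (2 * i * j'))⁻¹) = c ^ (2 * i' * j) * (c ^ (2 * i * j'))⁻¹ * (q * p) := by
        have hqp : q * p ∈ P := P.mul_mem hqP hpP
        have e1 := hcq (2 * i' * j) _ hqp
        have e2 : (q * p) * (c ^ (2 * i * j'))⁻¹ = (c ^ (2 * i * j'))⁻¹ * (q * p) := by
          rw [eq_inv_mul_iff_mul_eq, ← mul_assoc, ← hcq _ _ hqp, mul_inv_cancel_right]
        rw [← mul_assoc, e1, mul_assoc, e2, ← mul_assoc]
      rw [h9, mul_inv_cancel_right]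
    rw [h6]
    exact Subgroup.mul_mem _ (Subgroup.npow_mem_zpowers c _) (Subgroup.inv_mem _ (Subgroup.npow_mem_zpowers c _))
  · exact hcc2
  · refine ⟨⟨x, hx⟩, ⟨y, hy⟩, fun h1 => H.ncomm ?_⟩
    have h2 : ⁅x, y⁆ = 1 := congrArg Subtype.val h1
    exact commutatorElement_eq_one_iff_mul_comm.1 h2

end

end H64.J2T
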