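import Cfsg.Agent.Lib.H64.J2T3

set_option autoImplicit false

/-! Groups of Hall-Janko type: Sylow 7-subgroups from the explicit elements. -/

namespace H64.J2T

open H64.J2
open scoped Pointwise

section
variable {G : Type*} [Group G] {x y c h d e : G}

theorem Ex.ed_pow (H : Ex x y c h d e) (j : ℕ) : e ^ j * d = d ^ (3 ^ j) * e ^ j := by
  have h1 : e * d * e⁻¹ = d ^ 3 := by rw [mul_inv_eq_iff_eq_mul]; exact H.ed
  have h2 : ∀ k : ℕ, e * d ^ k = d ^ (3 * k) * e := by
    intro k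
    have : e * d ^ k * e⁻¹ = d ^ (3 * k) := by rw [← conj_pow, h1, pow_mul]
    rw [← this]; group
  induction j with
  | zero => simp
  | succ j ih => rw [pow_succ', mul_assoc, ih, ← mul_assoc, h2, mul_assoc, ← pow_succ' 3 j]

theorem Ex.od (H : Ex x y c h d e) : orderOf d = 7 := by
  have hp : Fact (Nat.Prime 7) := ⟨by norm_num⟩
  exact orderOf_eq_prime H.d7 H.d1

theorem Ex.e_cent (H : Ex x y c h d e) {j : ℕ} (hj : j < 6) (hc : e ^ j * d = d * e ^ j) : j = 0 := by
  have h1 := H.ed_pow j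
  rw [hc] at h1
  have h2 : d ^ 1 = d ^ (3 ^ j) := by rw [pow_one]; exact mul_right_cancel h1
  rw [pow_inj_mod, H.od] at h2
  interval_cases j
  · rfl
  all_goals norm_num at h2

theorem Ex.oe (H : Ex x y c h d e) : orderOf e = 6 := by
  have h1 : orderOf e ∣ 6 := orderOf_dvd_of_pow_eq_one H.e6
  have h2 : orderOf e ≤ 6 := Nat.le_of_dvd (by norm_num) h1
  by_contra hne
  have h3 : orderOf e < 6 := lt_of_le_of_ne h2 hne
  have h4 := H.e_cent h3 (by rw [pow_orderOf_eq_one, one_mul, mul_one])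
  rw [h4] at h1
  norm_num at h1

variable [Finite G] {b : G}

theorem Ex.exists_D (H : Ex x y c h d e) (hG : Nat.card G = 604800) (D : Sylow 7 G) :
    ∃ x y c h d e : G, Ex x y c h d e ∧ (D : Subgroup G) = Subgroup.zpowers d := by
  have hp : Fact (Nat.Prime 7) := ⟨by norm_num⟩
  have hKp : IsPGroup 7 (Subgroup.zpowers d) := IsPGroup.of_card (n := 1) (by rw [Nat.card_zpowers, H.od, pow_one])
  obtain ⟨T, hT⟩ := hKp.exists_le_sylow
  have hT7 : Nat.card T = 7 ^ 1 := card_sylow_eq T (n := 86400) (by rw [hG]; norm_num) (by norm_num)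
  have hKT : Subgroup.zpowers d = (T : Subgroup G) := Subgroup.eq_of_le_of_card_ge hT (by
    rw [hT7, Nat.card_zpowers, H.od]; norm_num)
  obtain ⟨g, hg⟩ := MulAction.exists_smul_eq G T D
  refine ⟨_, _, _, _, _, _, H.conj g, ?_⟩
  rw [← map_conj_zpowers, hKT, ← hg]
  rfl

theorem main7 (L : Loc G b) {x0 y0 c0 h0 d0 e0 : G} (H0 : Ex x0 y0 c0 h0 d0 e0) (D : Sylow 7 G) :
    Subgroup.centralizer ((D : Subgroup G) : Set G) = D ∧
      Nat.card (Subgroup.normalizer ((D : Subgroup G) : Set G)) = 42 ∧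
      ¬ IsMulCommutative (Subgroup.normalizer ((D : Subgroup G) : Set G)) := by
  have hp7 : Fact (Nat.Prime 7) := ⟨by norm_num⟩
  obtain ⟨x, y, c, h, d, e, H, hD⟩ := H0.exists_D L.cardG D
  have hD7 : Nat.card (D : Subgroup G) = 7 := by rw [hD, Nat.card_zpowers, H.od]
  have hcd : Subgroup.centralizer ((D : Subgroup G) : Set G) = Subgroup.centralizer ({d} : Set G) := by
    rw [hD, centralizer_zpowers]
  let C := Subgroup.centralizer ((D : Subgroup G) : Set G)
  let N := Subgroup.normalizer ((D : Subgroup G) : Set G)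
  have hDC : (D : Subgroup G) ≤ C := by
    intro a ha
    rw [hD] at ha
    change a ∈ Subgroup.centralizer ((D : Subgroup G) : Set G)
    rw [hcd]
    exact Subgroup.mem_centralizer_singleton_iff.2 (mem_zpowers_comm ha rfl)
  have hCN : C ≤ N := Subgroup.centralizer_le_normalizer _
  have hdN : d ∈ N := hCN (hDC (by rw [hD]; exact Subgroup.mem_zpowers d))
  have heN : e ∈ N := by
    change e ∈ Subgroup.normalizer ((D : Subgroup G) : Set G)
    refine Subgroup.mem_normalizer_fintype fun p hp => ?_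
    have hp' : p ∈ Subgroup.zpowers d := by rw [← hD]; exact hp
    obtain ⟨k, rfl⟩ := Subgroup.mem_zpowers_iff.1 hp'
    have h1 : e * d * e⁻¹ = d ^ 3 := by rw [mul_inv_eq_iff_eq_mul]; exact H.ed
    have h2 : e * d ^ k * e⁻¹ ∈ Subgroup.zpowers d := by
      rw [← conj_zpow, h1]
      exact Subgroup.zpow_mem _ (Subgroup.npow_mem_zpowers d 3) k
    rw [← hD] at h2
    exact h2
  have h6 : 6 ∣ Nat.card N := by
    have h1 := orderOf_dvd_natCard (⟨e, heN⟩ : N)
    rwa [Subgroup.orderOf_mk, H.oe] at h1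
  have h7 : 7 ∣ Nat.card N := by
    have h1 := orderOf_dvd_natCard (⟨d, hdN⟩ : N)
    rwa [Subgroup.orderOf_mk, H.od] at h1
  have h42 : 42 ∣ Nat.card N := Nat.Coprime.mul_dvd_of_dvd_of_dvd (by norm_num) h6 h7
  -- the centralizer
  have hcauchy : ∀ (r : ℕ), r.Prime → r ∣ Nat.card C → ∃ u : G, orderOf u = r ∧ 7 ∣ Nat.card (Subgroup.centralizer ({u} : Set G)) := by
    intro r hr hd
    have hf : Fact r.Prime := ⟨hr⟩
    obtain ⟨u, hu⟩ := exists_prime_orderOf_dvd_card' (G := C) r hd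
    refine ⟨u, by rw [← hu, Subgroup.orderOf_coe], ?_⟩
    rw [← hD7]
    apply Subgroup.card_dvd_of_le
    intro a ha
    exact Subgroup.mem_centralizer_singleton_iff.2 ((Subgroup.mem_centralizer_iff.1 u.2) a ha)
  have h2C : ¬ 2 ∣ Nat.card C := by
    intro h1
    obtain ⟨u, hu, hu7⟩ := hcauchy 2 (by norm_num) h1
    have := hu7.trans (L.inv u hu)
    norm_num at this
  have h5C : ¬ 5 ∣ Nat.card C := by
    intro h1
    obtain ⟨u, hu, hu7⟩ := hcauchy 5 (by norm_num) h1
    have := hu7.trans (L.five u hu)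
    norm_num at this
  have hC189 : Nat.card C ∣ 189 := by
    have h1 : Nat.card C ∣ 604800 := by rw [← L.cardG]; exact Subgroup.card_subgroup_dvd_card C
    have c2 : Nat.Coprime (Nat.card C) (2 ^ 7) := Nat.Coprime.pow_right 7 ((Nat.Prime.coprime_iff_not_dvd (by norm_num)).2 h2C).symm
    have c5 : Nat.Coprime (Nat.card C) (5 ^ 2) := Nat.Coprime.pow_right 2 ((Nat.Prime.coprime_iff_not_dvd (by norm_num)).2 h5C).symm
    have h3 : Nat.card C ∣ 2 ^ 7 * (5 ^ 2 * 189) := by
      have : 2 ^ 7 * (5 ^ 2 * 189) = 604800 := by norm_num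
      rwa [this]
    exact c5.dvd_of_dvd_mul_left (c2.dvd_of_dvd_mul_left h3)
  have hN : Nat.card N = 42 := by
    have h1 : Nat.card (Sylow 7 G) = N.index := Sylow.card_eq_index_normalizer D
    have h2 : Nat.card (Sylow 7 G) ≡ 1 [MOD 7] := card_sylow_modEq_one 7 G
    refine arith7 (m := N.index) ?_ ?_ h42 ?_
    · rw [← L.cardG]
      exact N.card_mul_index
    · rw [← h1]
      exact h2
    · exact (card_norm_dvd (p := 7) (by norm_num) (D : Subgroup G) hD7).trans (Nat.mul_dvd_mul_right hC189 6)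
  have hC7 : Nat.card C ≤ 7 := by
    have hdis : Disjoint C (Subgroup.zpowers e) := by
      rw [Subgroup.disjoint_def]
      intro a ha hae
      obtain ⟨j, hj, rfl⟩ : ∃ j < 6, e ^ j = a := by
        rw [← mem_powers_iff_mem_zpowers] at hae
        obtain ⟨j, rfl⟩ := hae
        refine ⟨j % 6, Nat.mod_lt _ (by norm_num), ?_⟩
        change e ^ (j % 6) = e ^ j
        exact (pow_eq_pow_mod j H.e6).symm
      have h1 : e ^ j ∈ Subgroup.centralizer ({d} : Set G) := by rw [← hcd]; exact ha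
      rw [H.e_cent hj (Subgroup.mem_centralizer_singleton_iff.1 h1), pow_zero]
    have hinj := Subgroup.mul_injective_of_disjoint hdis
    have h1 : Nat.card (C × Subgroup.zpowers e) ≤ Nat.card N := by
      refine Nat.card_le_card_of_injective (fun p => (⟨(p.1 : G) * p.2, N.mul_mem (hCN p.1.2)
        ((Subgroup.zpowers_le.2 heN) p.2.2)⟩ : N)) ?_
      intro p q hpq
      exact hinj (congrArg Subtype.val hpq)
    rw [Nat.card_prod, Nat.card_zpowers, H.oe, hN] at h1
    omega
  refine ⟨?_, hN, ?_⟩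
  · exact (Subgroup.eq_of_le_of_card_ge hDC (by rw [hD7]; exact hC7)).symm
  · intro hcomm
    have h1 : (⟨e, heN⟩ : N) * ⟨d, hdN⟩ = ⟨d, hdN⟩ * ⟨e, heN⟩ := hcomm.is_comm.comm _ _
    have h2 : e ^ 1 * d = d * e ^ 1 := by
      rw [pow_one]
      exact congrArg Subtype.val h1
    have h3 := H.e_cent (by norm_num) h2
    norm_num at h3

end

end H64.J2T
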