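import Cfsg.Agent.Lib.H64.J2T

set_option autoImplicit false

/-! The Sylow 5-subgroup of a group of Hall-Janko type, I. -/

namespace H64.J2

section general
variable {G : Type*} [Group G] [Finite G]

theorem card_sylow_eq {p : ℕ} [hp : Fact p.Prime] (P : Sylow p G) {a n : ℕ} (h : Nat.card G = p ^ a * n) (hn : ¬ p ∣ n) :
    Nat.card P = p ^ a := by
  obtain ⟨k, hk⟩ := IsPGroup.iff_card.1 P.isPGroup'
  have h1 : p ^ a ∣ Nat.card P := P.pow_dvd_card_of_pow_dvd_card (by rw [h]; exact dvd_mul_right _ _)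
  rw [hk] at h1
  have h2 : a ≤ k := (Nat.pow_dvd_pow_iff_le_right hp.out.one_lt).1 h1
  have h3 : p ^ k ∣ p ^ a * n := by
    rw [← h, ← hk]; exact Subgroup.card_subgroup_dvd_card _
  have h4 : k ≤ a := by
    by_contra hlt
    push Not at hlt
    have h5 : p ^ (a + 1) ∣ p ^ a * n := (pow_dvd_pow p hlt).trans h3
    rw [pow_succ] at h5
    exact hn (Nat.dvd_of_mul_dvd_mul_left (pow_pos hp.out.pos a) h5)
  rw [hk, le_antisymm h4 h2]

/-- Burnside: fusion in an abelian Sylow subgroup -/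
theorem burnside {p : ℕ} [hp : Fact p.Prime] (P : Sylow p G) (hc : ∀ a ∈ P, ∀ b ∈ P, a * b = b * a) {a b : G}
    (ha : a ∈ P) (hb : b ∈ P) (hab : IsConj a b) : ∃ n ∈ Subgroup.normalizer ((P : Subgroup G) : Set G), n * a * n⁻¹ = b := by
  have hcomm : IsMulCommutative P := ⟨⟨by
    rintro ⟨a, ha⟩ ⟨b, hb⟩
    exact Subtype.ext (hc a ha b hb)⟩⟩
  obtain ⟨g, hg⟩ := isConj_iff.1 hab
  obtain ⟨n, hn, hn2⟩ := P.conj_eq_normalizer_conj_of_mem a g⁻¹ ha (by rw [inv_inv, hg]; exact hb)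
  refine ⟨n⁻¹, inv_mem hn, ?_⟩
  rw [inv_inv, ← hn2, inv_inv, hg]

end general

section
variable {G : Type*} [Group G] [Finite G] {z t y : G} (D : GD z t y) (e : D.K ≃* alternatingGroup (Fin 5))
include e

theorem GD.exists_r {p : ℕ} (hp : p = 3 ∨ p = 5) : ∃ r ∈ D.KG, orderOf r = p := by
  have hpf : Fact p.Prime := ⟨by rcases hp with h | h <;> rw [h] <;> norm_num⟩
  have hfin : Finite D.KG := inferInstance
  obtain ⟨r, hr⟩ := exists_prime_orderOf_dvd_card' (G := D.KG) p (by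
    rw [D.cKG e]
    rcases hp with h | h <;> rw [h] <;> norm_num)
  exact ⟨r, r.2, (orderOf_injective D.KG.subtype (Subgroup.subtype_injective _) r).trans hr⟩

omit [Finite G] in
/-- elements of order three and five of `KG` are conjugate to their inverses in `KG` -/
theorem GD.conj_inv {r : G} (hr : r ∈ D.KG) (ho : orderOf r = 3 ∨ orderOf r = 5) : ∃ k ∈ D.KG, k * r * k⁻¹ = r⁻¹ := by
  obtain ⟨e'⟩ := D.KG_equiv e
  have hp : ∀ j : ℕ, r ^ j = 1 → (e' ⟨r, hr⟩ : Equiv.Perm (Fin 5)) ^ j = 1 := by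
    intro j hj
    have h2 : e' (⟨r, hr⟩ ^ j) = 1 := by
      rw [← map_one e']
      exact congrArg e' (Subtype.ext hj)
    rw [map_pow] at h2
    exact congrArg Subtype.val h2
  obtain ⟨ρ, hρ, h1⟩ := inv5 (e' ⟨r, hr⟩) (by
    rcases ho with h | h
    · exact Or.inr ⟨Equiv.Perm.mem_alternatingGroup.1 (e' ⟨r, hr⟩).2, hp 3 (by rw [← h, pow_orderOf_eq_one])⟩
    · exact Or.inl (hp 5 (by rw [← h, pow_orderOf_eq_one])))
  obtain ⟨k, hk⟩ := e'.surjective ⟨ρ, Equiv.Perm.mem_alternatingGroup.2 hρ⟩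
  refine ⟨k, k.2, ?_⟩
  have h2 : e' (k * ⟨r, hr⟩) = e' (⟨r, hr⟩⁻¹ * k) := by
    rw [map_mul, map_mul, map_inv, hk]
    exact Subtype.ext h1
  have h3 : (k : G) * r = r⁻¹ * k := congrArg Subtype.val (e'.injective h2)
  exact mul_inv_eq_iff_eq_mul.2 h3

omit [Finite G] in
theorem GD.no_sq {r : G} (hr : r ∈ D.KG) (ho : orderOf r = 5) {k : G} (hk : k ∈ D.KG) : k * r * k⁻¹ ≠ r ^ 2 := by
  intro h
  obtain ⟨e'⟩ := D.KG_equiv e
  have hr5 : (⟨r, hr⟩ : D.KG) ^ 5 = 1 := Subtype.ext (by change r ^ 5 = 1; rw [← ho, pow_orderOf_eq_one])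
  have h1 : (e' ⟨r, hr⟩ : Equiv.Perm (Fin 5)) ^ 5 = 1 := by
    have h2 : (e' ⟨r, hr⟩) ^ 5 = 1 := by rw [← map_pow, hr5, map_one]
    exact congrArg Subtype.val h2
  refine no_sq5 (e' ⟨r, hr⟩) ⟨h1, ?_⟩ (e' ⟨k, hk⟩) (Equiv.Perm.mem_alternatingGroup.1 (e' ⟨k, hk⟩).2) ?_
  · intro h3
    have h4 : (⟨r, hr⟩ : D.KG) = 1 := e'.injective (by rw [map_one]; exact Subtype.ext h3)
    have h5 : r = 1 := congrArg Subtype.val h4
    rw [h5, orderOf_one] at ho
    omega
  · have h2 : (⟨k, hk⟩ : D.KG) * ⟨r, hr⟩ = ⟨r, hr⟩ ^ 2 * ⟨k, hk⟩ := Subtype.ext (mul_inv_eq_iff_eq_mul.1 h)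
    have h3 := congrArg e' h2
    rw [map_mul, map_mul, map_pow] at h3
    exact congrArg Subtype.val h3

end

/-- data for the prime five -/
structure Five {G : Type*} [Group G] (t r : G) : Prop where
  o : orderOf r = 5
  tt : t * t = 1
  t1 : t ≠ 1
  cardG : Nat.card G = 604800
  cardT : Nat.card (Subgroup.centralizer ({t} : Set G)) = 240
  cardM : Nat.card (Subgroup.centralizer ({r} : Set G)) = 300
  conj : ∀ u : G, u * u = 1 → u ≠ 1 → u * r = r * u → ∃ m : G, m * r = r * m ∧ m * u * m⁻¹ = t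
  nosq : ¬ IsConj r (r ^ 2)
  inv : IsConj r r⁻¹
  six : ∀ P : Sylow 5 (Subgroup.centralizer ({r} : Set G)), ¬ (P : Subgroup (Subgroup.centralizer ({r} : Set G))).Normal

section
variable {G : Type*} [Group G] [Finite G] {z t y : G} (D : GD z t y) (e : D.K ≃* alternatingGroup (Fin 5))
include e

theorem GD.five {r : G} (hr : r ∈ D.KG) (ho : orderOf r = 5) : Five t r := by
  have hp : Fact (Nat.Prime 5) := ⟨by norm_num⟩
  have hG := D.card_G e
  -- a Sylow 5-subgroup containing `r`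
  have hrp : IsPGroup 5 (Subgroup.zpowers r) := IsPGroup.of_card (n := 1) (by rw [Nat.card_zpowers, ho, pow_one])
  obtain ⟨P, hP⟩ := hrp.exists_le_sylow
  have hrP : r ∈ P := hP (Subgroup.mem_zpowers r)
  have hcP : Nat.card P = 5 ^ 2 := card_sylow_eq P (n := 24192) (by rw [hG]; norm_num) (by norm_num)
  have hPc : IsMulCommutative P := IsPGroup.isMulCommutative_of_card_eq_prime_sq hcP
  have hcomm : ∀ a ∈ P, ∀ b ∈ P, a * b = b * a := fun a ha b hb =>
    congrArg Subtype.val (hPc.is_comm.comm (⟨a, ha⟩ : P) ⟨b, hb⟩)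
  have hPM : (P : Subgroup G) ≤ Subgroup.centralizer ({r} : Set G) := fun a ha =>
    Subgroup.mem_centralizer_singleton_iff.2 (hcomm a ha r hrP)
  have h25 : 25 ∣ Nat.card (Subgroup.centralizer ({r} : Set G)) := by
    have h1 := Subgroup.card_dvd_of_le hPM
    have h2 : Nat.card (P : Subgroup G) = 25 := hcP
    rwa [h2] at h1
  obtain ⟨R, hRn, hRm, hRc, hcases⟩ := D.quot_cases e hr (Or.inr ho)
  have hmul := R.card_mul_index
  rw [hRc, ho] at hmul
  have hiso : Nonempty ((Subgroup.centralizer ({r} : Set G)) ⧸ R ≃* alternatingGroup (Fin 5)) := by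
    rcases hcases with h | h | h
    · rw [h] at hmul
      omega
    · rw [h] at hmul
      omega
    · exact h hRn
  obtain ⟨f⟩ := hiso
  have hidx : R.index = 60 := by
    rw [Subgroup.index_eq_card, Nat.card_congr f.toEquiv, ← D.cK e, Nat.card_congr e.toEquiv]
  rw [hidx] at hmul
  have hM : Nat.card (Subgroup.centralizer ({r} : Set G)) = 300 := hmul.symm
  have hodd : Odd (orderOf r) := by rw [ho]; decide
  have htM : t * r = r * t := (D.KG_comm_t hr).symm
  -- involutions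
  have hconj : ∀ u : G, u * u = 1 → u ≠ 1 → u * r = r * u → ∃ m : G, m * r = r * m ∧ m * u * m⁻¹ = t := by
    intro u hu hu1 hur
    let u' : Subgroup.centralizer ({r} : Set G) := ⟨u, Subgroup.mem_centralizer_singleton_iff.2 hur⟩
    let t' : Subgroup.centralizer ({r} : Set G) := ⟨t, Subgroup.mem_centralizer_singleton_iff.2 htM⟩
    have hinv : ∀ v : Subgroup.centralizer ({r} : Set G), v * v = 1 → v ≠ 1 →
        (Equiv.Perm.sign (f (QuotientGroup.mk' R v) : Equiv.Perm (Fin 5)) = 1 ∧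
          (f (QuotientGroup.mk' R v) : Equiv.Perm (Fin 5)) * f (QuotientGroup.mk' R v) = 1 ∧
          (f (QuotientGroup.mk' R v) : Equiv.Perm (Fin 5)) ≠ 1) := by
      intro v hv hv1
      refine ⟨Equiv.Perm.mem_alternatingGroup.1 (f _).2, ?_, ?_⟩
      · have h1 : f (QuotientGroup.mk' R v) * f (QuotientGroup.mk' R v) = 1 := by
          rw [← map_mul, ← map_mul, hv, map_one, map_one]
        exact congrArg Subtype.val h1
      · intro h1
        have h2 : f (QuotientGroup.mk' R v) = 1 := Subtype.ext h1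
        have h3 : QuotientGroup.mk' R v = 1 := by
          rw [← map_one f] at h2
          exact f.injective h2
        have h4 : v ∈ R := (QuotientGroup.eq_one_iff v).1 h3
        exact hv1 (Subtype.ext (odd_zpowers hodd ((hRm v).1 h4) (congrArg Subtype.val hv)))
    obtain ⟨ρ, hρ, h1⟩ := conj_inv5 _ (hinv u' (Subtype.ext hu) (fun h => hu1 (congrArg Subtype.val h))) _
      (hinv t' (Subtype.ext D.tt) (fun h => D.t1 (congrArg Subtype.val h)))
    obtain ⟨q, hq⟩ := f.surjective ⟨ρ, Equiv.Perm.mem_alternatingGroup.2 hρ⟩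
    obtain ⟨m, rfl⟩ := QuotientGroup.mk'_surjective R q
    have h2 : f (QuotientGroup.mk' R m * QuotientGroup.mk' R u') = f (QuotientGroup.mk' R t' * QuotientGroup.mk' R m) := by
      rw [map_mul, map_mul, hq]
      exact Subtype.ext h1
    have h3 := f.injective h2
    rw [← map_mul, ← map_mul] at h3
    have h4 : (t' * m)⁻¹ * (m * u') ∈ R := QuotientGroup.eq.1 h3.symm
    rw [hRm] at h4
    have hmr := Subgroup.mem_centralizer_singleton_iff.1 m.2
    refine ⟨m, hmr, ?_⟩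
    -- `m u m⁻¹ = t a`
    have h5 : (t * (m : G))⁻¹ * (m * u) ∈ Subgroup.zpowers r := h4
    have h6 : ∀ w : G, w * r = r * w → (t * (m : G))⁻¹ * (m * u) * w = w * ((t * (m : G))⁻¹ * (m * u)) := fun w hw =>
      mem_zpowers_comm h5 hw
    have h7 : (m : G) * u * (m : G)⁻¹ = t * ((t * (m : G))⁻¹ * (m * u)) := by
      calc (m : G) * u * (m : G)⁻¹ = t * (m * ((t * (m : G))⁻¹ * (m * u))) * (m : G)⁻¹ := by group
        _ = t * ((t * (m : G))⁻¹ * (m * u) * m) * (m : G)⁻¹ := by rw [h6 m hmr]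
        _ = _ := by group
    have h8 : (t * (m : G))⁻¹ * (m * u) = 1 := by
      apply odd_zpowers hodd h5
      have h9 : (t * ((t * (m : G))⁻¹ * (m * u))) * (t * ((t * (m : G))⁻¹ * (m * u))) = 1 := by
        rw [← h7]
        calc (m : G) * u * (m : G)⁻¹ * (m * u * (m : G)⁻¹) = m * (u * u) * (m : G)⁻¹ := by group
          _ = 1 := by rw [hu]; group
      calc (t * (m : G))⁻¹ * (m * u) * ((t * (m : G))⁻¹ * (m * u)) =
          (t * t) * ((t * (m : G))⁻¹ * (m * u) * ((t * (m : G))⁻¹ * (m * u))) := by rw [D.tt, one_mul]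
        _ = t * (t * ((t * (m : G))⁻¹ * (m * u))) * ((t * (m : G))⁻¹ * (m * u)) := by group
        _ = t * (((t * (m : G))⁻¹ * (m * u)) * t) * ((t * (m : G))⁻¹ * (m * u)) := by rw [h6 t htM]
        _ = (t * ((t * (m : G))⁻¹ * (m * u))) * (t * ((t * (m : G))⁻¹ * (m * u))) := by group
        _ = 1 := h9
    rw [h7, h8, mul_one]
  refine
    { o := ho
      tt := D.tt
      t1 := D.t1
      cardG := hG
      cardT := D.card240 e
      cardM := hM
      conj := hconj
      nosq := ?_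
      inv := ?_
      six := ?_ }
  · intro h
    obtain ⟨g, hg⟩ := isConj_iff.1 h
    have hr5 : r ^ 5 = 1 := by rw [← ho, pow_orderOf_eq_one]
    have hr6 : (r ^ 2) ^ 3 = r := by rw [← pow_mul, show 2 * 3 = 5 + 1 by norm_num, pow_succ, hr5, one_mul]
    have hgt1 : (g * t * g⁻¹) * (g * t * g⁻¹) = 1 := by
      calc g * t * g⁻¹ * (g * t * g⁻¹) = g * (t * t) * g⁻¹ := by group
        _ = 1 := by rw [D.tt]; group
    have hgt2 : (g * t * g⁻¹) * r = r * (g * t * g⁻¹) := by
      have h1 : Commute (g * t * g⁻¹) (r ^ 2) := by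
        rw [← hg]
        change g * t * g⁻¹ * (g * r * g⁻¹) = g * r * g⁻¹ * (g * t * g⁻¹)
        calc g * t * g⁻¹ * (g * r * g⁻¹) = g * (t * r) * g⁻¹ := by group
          _ = g * r * g⁻¹ * (g * t * g⁻¹) := by rw [htM]; group
      have h2 := h1.pow_right 3
      rw [hr6] at h2
      exact h2
    obtain ⟨m, hm1, hm2⟩ := hconj _ hgt1 (fun h => D.t1 (conj_eq_one_iff.1 h)) hgt2
    have h3 : (m * g) * t = t * (m * g) := by
      have h4 : (m * g) * t * (m * g)⁻¹ = t := by
        calc (m * g) * t * (m * g)⁻¹ = m * (g * t * g⁻¹) * m⁻¹ := by group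
          _ = t := hm2
      exact mul_inv_eq_iff_eq_mul.1 h4
    have h5 : (m * g) * r * (m * g)⁻¹ = r ^ 2 := by
      have h6 : Commute m (r ^ 2) := (show Commute m r from hm1).pow_right 2
      calc (m * g) * r * (m * g)⁻¹ = m * (g * r * g⁻¹) * m⁻¹ := by group
        _ = r ^ 2 := by rw [hg, h6.eq]; group
    obtain ⟨a, ha, k, hk, hak⟩ := D.decomp' e h3
    apply D.no_sq e hr ho hk
    have h7 := D.E_comm ha (D.KG.mul_mem (D.KG.mul_mem hk hr) (D.KG.inv_mem hk))
    rw [← h5, hak]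
    calc k * r * k⁻¹ = (k * r * k⁻¹) * a * a⁻¹ := by group
      _ = a * (k * r * k⁻¹) * a⁻¹ := by rw [← h7]
      _ = a * k * r * (a * k)⁻¹ := by group
  · obtain ⟨k, -, hk⟩ := D.conj_inv e hr (Or.inr ho)
    exact isConj_iff.2 ⟨k, hk⟩
  · intro S hS
    have hsimp : IsSimpleGroup (alternatingGroup (Fin 5)) :=
      alternatingGroup.isSimpleGroup (by rw [Nat.card_eq_fintype_card, Fintype.card_fin])
    have hsimp' : IsSimpleGroup ((Subgroup.centralizer ({r} : Set G)) ⧸ R) := f.isSimpleGroup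
    have hcS : Nat.card S = 5 ^ 2 := card_sylow_eq S (n := 12) (by rw [hM]; norm_num) (by norm_num)
    have hn : ((S : Subgroup _).map (QuotientGroup.mk' R)).Normal := hS.map _ (QuotientGroup.mk'_surjective R)
    rcases hn.eq_bot_or_eq_top with h | h
    · rw [Subgroup.map_eq_bot_iff, QuotientGroup.ker_mk'] at h
      have h1 := Subgroup.card_dvd_of_le h
      have h2 : Nat.card (S : Subgroup (Subgroup.centralizer ({r} : Set G))) = 25 := hcS
      rw [hRc, ho, h2] at h1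
      norm_num at h1
    · have h1 : Nat.card ((S : Subgroup (Subgroup.centralizer ({r} : Set G))).map (QuotientGroup.mk' R)) ∣ Nat.card S :=
        Subgroup.card_map_dvd _ _
      rw [h, Subgroup.card_top, ← Subgroup.index_eq_card, hidx, hcS] at h1
      norm_num at h1

end

end H64.J2
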