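import Cfsg.Agent.Lib.H64.J2U

set_option autoImplicit false

/-! The Sylow 5-subgroup of a group of Hall-Janko type, II. -/

namespace H64.J2

variable {G : Type*} [Group G] [Finite G]

omit [Finite G] in
theorem map_conj_zpowers (g a : G) : (Subgroup.zpowers a).map (MulAut.conj g).toMonoidHom = Subgroup.zpowers (g * a * g⁻¹) := by
  rw [MonoidHom.map_zpowers]
  rfl

theorem zpowers_eq_of_mem {p : ℕ} (hp : p.Prime) {a b : G} (ha : orderOf a = p) (hb : b ∈ Subgroup.zpowers a) (hb1 : b ≠ 1) :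
    Subgroup.zpowers b = Subgroup.zpowers a := by
  apply Subgroup.eq_of_le_of_card_ge
  · rw [Subgroup.zpowers_le]; exact hb
  · rw [Nat.card_zpowers, Nat.card_zpowers, ha]
    have h1 : orderOf b ∣ p := by
      rw [← ha, ← Nat.card_zpowers a, ← Subgroup.orderOf_mk b hb]
      exact orderOf_dvd_natCard _
    rcases (Nat.dvd_prime hp).1 h1 with h2 | h2
    · exact absurd (orderOf_eq_one_iff.1 h2) hb1
    · exact h2.ge

variable {t r : G} (h : Five t r) (P : Sylow 5 G) (hr : r ∈ P)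
include h

omit [Finite G] in
theorem Five.r5 : r ^ 5 = 1 := by rw [← h.o, pow_orderOf_eq_one]

omit [Finite G] in
theorem Five.r1 : r ≠ 1 := by
  intro h1
  have := h.o
  rw [h1, orderOf_one] at this
  omega

theorem Five.cP : Nat.card P = 25 := by
  have hp : Fact (Nat.Prime 5) := ⟨by norm_num⟩
  have h1 : Nat.card P = 5 ^ 2 := card_sylow_eq P (n := 24192) (by rw [h.cardG]; norm_num) (by norm_num)
  rw [h1]; norm_num

theorem Five.comm : ∀ a ∈ P, ∀ b ∈ P, a * b = b * a := by
  have hp : Fact (Nat.Prime 5) := ⟨by norm_num⟩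
  have hPc : IsMulCommutative P := IsPGroup.isMulCommutative_of_card_eq_prime_sq (p := 5) (by
    rw [h.cP P]; norm_num)
  intro a ha b hb
  exact congrArg Subtype.val (hPc.is_comm.comm (⟨a, ha⟩ : P) ⟨b, hb⟩)

section
include hr

theorem Five.card50 : Nat.card (Subgroup.normalizer ((P : Subgroup G) : Set G) ⊓ Subgroup.centralizer ({r} : Set G) : Subgroup G) = 50 := by
  have hp : Fact (Nat.Prime 5) := ⟨by norm_num⟩
  let M := Subgroup.centralizer ({r} : Set G)
  have hPM : (P : Subgroup G) ≤ M := fun a ha => Subgroup.mem_centralizer_singleton_iff.2 (h.comm P a ha r hr)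
  let PM : Sylow 5 M := P.subtype hPM
  have hPMm : ∀ m : M, m ∈ (PM : Subgroup M) ↔ (m : G) ∈ (P : Subgroup G) := fun m => Iff.rfl
  have hc : Nat.card (PM : Subgroup M) = 25 := by
    have h1 : Nat.card PM = 5 ^ 2 := card_sylow_eq PM (n := 12) (by rw [h.cardM]; norm_num) (by norm_num)
    exact h1.trans (by norm_num)
  have hidx : (PM : Subgroup M).index = 12 := by
    have h1 := (PM : Subgroup M).card_mul_index
    rw [hc, h.cardM] at h1
    omega
  have hmod := card_sylow_modEq_one 5 M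
  have hdvd := PM.card_dvd_index
  rw [hidx] at hdvd
  have hne : Nat.card (Sylow 5 M) ≠ 1 := by
    intro h1
    have : Subsingleton (Sylow 5 M) := (Nat.card_eq_one_iff_unique.1 h1).1
    exact h.six PM PM.normal_of_subsingleton
  have h6 : Nat.card (Sylow 5 M) = 6 := by
    have h1 : Nat.card (Sylow 5 M) % 5 = 1 := hmod
    have h2 : Nat.card (Sylow 5 M) ≤ 12 := Nat.le_of_dvd (by norm_num) hdvd
    generalize Nat.card (Sylow 5 M) = n at *
    interval_cases n <;> omega
  have h7 := PM.card_eq_index_normalizer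
  rw [h6] at h7
  have h8 := (Subgroup.normalizer ((PM : Subgroup M) : Set M)).card_mul_index
  have h9 : (Subgroup.normalizer ((PM : Subgroup M) : Set M)).index = 6 := h7.symm
  rw [h9, h.cardM] at h8
  have h10 : Nat.card (Subgroup.normalizer ((PM : Subgroup M) : Set M)) = 50 := by omega
  rw [← h10]
  refine Nat.card_congr ⟨fun g => ⟨⟨g.1, g.2.2⟩, ?_⟩, fun m => ⟨m.1.1, ?_, m.1.2⟩, fun g => rfl, fun m => rfl⟩
  · rw [Subgroup.mem_normalizer_iff]
    intro k
    exact Subgroup.mem_normalizer_iff.1 g.2.1 (k : G)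
  · have h11 := Subgroup.mem_normalizer_iff.1 m.2
    refine Subgroup.mem_normalizer_iff.2 fun k => ?_
    constructor
    · intro hk
      exact (h11 ⟨k, hPM hk⟩).1 hk
    · intro hk
      have h12 := (h11 (m.1⁻¹ * ⟨_, hPM hk⟩ * m.1)).2 (by
        have e1 : m.1 * (m.1⁻¹ * ⟨(m.1.1 : G) * k * (m.1.1 : G)⁻¹, hPM hk⟩ * m.1) * m.1⁻¹ =
          ⟨(m.1.1 : G) * k * (m.1.1 : G)⁻¹, hPM hk⟩ := by group
        rw [e1]
        exact hk)
      have h13 : (m.1.1 : G)⁻¹ * ((m.1.1 : G) * k * (m.1.1 : G)⁻¹) * m.1.1 ∈ (P : Subgroup G) := h12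
      have e2 : (m.1.1 : G)⁻¹ * ((m.1.1 : G) * k * (m.1.1 : G)⁻¹) * m.1.1 = k := by group
      rwa [e2] at h13

theorem Five.cent : Subgroup.centralizer ((P : Subgroup G) : Set G) = P := by
  symm
  have hle : (P : Subgroup G) ≤ Subgroup.centralizer ((P : Subgroup G) : Set G) := by
    intro a ha
    rw [Subgroup.mem_centralizer_iff]
    intro b hb
    exact h.comm P b hb a ha
  have hle2 : Subgroup.centralizer ((P : Subgroup G) : Set G) ≤
      (Subgroup.normalizer ((P : Subgroup G) : Set G) ⊓ Subgroup.centralizer ({r} : Set G) : Subgroup G) := by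
    intro a ha
    rw [Subgroup.mem_centralizer_iff] at ha
    refine ⟨?_, ?_⟩
    · refine Subgroup.mem_normalizer_iff.2 fun k => ?_
      constructor
      · intro hk
        have e1 : a * k * a⁻¹ = k := by rw [← ha k hk]; group
        rw [e1]; exact hk
      · intro hk
        have e1 : k = a * k * a⁻¹ := by
          have h1 := ha _ hk
          calc k = a⁻¹ * (a * k * a⁻¹ * a) := by group
            _ = a * k * a⁻¹ := by rw [h1]; group
        rw [e1]; exact hk
    · exact Subgroup.mem_centralizer_singleton_iff.2 (ha r hr).symm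
  have h25 : 25 ∣ Nat.card (Subgroup.centralizer ((P : Subgroup G) : Set G)) := by
    rw [← h.cP P]
    exact Subgroup.card_dvd_of_le hle
  have h50 : Nat.card (Subgroup.centralizer ((P : Subgroup G) : Set G)) ∣ 50 := by
    rw [← h.card50 P hr]
    exact Subgroup.card_dvd_of_le hle2
  apply Subgroup.eq_of_le_of_card_ge hle
  have hcP : Nat.card (P : Subgroup G) = 25 := h.cP P
  rw [hcP]
  by_contra hcon
  have h2 : 2 ∣ Nat.card (Subgroup.centralizer ((P : Subgroup G) : Set G)) := by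
    obtain ⟨c, hc⟩ := h25
    rw [hc] at h50 hcon ⊢
    have h3 : c ∣ 2 := by
      have h4 : (50 : ℕ) = 25 * 2 := by norm_num
      rw [h4] at h50
      exact Nat.dvd_of_mul_dvd_mul_left (by norm_num) h50
    rcases (Nat.dvd_prime Nat.prime_two).1 h3 with h4 | h4
    · rw [h4] at hcon; omega
    · rw [h4]; norm_num
  have hp2 : Fact (Nat.Prime 2) := ⟨Nat.prime_two⟩
  obtain ⟨u, hu⟩ := exists_prime_orderOf_dvd_card' (G := Subgroup.centralizer ((P : Subgroup G) : Set G)) 2 h2
  have hu' : orderOf (u : G) = 2 := (orderOf_injective _ (Subgroup.subtype_injective _) u).trans hu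
  have huu : (u : G) * u = 1 := by rw [← pow_two, ← hu', pow_orderOf_eq_one]
  have hu1 : (u : G) ≠ 1 := by
    intro h1
    rw [h1, orderOf_one] at hu'
    norm_num at hu'
  have huc := Subgroup.mem_centralizer_iff.1 u.2
  obtain ⟨m, -, hm⟩ := h.conj u huu hu1 (huc r hr).symm
  have h3 : (P : Subgroup G) ≤ Subgroup.centralizer ({(u : G)} : Set G) := fun a ha =>
    Subgroup.mem_centralizer_singleton_iff.2 (huc a ha)
  have h4 := Subgroup.card_dvd_of_le h3
  have h5 : Nat.card (Subgroup.centralizer ({(u : G)} : Set G)) = 240 := by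
    rw [← h.cardT, ← hm, ← map_centralizer, Subgroup.card_map_of_injective (MulAut.conj m).injective]
  rw [hcP, h5] at h4
  norm_num at h4

end

/-- elements of `P` conjugate to `r` -/
def S1 (r : G) (P : Sylow 5 G) : Set G := {g | g ∈ P ∧ IsConj r g}

omit [Finite G] in
theorem Five.inv2 : IsConj (r ^ 2) (r ^ 3) := by
  obtain ⟨g, hg⟩ := isConj_iff.1 h.inv
  refine isConj_iff.2 ⟨g, ?_⟩
  have e1 : g * r ^ 2 * g⁻¹ = (g * r * g⁻¹) ^ 2 := by rw [conj_pow]
  rw [e1, hg]
  have h5 := h.r5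
  rw [inv_pow]
  apply inv_eq_of_mul_eq_one_right
  rw [← pow_add]
  exact h5

omit [Finite G] in
theorem Five.card_S : (S1 r P).ncard = (S1 (r ^ 2) P).ncard := by
  have h5 := h.r5
  have hord : ∀ g : G, IsConj r g → g ^ 5 = 1 := by
    intro g hg
    obtain ⟨c, hc⟩ := isConj_iff.1 hg
    rw [← hc, conj_pow, h5]; group
  have hord2 : ∀ g : G, IsConj (r ^ 2) g → g ^ 5 = 1 := by
    intro g hg
    obtain ⟨c, hc⟩ := isConj_iff.1 hg
    rw [← hc, conj_pow, ← pow_mul, mul_comm, pow_mul, h5, one_pow]; group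
  have e6 : ∀ g : G, g ^ 5 = 1 → g ^ 6 = g := fun g hg => by
    rw [show 6 = 5 + 1 by norm_num, pow_succ, hg, one_mul]
  rw [← Nat.card_coe_set_eq, ← Nat.card_coe_set_eq]
  refine Nat.card_congr ⟨fun g => ⟨g.1 ^ 2, P.pow_mem g.2.1 2, ?_⟩, fun g => ⟨g.1 ^ 3, P.pow_mem g.2.1 3, ?_⟩, ?_, ?_⟩
  · obtain ⟨c, hc⟩ := isConj_iff.1 g.2.2
    exact isConj_iff.2 ⟨c, by rw [← hc, conj_pow]⟩
  · obtain ⟨c, hc⟩ := isConj_iff.1 g.2.2
    refine isConj_iff.2 ⟨c, ?_⟩
    rw [← hc, conj_pow, ← pow_mul]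
    rw [show 2 * 3 = 6 by norm_num, e6 r h5]
  · intro g
    apply Subtype.ext
    change (g.1 ^ 2) ^ 3 = g.1
    rw [← pow_mul]
    exact e6 _ (hord _ g.2.2)
  · intro g
    apply Subtype.ext
    change (g.1 ^ 3) ^ 2 = g.1
    rw [← pow_mul]
    exact e6 _ (hord2 _ g.2.2)

omit [Finite G] in
theorem Five.disj : Disjoint (S1 r P) (S1 (r ^ 2) P) := by
  rw [Set.disjoint_left]
  rintro g ⟨-, h1⟩ ⟨-, h2⟩
  exact h.nosq (h1.trans h2.symm)

omit [Finite G] in
theorem Five.one_notMem : (1 : G) ∉ S1 r P ∪ S1 (r ^ 2) P := by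
  have h1 := h.r1
  have h5 := h.r5
  rintro (⟨-, hg⟩ | ⟨-, hg⟩)
  · obtain ⟨c, hc⟩ := isConj_iff.1 hg
    exact h1 (conj_eq_one_iff.1 hc)
  · obtain ⟨c, hc⟩ := isConj_iff.1 hg
    have h2 : r ^ 2 = 1 := conj_eq_one_iff.1 hc
    apply h1
    calc r = r ^ 5 * (r ^ 2)⁻¹ * (r ^ 2)⁻¹ := by group
      _ = 1 := by rw [h5, h2]; group

section
include hr

theorem Five.numbers : (S1 r P).ncard = 6 ∧ Nat.card (Subgroup.normalizer ((P : Subgroup G) : Set G)) = 300 := by
  have hp : Fact (Nat.Prime 5) := ⟨by norm_num⟩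
  let N := Subgroup.normalizer ((P : Subgroup G) : Set G)
  have hPN : (P : Subgroup G) ≤ N := Subgroup.le_normalizer
  let r' : N := ⟨r, hPN hr⟩
  have h1 := H18.CharInd.card_isConj_mul_card_centralizer r'
  have h2 : Nat.card (Subgroup.centralizer ({r'} : Set N)) = 50 := by
    rw [← h.card50 P hr]
    refine Nat.card_congr ⟨fun n => ⟨n.1.1, n.1.2, ?_⟩, fun n => ⟨⟨n.1, n.2.1⟩, ?_⟩, fun n => rfl, fun n => rfl⟩
    · exact Subgroup.mem_centralizer_singleton_iff.2 (congrArg Subtype.val (Subgroup.mem_centralizer_singleton_iff.1 n.2))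
    · have h3 := Subgroup.mem_centralizer_singleton_iff.1 n.2.2
      exact Subgroup.mem_centralizer_singleton_iff.2 (Subtype.ext h3)
  have h3 : Nat.card {x : N // IsConj r' x} = (S1 r P).ncard := by
    rw [← Nat.card_coe_set_eq]
    refine Nat.card_congr ⟨fun x => ⟨x.1.1, ?_⟩, fun g => ⟨⟨g.1, hPN g.2.1⟩, ?_⟩, fun x => rfl, fun g => rfl⟩
    · obtain ⟨n, hn⟩ := isConj_iff.1 x.2
      have hn' : (n : G) * r * (n : G)⁻¹ = x.1.1 := congrArg Subtype.val hn
      refine ⟨?_, isConj_iff.2 ⟨n, hn'⟩⟩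
      rw [← hn']
      exact (Subgroup.mem_normalizer_iff.1 n.2 r).1 hr
    · obtain ⟨n, hn, hn2⟩ := burnside P (h.comm P) hr g.2.1 g.2.2
      exact isConj_iff.2 ⟨⟨n, hn⟩, Subtype.ext hn2⟩
  rw [h2, h3] at h1
  -- bounds
  have hle : 2 * (S1 r P).ncard ≤ 24 := by
    have h4 : (S1 r P ∪ S1 (r ^ 2) P).ncard = 2 * (S1 r P).ncard := by
      rw [Set.ncard_union_eq (h.disj P), ← h.card_S P, two_mul]
    rw [← h4]
    have h5 : S1 r P ∪ S1 (r ^ 2) P ⊆ ((P : Subgroup G) : Set G) \ {1} := by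
      intro g hg
      refine ⟨?_, fun h6 => h.one_notMem P (by rw [Set.mem_singleton_iff] at h6; rwa [h6] at hg)⟩
      rcases hg with hg | hg
      · exact hg.1
      · exact hg.1
    have h6 := Set.ncard_le_ncard h5 (Set.toFinite _)
    have hcP : Nat.card (P : Subgroup G) = 25 := h.cP P
    rw [Set.ncard_sdiff_singleton_of_mem (P : Subgroup G).one_mem, ← card_eq_ncard, hcP] at h6
    exact h6
  have hge : 2 ≤ (S1 r P).ncard := by
    have h4 : ({r, r⁻¹} : Set G) ⊆ S1 r P := by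
      rintro g (rfl | rfl)
      · exact ⟨hr, IsConj.refl _⟩
      · exact ⟨P.inv_mem hr, h.inv⟩
    have h5 := Set.ncard_le_ncard h4 (Set.toFinite _)
    rw [Set.ncard_pair] at h5
    · exact h5
    · intro h6
      have h7 : r * r = 1 := by
        calc r * r = r⁻¹ * r := by rw [← h6]
          _ = 1 := inv_mul_cancel r
      exact h.r1 (odd_zpowers (r := r) (by rw [h.o]; decide) (Subgroup.mem_zpowers r) h7)
  have hmod := card_sylow_modEq_one 5 G
  rw [P.card_eq_index_normalizer] at hmod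
  have hidx := N.card_mul_index
  rw [h.cardG, ← h1] at hidx
  have hmod' : N.index % 5 = 1 := hmod
  have h12 : (S1 r P).ncard * N.index = 12096 := by
    have : (S1 r P).ncard * 50 * N.index = 50 * ((S1 r P).ncard * N.index) := by ring
    omega
  have hs : (S1 r P).ncard = 6 := by
    generalize (S1 r P).ncard = s at *
    generalize N.index = i at *
    have : s ≤ 12 := by omega
    interval_cases s <;> omega
  refine ⟨hs, ?_⟩
  change Nat.card N = 300
  rw [← h1, hs]

/-- elements of order three of the normalizer -/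
theorem Five.no_norm {u : G} (hu : u ∈ Subgroup.normalizer ((P : Subgroup G) : Set G)) (hu3 : orderOf u = 3)
    {b : G} (hb : b ∈ P) (hb5 : orderOf b = 5) : u * b * u⁻¹ ∉ Subgroup.zpowers b := by
  intro hcon
  have hW : ∀ w ∈ Subgroup.zpowers b, u * w * u⁻¹ ∈ Subgroup.zpowers b := by
    intro w hw
    obtain ⟨k, rfl⟩ := Subgroup.mem_zpowers_iff.1 hw
    rw [← conj_zpow]
    exact Subgroup.zpow_mem _ hcon k
  have h1 := card_fix_mod Nat.prime_three hu3 hW
  rw [Nat.card_zpowers, hb5] at h1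
  have h2 : Nat.card (Subgroup.zpowers b ⊓ Subgroup.centralizer ({u} : Set G) : Subgroup G) ∣ 5 := by
    rw [← hb5, ← Nat.card_zpowers b]
    exact Subgroup.card_dvd_of_le inf_le_left
  have h3 : (5 : ℕ) % 3 = Nat.card (Subgroup.zpowers b ⊓ Subgroup.centralizer ({u} : Set G) : Subgroup G) % 3 := h1
  have h4 : Nat.card (Subgroup.zpowers b ⊓ Subgroup.centralizer ({u} : Set G) : Subgroup G) = 5 := by
    rcases (Nat.dvd_prime (by norm_num : Nat.Prime 5)).1 h2 with h5 | h5
    · rw [h5] at h3; norm_num at h3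
    · exact h5
  have h5 : (Subgroup.zpowers b ⊓ Subgroup.centralizer ({u} : Set G) : Subgroup G) = Subgroup.zpowers b :=
    Subgroup.eq_of_le_of_card_ge inf_le_left (by rw [h4, Nat.card_zpowers, hb5])
  have hbu : b ∈ (Subgroup.zpowers b ⊓ Subgroup.centralizer ({u} : Set G) : Subgroup G) := by
    rw [h5]; exact Subgroup.mem_zpowers b
  have hP := card_fix_mod Nat.prime_three hu3 (W := (P : Subgroup G)) (fun w hw =>
    (Subgroup.mem_normalizer_iff.1 hu w).1 hw)
  have hcP : Nat.card (P : Subgroup G) = 25 := h.cP P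
  have h6 : (25 : ℕ) % 3 = Nat.card ((P : Subgroup G) ⊓ Subgroup.centralizer ({u} : Set G) : Subgroup G) % 3 := by
    rw [← hcP]; exact hP
  have h7 : Nat.card ((P : Subgroup G) ⊓ Subgroup.centralizer ({u} : Set G) : Subgroup G) ∣ 25 := by
    rw [← hcP]; exact Subgroup.card_dvd_of_le inf_le_left
  have h8 : 5 ∣ Nat.card ((P : Subgroup G) ⊓ Subgroup.centralizer ({u} : Set G) : Subgroup G) := by
    have h9 : b ∈ ((P : Subgroup G) ⊓ Subgroup.centralizer ({u} : Set G) : Subgroup G) := ⟨hb, hbu.2⟩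
    have h10 := orderOf_dvd_natCard (⟨b, h9⟩ : ((P : Subgroup G) ⊓ Subgroup.centralizer ({u} : Set G) : Subgroup G))
    rwa [Subgroup.orderOf_mk, hb5] at h10
  have h9 : Nat.card ((P : Subgroup G) ⊓ Subgroup.centralizer ({u} : Set G) : Subgroup G) = 25 := by
    generalize Nat.card ((P : Subgroup G) ⊓ Subgroup.centralizer ({u} : Set G) : Subgroup G) = n at *
    have hn : n ≤ 25 := Nat.le_of_dvd (by norm_num) h7
    interval_cases n <;> omega
  have h10 : ((P : Subgroup G) ⊓ Subgroup.centralizer ({u} : Set G) : Subgroup G) = (P : Subgroup G) :=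
    Subgroup.eq_of_le_of_card_ge inf_le_left (by rw [h9, hcP])
  have h11 : u ∈ Subgroup.centralizer ((P : Subgroup G) : Set G) := by
    rw [Subgroup.mem_centralizer_iff]
    intro g hg
    have h12 : g ∈ ((P : Subgroup G) ⊓ Subgroup.centralizer ({u} : Set G) : Subgroup G) := by rw [h10]; exact hg
    exact Subgroup.mem_centralizer_singleton_iff.1 h12.2
  rw [h.cent P hr] at h11
  have h12 : orderOf u ∣ 25 := by
    rw [← hcP, ← Subgroup.orderOf_mk u h11]
    exact orderOf_dvd_natCard _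
  rw [hu3] at h12
  norm_num at h12

end

end H64.J2
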