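import Cfsg.Agent.Lib.H64.J2V

set_option autoImplicit false

/-! The Sylow 5-subgroup of a group of Hall-Janko type, III: classes of subgroups of order five. -/

namespace H64.J2

variable {G : Type*} [Group G] [Finite G] {t r : G} (h : Five t r) (P : Sylow 5 G) (hr : r ∈ P)

/-- conjugate to a power of `r` -/
def TA (r g : G) : Prop := ∃ j : ℕ, IsConj (r ^ j) g

omit [Finite G] in
theorem TA.pow {r g : G} (hg : TA r g) (k : ℕ) : TA r (g ^ k) := by
  obtain ⟨j, hj⟩ := hg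
  obtain ⟨c, hc⟩ := isConj_iff.1 hj
  exact ⟨j * k, isConj_iff.2 ⟨c, by rw [pow_mul, ← hc, conj_pow]⟩⟩

omit [Finite G] in
theorem TA.conj {r g c : G} (hg : TA r g) : TA r (c * g * c⁻¹) := by
  obtain ⟨j, hj⟩ := hg
  exact ⟨j, hj.trans (isConj_iff.2 ⟨c, rfl⟩)⟩

omit [Finite G] in
theorem TA.of_conj {r g c : G} (hg : TA r (c * g * c⁻¹)) : TA r g := by
  have h1 := hg.conj (c := c⁻¹)
  have e1 : c⁻¹ * (c * g * c⁻¹) * c⁻¹⁻¹ = g := by group
  rwa [e1] at h1

include h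

omit [Finite G] in
theorem Five.TA_iff {g : G} (hg : g ≠ 1) : TA r g ↔ IsConj r g ∨ IsConj (r ^ 2) g := by
  constructor
  · rintro ⟨j, hj⟩
    have h5 := h.r5
    have e1 : r ^ j = r ^ (j % 5) := by
      conv_lhs => rw [← Nat.div_add_mod j 5]
      rw [pow_add, pow_mul, h5, one_pow, one_mul]
    rw [e1] at hj
    have hlt : j % 5 < 5 := Nat.mod_lt _ (by norm_num)
    generalize j % 5 = i at *
    interval_cases i
    · exfalso
      rw [pow_zero] at hj
      obtain ⟨c, hc⟩ := isConj_iff.1 hj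
      apply hg
      rw [← hc]; group
    · left; rwa [pow_one] at hj
    · right; exact hj
    · right; exact h.inv2.trans hj
    · left
      have e2 : r ^ 4 = r⁻¹ := by
        apply eq_inv_of_mul_eq_one_left
        rw [← pow_succ]
        exact h5
      rw [e2] at hj
      exact h.inv.trans hj
  · rintro (hc | hc)
    · exact ⟨1, by rwa [pow_one]⟩
    · exact ⟨2, hc⟩

include hr

theorem Five.card_rest : {g : G | g ∈ P ∧ g ≠ 1 ∧ ¬ TA r g}.ncard = 12 := by
  have hcP : Nat.card (P : Subgroup G) = 25 := h.cP P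
  have h1 : ((P : Subgroup G) : Set G) \ {1} = (S1 r P ∪ S1 (r ^ 2) P) ∪ {g : G | g ∈ P ∧ g ≠ 1 ∧ ¬ TA r g} := by
    ext g
    constructor
    · rintro ⟨hg, hg1⟩
      have hg1' : g ≠ 1 := hg1
      by_cases hT : TA r g
      · left
        rcases (h.TA_iff hg1').1 hT with h2 | h2
        · exact Or.inl ⟨hg, h2⟩
        · exact Or.inr ⟨hg, h2⟩
      · exact Or.inr ⟨hg, hg1', hT⟩
    · rintro ((hg | hg) | hg)
      · refine ⟨hg.1, fun h2 => h.one_notMem P ?_⟩
        rw [Set.mem_singleton_iff] at h2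
        rw [← h2]
        exact Or.inl hg
      · refine ⟨hg.1, fun h2 => h.one_notMem P ?_⟩
        rw [Set.mem_singleton_iff] at h2
        rw [← h2]
        exact Or.inr hg
      · exact ⟨hg.1, hg.2.1⟩
  have h2 : Disjoint (S1 r P ∪ S1 (r ^ 2) P) {g : G | g ∈ P ∧ g ≠ 1 ∧ ¬ TA r g} := by
    rw [Set.disjoint_left]
    rintro g hg ⟨-, h3, h4⟩
    apply h4
    rw [h.TA_iff h3]
    rcases hg with hg | hg
    · exact Or.inl hg.2
    · exact Or.inr hg.2
  have h3 := congrArg Set.ncard h1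
  rw [Set.ncard_union_eq h2, Set.ncard_union_eq (h.disj P), ← h.card_S P, (h.numbers P hr).1,
    Set.ncard_sdiff_singleton_of_mem (P : Subgroup G).one_mem, ← card_eq_ncard, hcP] at h3
  omega

omit hr in
theorem Five.exp5 (hr : r ∈ P) {x : G} (hx : x ∈ P) (hx5 : orderOf x = 5) (hxT : ¬ TA r x) {g : G} (hg : g ∈ P) : g ^ 5 = 1 := by
  by_contra hne
  have hcP : Nat.card (P : Subgroup G) = 25 := h.cP P
  have h1 : orderOf g ∣ 25 := by
    have h2 := orderOf_dvd_natCard (⟨g, hg⟩ : (P : Subgroup G))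
    rwa [Subgroup.orderOf_mk, hcP] at h2
  have h2 : orderOf g = 25 := by
    have h3 : orderOf g ∣ 5 ^ 2 := by rw [show (5 : ℕ) ^ 2 = 25 by norm_num]; exact h1
    obtain ⟨k, hk, hk2⟩ := (Nat.dvd_prime_pow (by norm_num : Nat.Prime 5)).1 h3
    interval_cases k
    · exfalso
      rw [pow_zero, orderOf_eq_one_iff] at hk2
      rw [hk2, one_pow] at hne
      exact hne rfl
    · exfalso
      apply hne
      rw [pow_one] at hk2
      rw [← hk2, pow_orderOf_eq_one]
    · rw [hk2]; norm_num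
  have h3 : Subgroup.zpowers g = (P : Subgroup G) := by
    apply Subgroup.eq_of_le_of_card_ge
    · rw [Subgroup.zpowers_le]; exact hg
    · rw [Nat.card_zpowers, h2, hcP]
  -- elements of order five are in `zpowers (g ^ 5)`
  have key : ∀ a ∈ P, a ^ 5 = 1 → a ∈ Subgroup.zpowers (g ^ 5) := by
    intro a ha ha5
    have h4 : a ∈ Subgroup.zpowers g := by rw [h3]; exact ha
    obtain ⟨k, rfl⟩ := (isOfFinOrder_of_finite g).mem_powers_iff_mem_zpowers.2 h4
    change (g ^ k) ^ 5 = 1 at ha5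
    rw [← pow_mul] at ha5
    have h5 : 25 ∣ k * 5 := by rw [← h2]; exact orderOf_dvd_of_pow_eq_one ha5
    have h6 : 5 ∣ k := by omega
    obtain ⟨c, hc⟩ := h6
    change g ^ k ∈ _
    rw [hc, pow_mul]
    exact Subgroup.npow_mem_zpowers _ c
  have h4 := key r hr h.r5
  have h5 := key x hx (by rw [← hx5, pow_orderOf_eq_one])
  have hg5 : orderOf (g ^ 5) = 5 := by
    rw [orderOf_pow_of_dvd (by norm_num) (by rw [h2]; norm_num), h2]
  have h6 := zpowers_eq_of_mem (by norm_num : Nat.Prime 5) hg5 h4 h.r1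
  rw [← h6] at h5
  apply hxT
  obtain ⟨k, hk⟩ := (isOfFinOrder_of_finite r).mem_powers_iff_mem_zpowers.2 h5
  have hk' : r ^ k = x := hk
  exact ⟨k, by rw [hk']⟩

/-- all subgroups of order five of `P` not of the first kind are conjugate -/
theorem Five.rest_conj {x : G} (hx : x ∈ P) (hx5 : orderOf x = 5) (hxT : ¬ TA r x) {b : G} (hb : b ∈ P) (hb1 : b ≠ 1)
    (hbT : ¬ TA r b) : ∃ (g : G) (j : ℕ), b = g * x ^ j * g⁻¹ := by
  classical
  have hp3 : Fact (Nat.Prime 3) := ⟨Nat.prime_three⟩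
  obtain ⟨w', hw'⟩ := exists_prime_orderOf_dvd_card' (G := Subgroup.normalizer ((P : Subgroup G) : Set G)) 3
    (by rw [(h.numbers P hr).2]; norm_num)
  obtain ⟨w, hwN⟩ := w'
  have hw3 : orderOf w = 3 := by rw [← hw', Subgroup.orderOf_mk]
  have hwk : ∀ k : ℕ, w ^ k ∈ Subgroup.normalizer ((P : Subgroup G) : Set G) := fun k => Subgroup.pow_mem _ hwN k
  have hx1 : x ≠ 1 := by
    intro h1
    rw [h1, orderOf_one] at hx5
    norm_num at hx5
  have hxp : ∀ j : ℕ, ¬ 5 ∣ j → x ^ j ≠ 1 := fun j hj h1 => hj (by rw [← hx5]; exact orderOf_dvd_of_pow_eq_one h1)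
  have hxo : ∀ j : ℕ, ¬ 5 ∣ j → orderOf (x ^ j) = 5 := by
    intro j hj
    have h1 : orderOf (x ^ j) ∣ 5 := by
      apply orderOf_dvd_of_pow_eq_one
      rw [← pow_mul, mul_comm, pow_mul, ← hx5, pow_orderOf_eq_one, one_pow]
    rcases (Nat.dvd_prime (by norm_num : Nat.Prime 5)).1 h1 with h2 | h2
    · exact absurd (orderOf_eq_one_iff.1 h2) (hxp j hj)
    · exact h2
  have hT : ∀ j : ℕ, ¬ 5 ∣ j → ¬ TA r (x ^ j) := by
    intro j hj h1
    have h2 := zpowers_eq_of_mem (by norm_num : Nat.Prime 5) hx5 (Subgroup.npow_mem_zpowers x j) (hxp j hj)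
    have h3 : x ∈ Subgroup.zpowers (x ^ j) := by rw [h2]; exact Subgroup.mem_zpowers x
    obtain ⟨k, hk⟩ := (isOfFinOrder_of_finite (x ^ j)).mem_powers_iff_mem_zpowers.2 h3
    have hk' : (x ^ j) ^ k = x := hk
    apply hxT
    rw [← hk']
    exact h1.pow k
  have hndvd : ∀ i : Fin 4, ¬ 5 ∣ (i : ℕ) + 1 := by
    intro i
    have := i.2
    omega
  let R : Set G := {g : G | g ∈ P ∧ g ≠ 1 ∧ ¬ TA r g}
  let φ : Fin 3 × Fin 4 → R := fun p => ⟨w ^ (p.1 : ℕ) * x ^ ((p.2 : ℕ) + 1) * (w ^ (p.1 : ℕ))⁻¹,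
    (Subgroup.mem_normalizer_iff.1 (hwk p.1) _).1 (P.pow_mem hx _),
    fun h1 => hxp _ (hndvd p.2) (conj_eq_one_iff.1 h1),
    fun h1 => hT _ (hndvd p.2) h1.of_conj⟩
  have hinj : Function.Injective φ := by
    rintro ⟨i, j⟩ ⟨i', j'⟩ hij
    have h1 : w ^ (i : ℕ) * x ^ ((j : ℕ) + 1) * (w ^ (i : ℕ))⁻¹ = w ^ (i' : ℕ) * x ^ ((j' : ℕ) + 1) * (w ^ (i' : ℕ))⁻¹ :=
      congrArg Subtype.val hij
    have hii : i = i' := by
      by_contra hne
      have h2 : ((w ^ (i' : ℕ))⁻¹ * w ^ (i : ℕ)) * x ^ ((j : ℕ) + 1) * ((w ^ (i' : ℕ))⁻¹ * w ^ (i : ℕ))⁻¹ = x ^ ((j' : ℕ) + 1) := by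
        calc ((w ^ (i' : ℕ))⁻¹ * w ^ (i : ℕ)) * x ^ ((j : ℕ) + 1) * ((w ^ (i' : ℕ))⁻¹ * w ^ (i : ℕ))⁻¹ =
            (w ^ (i' : ℕ))⁻¹ * (w ^ (i : ℕ) * x ^ ((j : ℕ) + 1) * (w ^ (i : ℕ))⁻¹) * w ^ (i' : ℕ) := by group
          _ = x ^ ((j' : ℕ) + 1) := by rw [h1]; group
      have hu : ((w ^ (i' : ℕ))⁻¹ * w ^ (i : ℕ)) ∈ Subgroup.normalizer ((P : Subgroup G) : Set G) :=
        Subgroup.mul_mem _ (Subgroup.inv_mem _ (hwk _)) (hwk _)
      have hu1 : (w ^ (i' : ℕ))⁻¹ * w ^ (i : ℕ) ≠ 1 := by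
        intro h3
        have h4 : w ^ (i' : ℕ) = w ^ (i : ℕ) := inv_mul_eq_one.1 h3
        apply hne
        have h5 := pow_injOn_Iio_orderOf (x := w) (by rw [hw3]; exact i'.2) (by rw [hw3]; exact i.2) h4
        exact (Fin.ext h5).symm
      have hu3 : orderOf ((w ^ (i' : ℕ))⁻¹ * w ^ (i : ℕ)) = 3 := by
        have h3 : orderOf ((w ^ (i' : ℕ))⁻¹ * w ^ (i : ℕ)) ∣ 3 := by
          have h4 : (w ^ (i' : ℕ))⁻¹ * w ^ (i : ℕ) ∈ Subgroup.zpowers w :=
            Subgroup.mul_mem _ (Subgroup.inv_mem _ (Subgroup.npow_mem_zpowers w _)) (Subgroup.npow_mem_zpowers w _)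
          have h5 := orderOf_dvd_natCard (⟨_, h4⟩ : Subgroup.zpowers w)
          rwa [Subgroup.orderOf_mk, Nat.card_zpowers, hw3] at h5
        rcases (Nat.dvd_prime Nat.prime_three).1 h3 with h4 | h4
        · exact absurd (orderOf_eq_one_iff.1 h4) hu1
        · exact h4
      refine h.no_norm P hr hu hu3 (P.pow_mem hx ((j : ℕ) + 1)) (hxo _ (hndvd j)) ?_
      rw [h2]
      have h6 := zpowers_eq_of_mem (by norm_num : Nat.Prime 5) hx5 (Subgroup.npow_mem_zpowers x ((j : ℕ) + 1)) (hxp _ (hndvd j))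
      rw [h6]
      exact Subgroup.npow_mem_zpowers x _
    subst hii
    have h2 : x ^ ((j : ℕ) + 1) = x ^ ((j' : ℕ) + 1) := mul_left_cancel (mul_right_cancel h1)
    have h3 := pow_injOn_Iio_orderOf (x := x) (by rw [hx5]; exact Nat.succ_lt_succ j.2) (by rw [hx5]; exact Nat.succ_lt_succ j'.2) h2
    exact Prod.ext rfl (Fin.ext (Nat.succ_injective h3))
  have hbij := hinj.bijective_of_nat_card_le (by
    have h1 : Nat.card R = 12 := by
      rw [Nat.card_coe_set_eq]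
      exact h.card_rest P hr
    rw [h1, Nat.card_eq_fintype_card, Fintype.card_prod, Fintype.card_fin, Fintype.card_fin])
  obtain ⟨⟨i, j⟩, hij⟩ := hbij.2 ⟨b, hb, hb1, hbT⟩
  exact ⟨w ^ (i : ℕ), (j : ℕ) + 1, (congrArg Subtype.val hij).symm⟩

omit P hr in
/-- the classes of subgroups of order five -/
theorem Five.classes {x : G} (hx5 : orderOf x = 5) (hxT : ¬ TA r x) :
    ∃ X Y : Subgroup G, Nat.card X = 5 ∧ Nat.card Y = 5 ∧ (∀ g : G, X.map (MulAut.conj g).toMonoidHom ≠ Y) ∧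
      ∀ W : Subgroup G, Nat.card W = 5 → ∃ g : G, W.map (MulAut.conj g).toMonoidHom = X ∨ W.map (MulAut.conj g).toMonoidHom = Y := by
  have hp : Fact (Nat.Prime 5) := ⟨by norm_num⟩
  -- a Sylow subgroup containing `r`
  have hrp : IsPGroup 5 (Subgroup.zpowers r) := IsPGroup.of_card (n := 1) (by rw [Nat.card_zpowers, h.o, pow_one])
  obtain ⟨P, hP⟩ := hrp.exists_le_sylow
  have hr : r ∈ P := hP (Subgroup.mem_zpowers r)
  -- conjugating into `P`
  have hinto : ∀ a : G, orderOf a = 5 → ∃ g : G, g * a * g⁻¹ ∈ P := by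
    intro a ha
    have hap : IsPGroup 5 (Subgroup.zpowers a) := IsPGroup.of_card (n := 1) (by rw [Nat.card_zpowers, ha, pow_one])
    obtain ⟨T, hT⟩ := hap.exists_le_sylow
    obtain ⟨g, hg⟩ := MulAction.exists_smul_eq G T P
    refine ⟨g, ?_⟩
    rw [← hg]
    exact Subgroup.smul_mem_pointwise_smul a (MulAut.conj g) _ (hT (Subgroup.mem_zpowers a))
  obtain ⟨c, hc⟩ := hinto x hx5
  have hx5' : orderOf (c * x * c⁻¹) = 5 := by
    have h1 := orderOf_injective (MulAut.conj c).toMonoidHom (MulAut.conj c).injective x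
    rw [hx5] at h1
    exact h1
  have hxT' : ¬ TA r (c * x * c⁻¹) := fun h1 => hxT h1.of_conj
  refine ⟨Subgroup.zpowers r, Subgroup.zpowers (c * x * c⁻¹), by rw [Nat.card_zpowers, h.o],
    by rw [Nat.card_zpowers, hx5'], ?_, ?_⟩
  · intro g hg
    rw [map_conj_zpowers] at hg
    have h1 : c * x * c⁻¹ ∈ Subgroup.zpowers (g * r * g⁻¹) := by rw [hg]; exact Subgroup.mem_zpowers _
    obtain ⟨k, hk⟩ := (isOfFinOrder_of_finite _).mem_powers_iff_mem_zpowers.2 h1
    have hk' : (g * r * g⁻¹) ^ k = c * x * c⁻¹ := hk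
    apply hxT'
    rw [← hk']
    exact (TA.conj ⟨1, by rw [pow_one]⟩).pow k
  · intro W hW
    have hcyc : IsCyclic W := isCyclic_of_prime_card (p := 5) hW
    obtain ⟨a, ha⟩ := hcyc.exists_generator
    have hWa : W = Subgroup.zpowers (a : G) := by
      apply le_antisymm
      · intro b hb
        obtain ⟨k, hk⟩ := Subgroup.mem_zpowers_iff.1 (ha ⟨b, hb⟩)
        exact Subgroup.mem_zpowers_iff.2 ⟨k, congrArg Subtype.val hk⟩
      · rw [Subgroup.zpowers_le]; exact a.2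
    have ha5 : orderOf (a : G) = 5 := by rw [← Nat.card_zpowers, ← hWa, hW]
    obtain ⟨g, hg⟩ := hinto a ha5
    have ha5' : orderOf (g * (a : G) * g⁻¹) = 5 := by
      have h1 := orderOf_injective (MulAut.conj g).toMonoidHom (MulAut.conj g).injective (a : G)
      rw [ha5] at h1
      exact h1
    have ha1 : g * (a : G) * g⁻¹ ≠ 1 := by
      intro h1
      rw [h1, orderOf_one] at ha5'
      norm_num at ha5'
    by_cases hT : TA r (g * (a : G) * g⁻¹)
    · obtain ⟨j, hj⟩ := hT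
      obtain ⟨d, hd⟩ := isConj_iff.1 hj
      refine ⟨d⁻¹ * g, Or.inl ?_⟩
      rw [hWa, map_conj_zpowers]
      have e1 : d⁻¹ * g * (a : G) * (d⁻¹ * g)⁻¹ = r ^ j := by
        calc d⁻¹ * g * (a : G) * (d⁻¹ * g)⁻¹ = d⁻¹ * (g * a * g⁻¹) * d := by group
          _ = r ^ j := by rw [← hd]; group
      rw [e1]
      refine zpowers_eq_of_mem (by norm_num : Nat.Prime 5) h.o (Subgroup.npow_mem_zpowers r j) ?_
      intro h1
      rw [h1] at hd
      apply ha1
      rw [← hd]; group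
    · obtain ⟨d, j, hd⟩ := h.rest_conj P hr hc hx5' hxT' hg ha1 hT
      refine ⟨d⁻¹ * g, Or.inr ?_⟩
      rw [hWa, map_conj_zpowers]
      have e1 : d⁻¹ * g * (a : G) * (d⁻¹ * g)⁻¹ = (c * x * c⁻¹) ^ j := by
        calc d⁻¹ * g * (a : G) * (d⁻¹ * g)⁻¹ = d⁻¹ * (g * a * g⁻¹) * d := by group
          _ = (c * x * c⁻¹) ^ j := by rw [hd]; group
      rw [e1]
      refine zpowers_eq_of_mem (by norm_num : Nat.Prime 5) hx5' (Subgroup.npow_mem_zpowers _ j) ?_
      intro h1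
      rw [h1] at hd
      apply ha1
      rw [hd]; group

omit P hr in
/-- the statements for an arbitrary Sylow 5-subgroup -/
theorem Five.any (P : Sylow 5 G) : Subgroup.centralizer ((P : Subgroup G) : Set G) = P ∧ Nat.card P = 25 ∧
    Nat.card (Subgroup.normalizer ((P : Subgroup G) : Set G)) = 300 := by
  have hp : Fact (Nat.Prime 5) := ⟨by norm_num⟩
  have hrp : IsPGroup 5 (Subgroup.zpowers r) := IsPGroup.of_card (n := 1) (by rw [Nat.card_zpowers, h.o, pow_one])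
  obtain ⟨P0, hP0⟩ := hrp.exists_le_sylow
  have hr : r ∈ P0 := hP0 (Subgroup.mem_zpowers r)
  refine ⟨?_, h.cP P, ?_⟩
  · obtain ⟨g, hg⟩ := MulAction.exists_smul_eq G P P0
    have hmem : ∀ a : G, a ∈ P ↔ g * a * g⁻¹ ∈ P0 := by
      intro a
      rw [← hg]
      exact (Subgroup.smul_mem_pointwise_smul_iff (S := (P : Subgroup G)) (a := MulAut.conj g)).symm
    have hc := h.cent P0 hr
    ext a
    rw [Subgroup.mem_centralizer_iff]
    change _ ↔ a ∈ P
    rw [hmem]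
    change _ ↔ g * a * g⁻¹ ∈ (P0 : Subgroup G)
    rw [← hc, Subgroup.mem_centralizer_iff]
    constructor
    · intro h1 b hb
      have h2 := h1 (g⁻¹ * b * g) (by
        change g⁻¹ * b * g ∈ P
        rw [hmem]
        have e1 : g * (g⁻¹ * b * g) * g⁻¹ = b := by group
        rw [e1]
        exact hb)
      calc b * (g * a * g⁻¹) = g * (g⁻¹ * b * g * a) * g⁻¹ := by group
        _ = g * a * g⁻¹ * b := by rw [h2]; group
    · intro h1 b hb
      have h2 := h1 (g * b * g⁻¹) ((hmem b).1 hb)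
      have h3 : g * (b * a) * g⁻¹ = g * (a * b) * g⁻¹ := by
        calc g * (b * a) * g⁻¹ = g * b * g⁻¹ * (g * a * g⁻¹) := by group
          _ = g * (a * b) * g⁻¹ := by rw [h2]; group
      exact mul_left_cancel (mul_right_cancel h3)
  · have h1 := P.card_eq_index_normalizer
    have h2 := P0.card_eq_index_normalizer
    have h3 := (Subgroup.normalizer ((P : Subgroup G) : Set G)).card_mul_index
    have h4 := (Subgroup.normalizer ((P0 : Subgroup G) : Set G)).card_mul_index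
    have h5 : (Subgroup.normalizer ((P : Subgroup G) : Set G)).index = Nat.card (Sylow 5 G) := h1.symm
    have h6 : (Subgroup.normalizer ((P0 : Subgroup G) : Set G)).index = Nat.card (Sylow 5 G) := h2.symm
    rw [h5] at h3
    rw [h6, (h.numbers P0 hr).2, ← h3] at h4
    have hpos : 0 < Nat.card (Sylow 5 G) := Nat.card_pos
    exact (Nat.eq_of_mul_eq_mul_right hpos h4).symm

end H64.J2
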