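import Cfsg.Agent.Lib.H64.J2W

set_option autoImplicit false

/-! Groups of Hall-Janko type: packaging. -/

namespace H64.J2

variable {G : Type*} [Group G] [Finite G] {z : G} {Q : Subgroup (Subgroup.centralizer ({z} : Set G))}

/-- elements of order five commuting with `z` are not of the first kind -/
theorem Five.not_TA {t r : G} (h : Five t r) (hzz : z * z = 1) (hz1 : z ≠ 1) (hn : ¬ IsConj z t) {x : G} (hx5 : orderOf x = 5)
    (hxz : x * z = z * x) : ¬ TA r x := by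
  rintro ⟨j, hj⟩
  obtain ⟨c, hc⟩ := isConj_iff.1 hj
  have hx1 : x ≠ 1 := by
    intro h1
    rw [h1, orderOf_one] at hx5
    norm_num at hx5
  have hrj : r ^ j ≠ 1 := by
    intro h1
    rw [h1] at hc
    apply hx1
    rw [← hc]; group
  have h1 : Commute (c⁻¹ * z * c) (r ^ j) := by
    change c⁻¹ * z * c * r ^ j = r ^ j * (c⁻¹ * z * c)
    calc c⁻¹ * z * c * r ^ j = c⁻¹ * (z * (c * r ^ j * c⁻¹)) * c := by group
      _ = c⁻¹ * ((c * r ^ j * c⁻¹) * z) * c := by rw [hc, hxz]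
      _ = r ^ j * (c⁻¹ * z * c) := by group
  have h2 : r ∈ Subgroup.zpowers (r ^ j) := by
    rw [zpowers_eq_of_mem (by norm_num : Nat.Prime 5) h.o (Subgroup.npow_mem_zpowers r j) hrj]
    exact Subgroup.mem_zpowers r
  obtain ⟨k, hk⟩ := Subgroup.mem_zpowers_iff.1 h2
  have h3 := h1.zpow_right k
  rw [hk] at h3
  have h4 : (c⁻¹ * z * c) * (c⁻¹ * z * c) = 1 := by
    calc (c⁻¹ * z * c) * (c⁻¹ * z * c) = c⁻¹ * (z * z) * c := by group
      _ = 1 := by rw [hzz]; group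
  have h5 : c⁻¹ * z * c ≠ 1 := by
    intro h5
    apply hz1
    calc z = c * (c⁻¹ * z * c) * c⁻¹ := by group
      _ = 1 := by rw [h5]; group
  obtain ⟨m, -, hm⟩ := h.conj _ h4 h5 h3
  apply hn
  refine isConj_iff.2 ⟨m * c⁻¹, ?_⟩
  rw [← hm]; group

/-- everything about the prime five -/
theorem HJ.five (H : HJ z Q) (hcl : ∃ x y : G, orderOf x = 2 ∧ orderOf y = 2 ∧ ¬ IsConj x y) :
    ∃ t y : G, ∃ D : GD z t y, ∃ _ : D.K ≃* alternatingGroup (Fin 5), ∃ r ∈ D.KG, Five t r ∧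
      ∃ x : G, orderOf x = 5 ∧ x * z = z * x ∧ ¬ TA r x ∧
        Nat.card (Subgroup.centralizer ({x} : Set G) ⊓ Subgroup.centralizer ({z} : Set G) : Subgroup G) = 10 := by
  obtain ⟨t', htQ, htt, hn⟩ := H.exists_t hcl
  obtain ⟨y, D, ⟨e⟩⟩ := H.exists_iso htQ htt hn
  obtain ⟨r, hr, ho⟩ := D.exists_r e (p := 5) (Or.inr rfl)
  have h5 := D.five e hr ho
  obtain ⟨y0, f0⟩ := H.exists_frame
  have hp : Fact (Nat.Prime 5) := ⟨by norm_num⟩
  obtain ⟨x, hx⟩ := exists_prime_orderOf_dvd_card' (G := Subgroup.centralizer ({z} : Set G)) 5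
    (by rw [H.core.cardC]; norm_num)
  have hx' : orderOf (x : G) = 5 := (orderOf_injective (Subgroup.centralizer ({z} : Set G)).subtype
    (Subgroup.subtype_injective _) x).trans hx
  have hxz := Subgroup.mem_centralizer_singleton_iff.1 x.2
  refine ⟨t', y, D, e, r, hr, h5, x, hx', hxz, h5.not_TA D.zz D.z1 D.ncl hx' hxz, ?_⟩
  rw [← H.core.card_cent5 f0 hx]
  refine Nat.card_congr ⟨fun w => ⟨⟨w.1, w.2.2⟩, ?_⟩, fun w => ⟨w.1.1, ?_, w.1.2⟩, fun w => rfl, fun w => rfl⟩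
  · exact Subgroup.mem_centralizer_singleton_iff.2 (Subtype.ext (Subgroup.mem_centralizer_singleton_iff.1 w.2.1))
  · exact Subgroup.mem_centralizer_singleton_iff.2
      (congrArg Subtype.val (Subgroup.mem_centralizer_singleton_iff.1 w.2))

end H64.J2
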