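import Mathlib

set_option autoImplicit false

/-! Elements of order three in the symmetric group of degree five. -/

namespace H64.J2

theorem two_fixed : ∀ σ : Equiv.Perm (Fin 5), σ ^ 3 = 1 → ∃ l m : Fin 5, l ≠ m ∧ σ l = l ∧ σ m = m := by decide +kernel

end H64.J2
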