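import Cfsg.Agent.Lib.H64.J2Z0
import Cfsg.Agent.Lib.H64.J2Y

set_option autoImplicit false

/-! Groups of Hall-Janko type: centralizers of elements of order three commuting with the central involution. -/

namespace H64.J2

variable {G : Type*} [Group G] [Finite G] {z : G} {Q : Subgroup (Subgroup.centralizer ({z} : Set G))}

theorem HJ.cent3 (H : HJ z Q) {a : G} (ha : orderOf a = 3) (haz : a * z = z * a) :
    ¬ 16 ∣ Nat.card (Subgroup.centralizer ({a} : Set G)) := by
  have hp2 : Fact (Nat.Prime 2) := ⟨Nat.prime_two⟩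
  obtain ⟨y, f⟩ := H.exists_frame
  have h := H.core
  let a' : Subgroup.centralizer ({z} : Set G) := ⟨a, Subgroup.mem_centralizer_singleton_iff.2 haz⟩
  have ha' : orderOf a' = 3 := by rw [← ha, ← Subgroup.orderOf_coe]
  have ha3 : a' ^ 3 = 1 := by rw [← ha', pow_orderOf_eq_one]
  have haQ : a' ∉ Q := by
    intro h1
    have h2 := orderOf_dvd_natCard (⟨a', h1⟩ : Q)
    rw [Subgroup.orderOf_mk, ha', h.cardQ] at h2
    norm_num at h2
  let σ := f.pi h a'
  have hσ3 : σ ^ 3 = 1 := by
    change f.pi h a' ^ 3 = 1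
    rw [← map_pow, ha3, map_one]
  have hσ1 : σ ≠ 1 := by
    intro h1
    apply haQ
    rw [← f.ker_pi h]
    exact h1
  obtain ⟨l, m, hlm, hl, hm⟩ := two_fixed σ hσ3
  have hcomm : ∀ i : Fin 5, σ i = i → a' * y i = y i * a' := by
    intro i hi
    have h1 := f.pi_spec h a' i
    have hi' : f.pi h a' i = i := hi
    rw [hi'] at h1
    rcases h1 with h1 | h1
    · exact mul_inv_eq_iff_eq_mul.1 h1
    · exfalso
      have h2 : a' * y i = zz' z * (y i * a') := by
        rw [← mul_assoc]; exact mul_inv_eq_iff_eq_mul.1 h1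
      have h3 : a' * (a' * (a' * y i)) = zz' z * (y i * (a' * (a' * a'))) := by
        calc a' * (a' * (a' * y i)) = a' * (a' * (zz' z * (y i * a'))) := by rw [h2]
          _ = zz' z * (a' * (a' * y i) * a') := by
            rw [h.zl, h.zl]; simp only [mul_assoc]
          _ = zz' z * (a' * (zz' z * (y i * a')) * a') := by rw [h2]
          _ = zz' z * (zz' z * (a' * y i * a' * a')) := by
            rw [h.zl]; simp only [mul_assoc]
          _ = zz' z * (zz' z * (zz' z * (y i * a') * a' * a')) := by rw [h2]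
          _ = zz' z * (y i * (a' * (a' * a'))) := by
            rw [h.zzl]; simp only [mul_assoc]
      have h4 : a' * (a' * a') = 1 := by
        rw [← ha3]; simp only [pow_succ, pow_zero, one_mul, mul_assoc]
      have h5 : a' * (a' * (a' * y i)) = y i := by
        calc a' * (a' * (a' * y i)) = a' * (a' * a') * y i := by simp only [mul_assoc]
          _ = y i := by rw [h4, one_mul]
      rw [h5, h4, mul_one] at h3
      exact h.zne _ h3.symm
  -- the element of order four
  have hkk : y l * y m * (y l * y m) = zz' z := f.yy h hlm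
  have hka : a' * (y l * y m) = y l * y m * a' := by
    rw [← mul_assoc, hcomm l hl, mul_assoc, hcomm m hm, mul_assoc]
  have hkQ : y l * y m ∈ Q := Q.mul_mem (f.mem l) (f.mem m)
  -- the group `D`
  let M := Subgroup.centralizer ({a} : Set G)
  let D : Subgroup M := (Q.map (Subgroup.centralizer ({z} : Set G)).subtype).subgroupOf M
  have hD : ∀ m : M, m ∈ D ↔ ∃ q ∈ Q, (q : G) = m := fun m => Iff.rfl
  have hDcard : Nat.card D = Nat.card (Q ⊓ Subgroup.centralizer ({a'} : Set (Subgroup.centralizer ({z} : Set G))) : Subgroup _) := by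
    refine Nat.card_congr (Equiv.symm (Equiv.ofBijective (fun q => ⟨⟨(q.1 : G), Subgroup.mem_centralizer_singleton_iff.2
      (congrArg Subtype.val (Subgroup.mem_centralizer_singleton_iff.1 q.2.2))⟩, ⟨q.1, q.2.1, rfl⟩⟩) ⟨?_, ?_⟩))
    · intro p q hpq
      apply Subtype.ext
      apply Subtype.ext
      exact congrArg (fun w : D => ((w : M) : G)) hpq
    · rintro ⟨m, hm⟩
      obtain ⟨q, hq, hqm⟩ := hm
      refine ⟨⟨q, hq, Subgroup.mem_centralizer_singleton_iff.2 (Subtype.ext ?_)⟩, ?_⟩
      · change (q : G) * a = a * q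
        have h1 : (q : G) = m := hqm
        rw [h1]
        exact Subgroup.mem_centralizer_singleton_iff.1 m.2
      · exact Subtype.ext (Subtype.ext hqm)
  have hDdvd : Nat.card D ∣ 32 := by
    rw [hDcard, ← h.cardQ]
    exact Subgroup.card_dvd_of_le inf_le_left
  have hDmod := card_fix_mod (p := 3) (by norm_num) ha' (W := Q) (fun w hw => h.Qn.conj_mem w hw a')
  rw [← hDcard, h.cardQ] at hDmod
  have hD32 : Nat.card D ≠ 32 := by
    intro h1
    have h2 : Q ⊓ Subgroup.centralizer ({a'} : Set (Subgroup.centralizer ({z} : Set G))) = Q :=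
      Subgroup.eq_of_le_of_card_ge inf_le_left (by rw [← hDcard, h1, h.cardQ])
    apply haQ
    apply h.self
    intro q hq
    have h3 : q ∈ Q ⊓ Subgroup.centralizer ({a'} : Set (Subgroup.centralizer ({z} : Set G))) := by rw [h2]; exact hq
    exact (Subgroup.mem_centralizer_singleton_iff.1 h3.2).symm
  have hD8 : ¬ 16 ∣ Nat.card D := by
    have key : ∀ n ∈ Nat.divisors 32, 32 % 3 = n % 3 → n ≠ 32 → ¬ 16 ∣ n := by decide +kernel
    exact key _ (Nat.mem_divisors.2 ⟨hDdvd, by norm_num⟩) hDmod hD32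
  have hDp : IsPGroup 2 D := by
    obtain ⟨k, -, hk⟩ := (Nat.dvd_prime_pow Nat.prime_two).1 (show Nat.card D ∣ 2 ^ 5 by simpa using hDdvd)
    exact IsPGroup.of_card hk
  -- it is a Sylow subgroup
  obtain ⟨S, hS⟩ := exists_sylow_of_norm (p := 2) hDp (by
    rintro g ⟨k, hk⟩ hg
    -- `g` centralizes `z`
    have hkM : ((y l * y m : Subgroup.centralizer ({z} : Set G)) : G) ∈ M := by
      refine Subgroup.mem_centralizer_singleton_iff.2 ?_
      exact (congrArg Subtype.val hka).symm
    have h1 := hg ⟨_, hkM⟩ ⟨y l * y m, hkQ, rfl⟩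
    obtain ⟨q, hq, hqm⟩ := h1
    have hqm' : (q : G) = (g : G) * ((y l * y m : Subgroup.centralizer ({z} : Set G)) : G) * (g : G)⁻¹ := hqm
    have hqq : (q : G) * q = (g : G) * z * (g : G)⁻¹ := by
      rw [hqm']
      have h2 : ((y l * y m : Subgroup.centralizer ({z} : Set G)) : G) * ((y l * y m : Subgroup.centralizer ({z} : Set G)) : G) = z :=
        congrArg Subtype.val hkk
      calc (g : G) * ((y l * y m : Subgroup.centralizer ({z} : Set G)) : G) * (g : G)⁻¹ *
            ((g : G) * ((y l * y m : Subgroup.centralizer ({z} : Set G)) : G) * (g : G)⁻¹) =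
            (g : G) * (((y l * y m : Subgroup.centralizer ({z} : Set G)) : G) * ((y l * y m : Subgroup.centralizer ({z} : Set G)) : G)) * (g : G)⁻¹ := by
              group
        _ = (g : G) * z * (g : G)⁻¹ := by rw [h2]
    have hz1 : z ≠ 1 := H.z_ne
    have hqz : (g : G) * z * (g : G)⁻¹ = z := by
      rcases h.sq q hq with h2 | h2
      · exfalso
        have h3 : (q : G) * q = 1 := congrArg Subtype.val h2
        rw [hqq] at h3
        exact hz1 (conj_eq_one_iff.1 h3)
      · have h3 : (q : G) * q = z := congrArg Subtype.val h2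
        rw [← hqq, h3]
    have hgz : (g : G) * z = z * g := mul_inv_eq_iff_eq_mul.1 hqz
    let g' : Subgroup.centralizer ({z} : Set G) := ⟨g, Subgroup.mem_centralizer_singleton_iff.2 hgz⟩
    have hga : g' * a' = a' * g' := Subtype.ext (Subgroup.mem_centralizer_singleton_iff.1 g.2)
    have hσg : f.pi h g' * σ = σ * f.pi h g' := by
      change f.pi h g' * f.pi h a' = f.pi h a' * f.pi h g'
      rw [← map_mul, hga, map_mul]
    have hk' : f.pi h g' ^ (2 ^ k) = 1 := by
      rw [← map_pow]
      have h2 : g' ^ (2 ^ k) = 1 := by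
        apply Subtype.ext
        change (g : G) ^ (2 ^ k) = 1
        exact congrArg (fun w : M => (w : G)) hk
      rw [h2, map_one]
    have hg1 : f.pi h g' = 1 := by
      have hpow : ∀ τ : Equiv.Perm (Fin 5), τ ^ 3 = 1 → τ ^ (2 ^ k) = 1 → τ = 1 := by
        intro τ h2 h3
        have h4 := orderOf_dvd_of_pow_eq_one h2
        have h5 := orderOf_dvd_of_pow_eq_one h3
        have h6 : orderOf τ = 1 := Nat.eq_one_of_dvd_coprimes (Nat.Coprime.pow_right k (by norm_num : Nat.Coprime 3 2)) h4 h5
        exact orderOf_eq_one_iff.1 h6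
      rcases cent_three σ ⟨hσ3, hσ1⟩ (f.pi h g') ⟨f.pi_sign h g', hσg⟩ with h2 | h2 | h2
      · exact h2
      · exact hpow _ (by rw [h2]; exact hσ3) hk'
      · exact hpow _ (by rw [h2, ← pow_mul, mul_comm, pow_mul, hσ3, one_pow]) hk'
    refine ⟨g', ?_, rfl⟩
    rw [← f.ker_pi h]
    exact hg1)
  intro h16
  have h1 : 2 ^ 4 ∣ Nat.card S := S.pow_dvd_card_of_pow_dvd_card h16
  apply hD8
  have h2 : Nat.card S = Nat.card D := by
    rw [hS]
  rw [← h2]
  exact h1

end H64.J2
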