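import Cfsg.Agent.Lib.H64.J2T4
import Cfsg.Agent.Lib.H64.J2Z1
import Cfsg.Agent.Lib.H63.J2Main

set_option autoImplicit false

/-! Groups of Hall-Janko type: local information. -/

namespace H64.J2

section
variable {G : Type*} [Group G] [Finite G] {z t y : G} (D : GD z t y) (e : D.K ≃* alternatingGroup (Fin 5))
include e

theorem GD.card_cent3 {r : G} (hr : r ∈ D.KG) (ho : orderOf r = 3) :
    Nat.card (Subgroup.centralizer ({r} : Set G)) = 12 ∨ Nat.card (Subgroup.centralizer ({r} : Set G)) = 36 ∨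
      Nat.card (Subgroup.centralizer ({r} : Set G)) = 180 := by
  obtain ⟨R, hRn, -, hR, hi⟩ := D.quot_cases e hr (Or.inl ho)
  have h1 := R.card_mul_index
  rw [hR, ho] at h1
  rcases hi with h2 | h2 | h2
  · rw [h2] at h1; left; exact h1.symm
  · rw [h2] at h1; right; left; exact h1.symm
  · obtain ⟨f⟩ := h2 hRn
    have h3 : R.index = 60 := by
      rw [Subgroup.index_eq_card, Nat.card_congr f.toEquiv, Nat.card_eq_fintype_card, card_alternatingGroup]
      simp [Nat.factorial]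
    rw [h3] at h1; right; right; exact h1.symm

theorem GD.mem_KG3 {a : G} (hat : a * t = t * a) (ho : orderOf a = 3) : a ∈ D.KG := by
  obtain ⟨g, hg, k, hk, hgk⟩ := D.decomp' e hat
  have hgg : g * g = 1 := D.el (D.memE.1 hg).1
  have hcomm := D.E_comm hg hk
  have h3 : a ^ 3 = 1 := by rw [← ho, pow_orderOf_eq_one]
  have h4 : a ^ 3 = g * k ^ 3 := by
    rw [hgk, (show Commute g k from hcomm).mul_pow]
    congr 1
    rw [pow_succ, pow_two, hgg, one_mul]
  have h5 : g ∈ D.KG := by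
    have h6 : g = (k ^ 3)⁻¹ := by
      rw [h3] at h4
      exact eq_inv_of_mul_eq_one_left h4.symm
    rw [h6]
    exact D.KG.inv_mem (D.KG.pow_mem hk 3)
  rw [hgk]
  exact D.KG.mul_mem h5 hk

end

variable {G : Type*} [Group G] [Finite G] {z : G} {Q : Subgroup (Subgroup.centralizer ({z} : Set G))}

theorem HJ.loc (H : HJ z Q) (hcl : ∃ x y : G, orderOf x = 2 ∧ orderOf y = 2 ∧ ¬ IsConj x y) : ∃ b : G, H64.J2T.Loc G b := by
  obtain ⟨t, y, D, e, r, hr, h5, x, hx5, hxz, hxT, hxc⟩ := H.five hcl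
  obtain ⟨b, hb, hob⟩ := D.exists_r e (p := 3) (Or.inl rfl)
  have hinv : ∀ u : G, orderOf u = 2 → IsConj z u ∨ IsConj t u := by
    intro u hu
    refine D.cls u (by rw [← pow_two, ← hu, pow_orderOf_eq_one]) ?_
    rintro rfl
    rw [orderOf_one] at hu
    norm_num at hu
  refine ⟨b, ⟨D.card_G e, ?_, ?_, hob, ?_, ?_, ?_⟩⟩
  · intro u hu
    rcases hinv u hu with h1 | h1
    · rw [← card_cent_conj h1, D.cardZ]
    · rw [← card_cent_conj h1, D.card240 e]; norm_num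
  · intro g hg
    exact h5.cent_dvd H.z_sq H.z_ne hx5 hxz hxT hxc hg
  · rcases D.card_cent3 e hb hob with h1 | h1 | h1 <;> rw [h1] <;> norm_num
  · rcases D.card_cent3 e hb hob with h1 | h1 | h1 <;> rw [h1] <;> norm_num
  · intro u a hu ha hau
    have hord : ∀ c : G, orderOf (c * a * c⁻¹) = 3 := fun c =>
      (orderOf_injective (MulAut.conj c).toMonoidHom (MulAut.conj c).injective a).trans ha
    have hcomm : ∀ (w c : G), c * w * c⁻¹ = u → (c⁻¹ * a * c⁻¹⁻¹) * w = w * (c⁻¹ * a * c⁻¹⁻¹) := by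
      intro w c hc
      rw [← hc] at hau
      calc c⁻¹ * a * c⁻¹⁻¹ * w = c⁻¹ * (a * (c * w * c⁻¹)) * c := by group
        _ = c⁻¹ * (c * w * c⁻¹ * a) * c := by rw [hau]
        _ = w * (c⁻¹ * a * c⁻¹⁻¹) := by group
    rcases hinv u hu with h1 | h1
    · obtain ⟨c, hc⟩ := isConj_iff.1 h1
      rw [card_cent_conj (isConj_iff.2 ⟨c⁻¹, rfl⟩ : IsConj a (c⁻¹ * a * c⁻¹⁻¹))]
      exact H.cent3 (hord c⁻¹) (hcomm z c hc)
    · obtain ⟨c, hc⟩ := isConj_iff.1 h1
      rw [card_cent_conj (isConj_iff.2 ⟨c⁻¹, rfl⟩ : IsConj a (c⁻¹ * a * c⁻¹⁻¹))]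
      rcases D.card_cent3 e (D.mem_KG3 e (hcomm t c hc) (hord c⁻¹)) (hord c⁻¹) with h2 | h2 | h2 <;> rw [h2] <;> norm_num

omit [Finite G] in
theorem exists_Ex (h : Nonempty (G ≃* Cfsg.Spor.J2)) : ∃ x y c h d e : G, H64.J2T.Ex x y c h d e := by
  obtain ⟨f⟩ := h
  obtain ⟨x, y, c, h, d, e, H⟩ := H64.J2T.exists_P0
  let g : G ≃* H63.J2.P0 := f.trans H63.J2.jiso
  refine ⟨g.symm x, g.symm y, g.symm c, g.symm h, g.symm d, g.symm e, H64.J2T.Ex.of_map g.toMonoidHom g.injective ?_⟩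
  have key : ∀ w, g.toMonoidHom (g.symm w) = w := fun w => g.apply_symm_apply w
  rw [key, key, key, key, key, key]
  exact H

end H64.J2
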