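import Mathlib

set_option autoImplicit false

/-! Small Jordan sets in finite primitive groups: a primitive group with a Jordan set of size at
most half the degree is 3-transitive. -/

namespace H64.JordanSet

open scoped Pointwise

variable {G Ω : Type*} [Group G] [MulAction G Ω]

/-- the pointwise stabiliser of the complement of `M` is transitive on `M` -/
def J (G : Type*) {Ω : Type*} [Group G] [MulAction G Ω] (M : Set Ω) : Prop :=
  ∀ x ∈ M, ∀ y ∈ M, ∃ g : G, (∀ z ∉ M, g • z = z) ∧ g • x = y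

theorem J.smul {M : Set Ω} (hM : J G M) (g : G) : J G (g • M) := by
  intro x hx y hy
  rw [Set.mem_smul_set_iff_inv_smul_mem] at hx hy
  obtain ⟨h, h1, h2⟩ := hM _ hx _ hy
  refine ⟨g * h * g⁻¹, ?_, ?_⟩
  · intro z hz
    rw [Set.mem_smul_set_iff_inv_smul_mem] at hz
    rw [mul_smul, mul_smul, h1 _ hz, smul_inv_smul]
  · rw [mul_smul, mul_smul, h2, smul_inv_smul]

theorem J.union {M N : Set Ω} (hM : J G M) (hN : J G N) (h : (M ∩ N).Nonempty) : J G (M ∪ N) := by
  obtain ⟨w, hwM, hwN⟩ := h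
  have key : ∀ x ∈ M ∪ N, ∃ g : G, (∀ z ∉ M ∪ N, g • z = z) ∧ g • x = w := by
    rintro x (hx | hx)
    · obtain ⟨g, h1, h2⟩ := hM x hx w hwM
      exact ⟨g, fun z hz => h1 z (fun h => hz (Or.inl h)), h2⟩
    · obtain ⟨g, h1, h2⟩ := hN x hx w hwN
      exact ⟨g, fun z hz => h1 z (fun h => hz (Or.inr h)), h2⟩
  intro x hx y hy
  obtain ⟨g, g1, g2⟩ := key x hx
  obtain ⟨h, h1, h2⟩ := key y hy
  refine ⟨h⁻¹ * g, ?_, ?_⟩
  · intro z hz
    rw [mul_smul, g1 z hz, inv_smul_eq_iff, h1 z hz]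
  · rw [mul_smul, g2, inv_smul_eq_iff, h2]

theorem three_of_pairs (h2 : MulAction.IsMultiplyPretransitive G Ω 2) {a0 b0 : Ω} (hab : a0 ≠ b0)
    (hJ : J G ({a0, b0}ᶜ : Set Ω)) : MulAction.IsMultiplyPretransitive G Ω 3 := by
  rw [MulAction.is_two_pretransitive_iff] at h2
  rw [MulAction.isMultiplyPretransitive_iff]
  intro x y
  have hx01 : x 0 ≠ x 1 := x.injective.ne (by decide)
  have hx02 : x 0 ≠ x 2 := x.injective.ne (by decide)
  have hx12 : x 1 ≠ x 2 := x.injective.ne (by decide)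
  have hy01 : y 0 ≠ y 1 := y.injective.ne (by decide)
  have hy02 : y 0 ≠ y 2 := y.injective.ne (by decide)
  have hy12 : y 1 ≠ y 2 := y.injective.ne (by decide)
  obtain ⟨g, g0, g1⟩ := h2 hx01 hab
  obtain ⟨h, h0, h1⟩ := h2 hy01 hab
  have hgx : g • x 2 ∈ ({a0, b0}ᶜ : Set Ω) := by
    simp only [Set.mem_compl_iff, Set.mem_insert_iff, Set.mem_singleton_iff, not_or]
    constructor
    · intro h; rw [← g0] at h; exact hx02 (smul_left_cancel g h).symm
    · intro h; rw [← g1] at h; exact hx12 (smul_left_cancel g h).symm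
  have hhy : h • y 2 ∈ ({a0, b0}ᶜ : Set Ω) := by
    simp only [Set.mem_compl_iff, Set.mem_insert_iff, Set.mem_singleton_iff, not_or]
    constructor
    · intro h'; rw [← h0] at h'; exact hy02 (smul_left_cancel h h').symm
    · intro h'; rw [← h1] at h'; exact hy12 (smul_left_cancel h h').symm
  obtain ⟨k, k1, k2⟩ := hJ _ hgx _ hhy
  have ka : k • a0 = a0 := k1 _ (by simp)
  have kb : k • b0 = b0 := k1 _ (by simp)
  refine ⟨h⁻¹ * k * g, ?_⟩
  ext i
  rw [Function.Embedding.smul_apply, mul_smul, mul_smul, inv_smul_eq_iff]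
  fin_cases i
  · change k • g • x 0 = h • y 0
    rw [g0, ka, h0]
  · change k • g • x 1 = h • y 1
    rw [g1, kb, h1]
  · exact k2

theorem two_transitive [Finite Ω] (hprim : MulAction.IsPreprimitive G Ω) (Γ : Set Ω)
    (h1 : 1 < Γ.ncard) (h2 : 2 * Γ.ncard ≤ Nat.card Ω) (htr : J G Γ) :
    MulAction.IsMultiplyPretransitive G Ω 2 := by
  have hc : Γᶜ.ncard = Nat.card Ω - Γ.ncard := Set.ncard_compl Γ
  apply hprim.is_two_pretransitive (s := Γᶜ) (n := Nat.card Ω - Γ.ncard - 1)
  · omega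
  · omega
  · constructor
    rintro ⟨x, hx⟩ ⟨y, hy⟩
    rw [SubMulAction.mem_ofFixingSubgroup_iff] at hx hy
    obtain ⟨g, g1, g2⟩ := htr x (not_not.1 hx) y (not_not.1 hy)
    refine ⟨⟨g, ?_⟩, ?_⟩
    · rw [mem_fixingSubgroup_iff]
      intro z hz
      exact g1 z hz
    · apply Subtype.ext
      exact g2

theorem main [Finite Ω] (hprim : MulAction.IsPreprimitive G Ω) (Γ : Set Ω)
    (h1 : 1 < Γ.ncard) (h2 : 2 * Γ.ncard ≤ Nat.card Ω) (htr : J G Γ) :
    MulAction.IsMultiplyPretransitive G Ω 3 := by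
  classical
  have h2t := two_transitive hprim Γ h1 h2 htr
  have h2t' : ∀ {a b c d : Ω} (_ : a ≠ b) (_ : c ≠ d), ∃ g : G, g • a = c ∧ g • b = d :=
    (MulAction.is_two_pretransitive_iff (G := G) (α := Ω)).1 h2t
  set n := Nat.card Ω with hn
  -- a maximal Jordan set missing two points
  let S : Set (Set Ω) := {M | J G M ∧ 2 ≤ M.ncard ∧ M.ncard + 2 ≤ n}
  have hSfin : S.Finite := Set.toFinite S
  have hΓS : Γ ∈ S := ⟨htr, h1, by omega⟩
  obtain ⟨M, ⟨hMJ, hM2, hMn⟩, hmax⟩ := Set.exists_max_image S Set.ncard hSfin ⟨Γ, hΓS⟩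
  have hcg : ∀ (g : G) (A : Set Ω), (g • A).ncard = A.ncard := fun g A =>
    Set.ncard_image_of_injective A (MulAction.injective g)
  have hsub : ∀ (A B : Set Ω), A ⊆ B → B.ncard ≤ A.ncard → A = B := fun A B h h' =>
    Set.eq_of_subset_of_ncard_le h h'
  -- the union of two conjugates
  have hunion : ∀ g h : G, (g • M ∩ h • M).Nonempty → g • M ≠ h • M →
      n ≤ (g • M ∪ h • M).ncard + 1 := by
    intro g h hne hgh
    by_contra hcon
    push Not at hcon
    have h3 : g • M ∪ h • M ∈ S := by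
      refine ⟨(hMJ.smul g).union (hMJ.smul h) hne, ?_, by omega⟩
      have : (g • M).ncard ≤ (g • M ∪ h • M).ncard := Set.ncard_le_ncard Set.subset_union_left
      rw [hcg] at this; omega
    have h4 := hmax _ h3
    have e1 : g • M = g • M ∪ h • M := hsub _ _ Set.subset_union_left (by rw [hcg]; exact h4)
    have e2 : h • M = g • M ∪ h • M := hsub _ _ Set.subset_union_right (by rw [hcg]; exact h4)
    exact hgh (e1.trans e2.symm)
  by_cases hk : M.ncard + 2 = n
  · -- done
    have hc : Mᶜ.ncard = 2 := by rw [Set.ncard_compl, ← hn]; omega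
    obtain ⟨a0, b0, hab, hMc⟩ := Set.ncard_eq_two.1 hc
    apply three_of_pairs h2t hab
    rw [← hMc, compl_compl]; exact hMJ
  exfalso
  have hk3 : M.ncard + 3 ≤ n := by omega
  have hinter : ∀ A B : Set Ω, (A ∪ B).ncard + (A ∩ B).ncard = A.ncard + B.ncard :=
    fun A B => Set.ncard_union_add_ncard_inter A B
  -- `M` is large
  have hbig : n < 2 * M.ncard := by
    by_contra hcon
    push Not at hcon
    have hone : ∀ g h : G, (g • M ∩ h • M).Nonempty → g • M ≠ h • M →
        (g • M ∩ h • M).ncard = 1 ∧ (g • M ∪ h • M).ncard + 1 = n ∧ 2 * M.ncard = n := by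
      intro g h hne hgh
      have h3 := hunion g h hne hgh
      have h4 := hinter (g • M) (h • M)
      rw [hcg, hcg] at h4
      have h5 : 0 < (g • M ∩ h • M).ncard := (Set.ncard_pos).2 hne
      omega
    -- `M` is not a block
    obtain ⟨g, hg1, hg2⟩ : ∃ g : G, (M ∩ g • M).Nonempty ∧ M ≠ g • M := by
      by_contra hno
      push Not at hno
      have hblock : MulAction.IsBlock G M := by
        rw [MulAction.isBlock_iff_smul_eq_or_disjoint]
        intro g
        by_cases h : (M ∩ g • M).Nonempty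
        · left; exact (hno g h).symm
        · right
          rw [Set.disjoint_iff_inter_eq_empty, Set.inter_comm]
          exact Set.not_nonempty_iff_eq_empty.1 h
      rcases hprim.isTrivialBlock_of_isBlock hblock with h | h
      · have := (Set.ncard_le_one_iff_subsingleton).2 h
        omega
      · rw [h, Set.ncard_univ] at hMn; omega
    have hg1' : ((1 : G) • M ∩ g • M).Nonempty := by rwa [one_smul]
    have hg2' : (1 : G) • M ≠ g • M := by rwa [one_smul]
    obtain ⟨e1, e2, e3⟩ := hone 1 g hg1' hg2'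
    rw [one_smul] at e1 e2
    obtain ⟨x, hxM, hxg⟩ := hg1
    obtain ⟨z, hz⟩ : ∃ z, z ∉ M ∪ g • M := by
      by_contra hno
      push Not at hno
      have : M ∪ g • M = Set.univ := Set.eq_univ_of_forall hno
      rw [this, Set.ncard_univ] at e2
      omega
    obtain ⟨y, hyM, hyx⟩ : ∃ y ∈ M, y ≠ x := Set.exists_ne_of_one_lt_ncard (by omega) x
    have hxz : x ≠ z := by rintro rfl; exact hz (Or.inl hxM)
    obtain ⟨h, hhx, hhy⟩ := h2t' hyx.symm hxz
    have hxh : x ∈ h • M := by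
      rw [Set.mem_smul_set_iff_inv_smul_mem, inv_smul_eq_iff.2 hhx.symm]; exact hxM
    have hzh : z ∈ h • M := by
      rw [Set.mem_smul_set_iff_inv_smul_mem, inv_smul_eq_iff.2 hhy.symm]; exact hyM
    have f1 := (hone 1 h ⟨x, by rwa [one_smul], hxh⟩ (by
      rw [one_smul]; intro he; rw [← he] at hzh; exact hz (Or.inl hzh))).1
    rw [one_smul] at f1
    have f2 := (hone g h ⟨x, hxg, hxh⟩ (by
      intro he; rw [← he] at hzh; exact hz (Or.inr hzh))).1
    have f3 : h • M ⊆ (M ∩ h • M) ∪ ((g • M ∩ h • M) \ {x}) ∪ {z} := by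
      intro w hw
      by_cases hwz : w = z
      · right; exact hwz
      · left
        have : w ∈ M ∪ g • M := by
          by_contra hno
          -- `z, w` both outside
          have h5 : (M ∪ g • M).ncard + 2 ≤ n := by
            have h6 : ({w, z} : Set Ω) ⊆ (M ∪ g • M)ᶜ := by
              rintro v (rfl | rfl)
              · exact hno
              · exact hz
            have h7 := Set.ncard_le_ncard h6
            rw [Set.ncard_pair hwz, Set.ncard_compl] at h7
            omega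
          omega
        by_cases hwM : w ∈ M
        · left; exact ⟨hwM, hw⟩
        · right
          refine ⟨⟨this.resolve_left hwM, hw⟩, ?_⟩
          rintro rfl; exact hwM hxM
    have f4 : ((g • M ∩ h • M) \ {x}).ncard = 0 := by
      have hxx : x ∈ g • M ∩ h • M := ⟨hxg, hxh⟩
      rw [Set.ncard_sdiff_singleton_of_mem hxx, f2]
    have f5 := Set.ncard_le_ncard f3
    have f6 := Set.ncard_union_le ((M ∩ h • M) ∪ ((g • M ∩ h • M) \ {x})) {z}
    have f7 := Set.ncard_union_le (M ∩ h • M) ((g • M ∩ h • M) \ {x})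
    rw [Set.ncard_singleton] at f6
    rw [hcg] at f5
    omega
  -- complements of conjugates form a linear space
  have hline : ∀ g h : G, ∀ x y : Ω, x ≠ y → x ∉ g • M → y ∉ g • M → x ∉ h • M → y ∉ h • M →
      g • M = h • M := by
    intro g h x y hxy hxg hyg hxh hyh
    by_contra hgh
    have hne : (g • M ∩ h • M).Nonempty := by
      rw [← Set.ncard_pos]
      have h4 := hinter (g • M) (h • M)
      rw [hcg, hcg] at h4
      have h5 : (g • M ∪ h • M).ncard ≤ n := by
        rw [hn, ← Set.ncard_univ]; exact Set.ncard_le_ncard (Set.subset_univ _)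
      omega
    have h3 := hunion g h hne hgh
    have h6 : ({x, y} : Set Ω) ⊆ (g • M ∪ h • M)ᶜ := by
      rintro v (rfl | rfl)
      · rintro (h | h)
        · exact hxg h
        · exact hxh h
      · rintro (h | h)
        · exact hyg h
        · exact hyh h
    have h7 := Set.ncard_le_ncard h6
    rw [Set.ncard_pair hxy, Set.ncard_compl] at h7
    omega
  have hthru : ∀ x y : Ω, x ≠ y → ∃ g : G, x ∉ g • M ∧ y ∉ g • M := by
    intro x y hxy
    have hc : 1 < Mᶜ.ncard := by rw [Set.ncard_compl, ← hn]; omega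
    obtain ⟨p, hp, q, hq, hpq⟩ := (Set.one_lt_ncard_iff_nontrivial.1 hc)
    obtain ⟨g, hgp, hgq⟩ := h2t' hpq hxy
    refine ⟨g, ?_, ?_⟩
    · rw [Set.mem_smul_set_iff_inv_smul_mem, inv_smul_eq_iff.2 hgp.symm]; exact hp
    · rw [Set.mem_smul_set_iff_inv_smul_mem, inv_smul_eq_iff.2 hgq.symm]; exact hq
  have hthird : ∀ g : G, ∀ x y : Ω, ∃ w, w ∉ g • M ∧ w ≠ x ∧ w ≠ y := by
    intro g x y
    by_contra hno
    push Not at hno
    have h3 : (g • M)ᶜ ⊆ {x, y} := by
      intro w hw
      by_cases hwx : w = x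
      · left; exact hwx
      · right; exact hno w hw hwx
    have h4 := Set.ncard_le_ncard h3
    rw [Set.ncard_compl, hcg] at h4
    have h5 : ({x, y} : Set Ω).ncard ≤ 2 := by
      have := Set.ncard_insert_le x {y}
      rw [Set.ncard_singleton] at this
      exact this
    omega
  -- a line with two fixed points and a point of `Γ` contains `Γ`
  have hcont : ∀ g : G, ∀ x ∈ Γ, ∀ y ∉ Γ, ∀ y' ∉ Γ, y ≠ y' → x ∉ g • M → y ∉ g • M → y' ∉ g • M →
      ∀ w ∈ Γ, w ∉ g • M := by
    intro g x hx y hy y' hy' hyy' hxg hyg hyg' w hw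
    obtain ⟨k, k1, k2⟩ := htr x hx w hw
    have e := hline g (k * g) y y' hyy' hyg hyg' (by
      rw [mul_smul, Set.mem_smul_set_iff_inv_smul_mem, inv_smul_eq_iff.2 (k1 y hy).symm]
      exact hyg) (by
      rw [mul_smul, Set.mem_smul_set_iff_inv_smul_mem, inv_smul_eq_iff.2 (k1 y' hy').symm]
      exact hyg')
    rw [e, mul_smul, Set.mem_smul_set_iff_inv_smul_mem, inv_smul_eq_iff.2 k2.symm]
    exact hxg
  have hL : ∀ g : G, ∀ x ∈ Γ, ∀ y ∉ Γ, ∀ y' ∉ Γ, y ≠ y' → x ∉ g • M → y ∉ g • M →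
      y' ∉ g • M → False := by
    intro g x hx y hy y' hy' hyy' hxg hyg hyg'
    have hΓg := hcont g x hx y hy y' hy' hyy' hxg hyg hyg'
    -- a point off the line
    have hMne : (g • M).Nonempty := by
      rw [← Set.ncard_pos, hcg]; omega
    obtain ⟨z, hz⟩ := hMne
    have hzΓ : z ∉ Γ := fun h => hΓg z h hz
    have hxz : x ≠ z := by rintro rfl; exact hxg hz
    obtain ⟨g2, hx2, hz2⟩ := hthru x z hxz
    obtain ⟨w, hw2, hwx, hwz⟩ := hthird g2 x z
    by_cases hwΓ : w ∈ Γ
    · have e := hline g g2 x w hwx.symm hxg (hΓg w hwΓ) hx2 hw2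
      rw [e] at hz; exact hz2 hz
    · have h3 := hcont g2 x hx z hzΓ w hwΓ hwz.symm hx2 hz2 hw2
      obtain ⟨x', hx', hxx'⟩ := Set.exists_ne_of_one_lt_ncard h1 x
      have e := hline g g2 x x' hxx'.symm hxg (hΓg x' hx') hx2 (h3 x' hx')
      rw [e] at hz; exact hz2 hz
  -- the count
  obtain ⟨x, hx⟩ : Γ.Nonempty := by rw [← Set.ncard_pos]; omega
  have hch : ∀ y ∉ Γ, ∃ w, ∃ g : G, x ∉ g • M ∧ y ∉ g • M ∧ w ∉ g • M ∧ w ≠ x ∧ w ∈ Γ := by
    intro y hy
    have hxy : x ≠ y := by rintro rfl; exact hy hx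
    obtain ⟨g, hxg, hyg⟩ := hthru x y hxy
    obtain ⟨w, hwg, hwx, hwy⟩ := hthird g x y
    refine ⟨w, g, hxg, hyg, hwg, hwx, ?_⟩
    by_contra hwΓ
    exact hL g x hx y hy w hwΓ hwy.symm hxg hyg hwg
  choose! f g hf using hch
  have hle : Γᶜ.ncard ≤ (Γ \ {x}).ncard := by
    apply Set.ncard_le_ncard_of_injOn f
    · intro y hy
      obtain ⟨-, -, -, h4, h5⟩ := hf y hy
      exact ⟨h5, h4⟩
    · intro y hy y' hy' he
      by_contra hne
      obtain ⟨a1, a2, a3, a4, a5⟩ := hf y hy
      obtain ⟨b1, b2, b3, b4, b5⟩ := hf y' hy'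
      rw [← he] at b3
      have e := hline (g y) (g y') x (f y) a4.symm a1 a3 b1 b3
      rw [← e] at b2
      exact hL (g y) x hx y hy y' hy' hne a1 a2 b2
  rw [Set.ncard_compl, Set.ncard_sdiff_singleton_of_mem hx] at hle
  omega

end H64.JordanSet
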