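import Mathlib
import Cfsg.Agent.Lib.H64.MCG
import Cfsg.Agent.Lib.H64.NXMC
import Cfsg.Agent.Lib.H35.StemFS
import Cfsg.Agent.Lib.H35.StemRule
import Cfsg.Agent.Lib.H35.StemStep
import Cfsg.Agent.Lib.H35.StemNet
import Cfsg.Agent.Lib.H35.StemCover
import Cfsg.Agent.Lib.H35.StemFin
import Cfsg.Agent.Lib.H35.StemPerf
import Cfsg.Agent.Lib.H9.MultD
import Cfsg.Agent.Lib.H64.TCMCA
import Cfsg.Agent.Lib.H64.TCMCB
import Cfsg.Agent.Lib.H64.TCMCC
import Cfsg.Agent.Lib.H64.TCMCD
import Cfsg.Agent.Lib.H64.TCMCE

set_option autoImplicit false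
set_option maxRecDepth 100000
set_option linter.all false
set_option Elab.async false

/-! The 3-part of the Schur multiplier of the McLaughlin group. -/

namespace H64.MCM
open Subgroup H35.Stem H35.TC H35.Net H40.PermCode
open H63.McL (G ψ ψ_inj card_G fin)
open H64.MCG (X nn g ck tr tr1 hord gen SA ψ_g ψ_ev sg rep_s)

/-- letters of the normalizer of `L3(4)` -/
def K2 : X → Bool := ![true, true, true, true, false, true]


/-- lower letters of level A -/
def TA : X → Bool := ![true, true, true, true, true, false]

def wdA : H64.TCMCA.Lt → W X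
  | .p => [(0, true)]
  | .pi => [(0, false)]
  | .q => [(1, true)]
  | .qi => [(1, false)]
  | .r => [(2, true)]
  | .ri => [(2, false)]
  | .s => [(3, true)]
  | .si => [(3, false)]
  | .u => [(4, true)]
  | .d => [(5, true)]

def rulesA_0 : List (Rule X) := [
  .ord 2,
  .low [(0, true), (5, true), (2, false), (5, true)],
  .low [(1, true), (5, true), (3, false), (5, true)],
  .ord 1,
  .conj [(4, true), (5, true)] [(4, true)] [(5, true)] 2,
  .low [(1, true), (3, false), (1, true), (3, false), (1, true), (3, false)]]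

def rulesA_1 : List (Rule X) := [
  .low [(0, true), (2, false), (1, true), (1, true), (3, true), (1, true), (3, false)],
  .low [(0, true), (2, false), (1, true), (3, false), (1, false), (3, false), (3, false)],
  .low [(0, true), (0, true), (1, false), (2, true), (0, true), (0, true), (1, false), (2, true)],
  .low [(0, true), (0, true), (2, false), (0, true), (0, true), (3, false), (1, true), (3, false)],
  .conj [(4, true)] [(1, false), (2, false), (0, false), (1, false), (3, false), (1, true)] [(1, false), (0, false), (1, false), (2, true), (1, true)] 4,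
  .conj [(4, true)] [(2, true), (1, true), (3, false), (1, true), (2, false), (1, false), (1, false), (2, false)] [(3, true), (1, true), (0, false)] 4]

def rulesA_2 : List (Rule X) := [
  .conj [(4, true)] [(3, true), (1, true), (1, true), (3, true), (2, false), (0, false), (1, false), (3, false)] [(3, true), (1, true), (0, false)] 4,
  .conj [(4, true)] [(2, true), (3, true), (0, false), (3, false), (1, false), (2, false)] [(1, false), (0, false), (1, false), (2, true), (1, true)] 4,
  .conj [(4, true)] [(2, true), (3, false), (1, false)] [(2, true), (3, true), (2, false), (3, true), (0, false), (1, true), (3, false), (2, false)] 4,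
  .conj [(4, true), (1, true)] [(4, true)] [(0, false), (0, false), (1, false), (0, true), (2, false), (1, false), (0, true), (0, true)] 2,
  .conj [(5, true), (4, true)] [(5, true)] [(4, true)] 2]

def rulesA : List (Rule X) := rulesA_0 ++ rulesA_1 ++ rulesA_2

def cenA : H64.TCMCA.Lt → Bool
  | _ => false

def CA : CP X H64.TCMCA.Lt where
  iv := fun x => decide (nn x = 2)
  wd := wdA
  cen := cenA
  q := 9
  exact := rulesA.map fun r => nrm (fun x => decide (nn x = 2)) (red (fun x => decide (nn x = 2)) (r.word nn))

theorem tkA_0 : (rulesA_0.all (Rule.chk nn ck)) = true := by decide +kernel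

theorem tkA_1 : (rulesA_1.all (Rule.chk nn ck)) = true := by decide +kernel

theorem tkA_2 : (rulesA_2.all (Rule.chk nn ck)) = true := by decide +kernel

theorem htA : ∀ r ∈ rulesA, ∀ w ∈ r.needs nn, ev g w = 1 := by
  intro r hr
  refine Rule.needs_of_chk tr ?_
  simp only [rulesA, List.mem_append] at hr
  rcases hr with (hr | hr) | hr
  · exact List.all_eq_true.1 tkA_0 r hr
  · exact List.all_eq_true.1 tkA_1 r hr
  · exact List.all_eq_true.1 tkA_2 r hr

theorem hcA : ∀ z, CA.cen z = true → ev g (CA.wd z) = 1 := by
  intro z hz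
  refine tr1 ?_
  cases z <;> first | (exact absurd hz (by decide)) | decide +kernel

theorem lvA {Γ : Type} [Group Γ] [Finite Γ] {σ : Γ →* G} {f : X → Γ} (h : Lifts σ 9 nn g f) (hi0 : Inj g f K2) :
    Nat.card (Kl f SA) ≤ 275 * Nat.card (Kl f TA) := by
  have hh : CA.Holds f := holdsF (Ss := [K2]) h (by intro S hS; simp only [List.mem_cons, List.mem_nil_iff, or_false] at hS; rcases hS with rfl <;> assumption) rfl (by decide) rfl (by decide +kernel) htA hcA
  obtain ⟨hinv, hrel⟩ := CP.relOK hh (inv := H64.TCMCA.inv) (mm := H64.TCMCA.mm) (ex := H64.TCMCA.extra) (by intro x; cases x <;> decide +kernel)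
    (by intro x y; cases x <;> cases y <;> decide +kernel) (by decide +kernel)
  exact level (subs := H64.TCMCA.subs) (fun H hH => H64.TCMCA.main hinv hrel.1 hrel.2 hH) (by decide +kernel) (by
    intro x hx
    fin_cases x
    · exact ⟨.p, rfl⟩
    · exact ⟨.q, rfl⟩
    · exact ⟨.r, rfl⟩
    · exact ⟨.s, rfl⟩
    · exact ⟨.u, rfl⟩
    · exact ⟨.d, rfl⟩)

theorem lvdA {P' : Type} [Group P'] [Finite P'] {f : X → P'} (hiv : ∀ x, CA.iv x = true → f x * f x = 1)
    (ht : ∀ r ∈ rulesA, ev f (r.word nn) = 1) :
    Nat.card (Kl f SA) ≤ 275 * Nat.card (Kl f TA) := by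
  have hh : CA.Holds f := holdsDF (rules := rulesA) (n := nn) hiv rfl ht (fun z hz => absurd hz (by cases z <;> decide)) (fun z hz => absurd hz (by cases z <;> decide))
  obtain ⟨hinv, hrel⟩ := CP.relOK hh (inv := H64.TCMCA.inv) (mm := H64.TCMCA.mm) (ex := H64.TCMCA.extra) (by intro x; cases x <;> decide +kernel)
    (by intro x y; cases x <;> cases y <;> decide +kernel) (by decide +kernel)
  exact level (subs := H64.TCMCA.subs) (fun H hH => H64.TCMCA.main hinv hrel.1 hrel.2 hH) (by decide +kernel) (by
    intro x hx
    fin_cases x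
    · exact ⟨.p, rfl⟩
    · exact ⟨.q, rfl⟩
    · exact ⟨.r, rfl⟩
    · exact ⟨.s, rfl⟩
    · exact ⟨.u, rfl⟩
    · exact ⟨.d, rfl⟩)

/-- letters of level B -/
def SB : X → Bool := ![true, true, true, true, true, false]

/-- lower letters of level B -/
def TB : X → Bool := ![true, true, true, true, false, false]

def wdB : H64.TCMCB.Lt → W X
  | .p => [(0, true)]
  | .pi => [(0, false)]
  | .q => [(1, true)]
  | .qi => [(1, false)]
  | .r => [(2, true)]
  | .ri => [(2, false)]
  | .s => [(3, true)]
  | .si => [(3, false)]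
  | .u => [(4, true)]

def rulesB_0 : List (Rule X) := [
  .ord 1,
  .low [(1, true), (3, false), (1, true), (3, false), (1, true), (3, false)],
  .low [(0, true), (2, false), (1, true), (1, true), (3, true), (1, true), (3, false)],
  .low [(0, true), (2, false), (1, true), (3, false), (1, false), (3, false), (3, false)],
  .low [(0, true), (0, true), (1, false), (3, true), (1, false), (0, true), (0, true), (2, false)],
  .low [(0, true), (0, true), (1, false), (2, true), (0, false), (0, false), (1, false), (2, true)]]

def rulesB_1 : List (Rule X) := [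
  .low [(0, true), (0, true), (2, false), (1, true), (0, true), (0, true), (2, false), (1, true)],
  .low [(0, true), (1, false), (0, true), (3, true), (1, false), (2, false), (3, true), (2, false)],
  .low [(0, true), (2, false), (1, false), (1, false), (0, true), (2, false), (1, false), (1, false)],
  .conj [(4, true)] [(2, true), (3, true), (0, false), (3, false), (1, false), (2, false)] [(1, false), (0, false), (1, false), (2, true), (1, true)] 4,
  .conj [(4, true), (3, false), (0, false)] [(4, true)] [(2, true), (3, false), (3, false), (2, true), (0, false), (2, false)] 2,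
  .conj [(4, true), (1, true)] [(4, true)] [(1, true), (3, true), (0, false), (2, false), (0, false), (3, false), (3, false), (1, false)] 2]

def rulesB_2 : List (Rule X) := [
  .conj [(4, true), (0, true), (4, true), (1, true)] [(4, true)] [(1, false), (2, true), (0, false), (0, false)] 2,
  .conj [(4, true)] [(3, true), (1, true), (0, false)] [(1, false), (0, true), (0, true), (3, false), (2, false), (1, false), (0, false), (0, false), (1, true)] 4]

def rulesB : List (Rule X) := rulesB_0 ++ rulesB_1 ++ rulesB_2

def cenB : H64.TCMCB.Lt → Bool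
  | _ => false

def CB : CP X H64.TCMCB.Lt where
  iv := fun x => decide (nn x = 2)
  wd := wdB
  cen := cenB
  q := 9
  exact := rulesB.map fun r => nrm (fun x => decide (nn x = 2)) (red (fun x => decide (nn x = 2)) (r.word nn))

theorem tkB_0 : (rulesB_0.all (Rule.chk nn ck)) = true := by decide +kernel

theorem tkB_1 : (rulesB_1.all (Rule.chk nn ck)) = true := by decide +kernel

theorem tkB_2 : (rulesB_2.all (Rule.chk nn ck)) = true := by decide +kernel

theorem htB : ∀ r ∈ rulesB, ∀ w ∈ r.needs nn, ev g w = 1 := by
  intro r hr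
  refine Rule.needs_of_chk tr ?_
  simp only [rulesB, List.mem_append] at hr
  rcases hr with (hr | hr) | hr
  · exact List.all_eq_true.1 tkB_0 r hr
  · exact List.all_eq_true.1 tkB_1 r hr
  · exact List.all_eq_true.1 tkB_2 r hr

theorem hcB : ∀ z, CB.cen z = true → ev g (CB.wd z) = 1 := by
  intro z hz
  refine tr1 ?_
  cases z <;> first | (exact absurd hz (by decide)) | decide +kernel

theorem lvB {Γ : Type} [Group Γ] [Finite Γ] {σ : Γ →* G} {f : X → Γ} (h : Lifts σ 9 nn g f) (hi : Inj g f TB) :
    Nat.card (Kl f SB) ≤ 486 * Nat.card (Kl f TB) := by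
  have hh : CB.Holds f := holdsF (Ss := [TB]) h (by intro S hS; simp only [List.mem_singleton] at hS; subst hS; exact hi) rfl (by decide) rfl (by decide +kernel) htB hcB
  obtain ⟨hinv, hrel⟩ := CP.relOK hh (inv := H64.TCMCB.inv) (mm := H64.TCMCB.mm) (ex := H64.TCMCB.extra) (by intro x; cases x <;> decide +kernel)
    (by intro x y; cases x <;> cases y <;> decide +kernel) (by decide +kernel)
  exact level (subs := H64.TCMCB.subs) (fun H hH => H64.TCMCB.main hinv hrel.1 hrel.2 hH) (by decide +kernel) (by
    intro x hx
    fin_cases x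
    · exact ⟨.p, rfl⟩
    · exact ⟨.q, rfl⟩
    · exact ⟨.r, rfl⟩
    · exact ⟨.s, rfl⟩
    · exact ⟨.u, rfl⟩
    · exact absurd hx (by decide))

theorem lvdB {P' : Type} [Group P'] [Finite P'] {f : X → P'} (hiv : ∀ x, CB.iv x = true → f x * f x = 1)
    (ht : ∀ r ∈ rulesB, ev f (r.word nn) = 1) :
    Nat.card (Kl f SB) ≤ 486 * Nat.card (Kl f TB) := by
  have hh : CB.Holds f := holdsDF (rules := rulesB) (n := nn) hiv rfl ht (fun z hz => absurd hz (by cases z <;> decide)) (fun z hz => absurd hz (by cases z <;> decide))
  obtain ⟨hinv, hrel⟩ := CP.relOK hh (inv := H64.TCMCB.inv) (mm := H64.TCMCB.mm) (ex := H64.TCMCB.extra) (by intro x; cases x <;> decide +kernel)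
    (by intro x y; cases x <;> cases y <;> decide +kernel) (by decide +kernel)
  exact level (subs := H64.TCMCB.subs) (fun H hH => H64.TCMCB.main hinv hrel.1 hrel.2 hH) (by decide +kernel) (by
    intro x hx
    fin_cases x
    · exact ⟨.p, rfl⟩
    · exact ⟨.q, rfl⟩
    · exact ⟨.r, rfl⟩
    · exact ⟨.s, rfl⟩
    · exact ⟨.u, rfl⟩
    · exact absurd hx (by decide))

/-- letters of level C -/
def SC : X → Bool := ![true, true, true, true, false, true]

/-- lower letters of level C -/
def TC : X → Bool := ![true, true, false, false, false, false]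

def wdC : H64.TCMCC.Lt → W X
  | .p => [(0, true)]
  | .pi => [(0, false)]
  | .q => [(1, true)]
  | .qi => [(1, false)]
  | .r => [(2, true)]
  | .ri => [(2, false)]
  | .s => [(3, true)]
  | .si => [(3, false)]
  | .d => [(5, true)]

def rulesC_0 : List (Rule X) := [
  .ord 3,
  .conj [(5, true)] [(2, false), (2, false)] [(0, false), (0, false)] 4,
  .conj [(5, true)] [(3, false), (3, false)] [(1, false), (1, false)] 5,
  .conj [(5, true), (3, true)] [(2, false)] [(1, true), (0, false), (1, false)] 4,
  .conj [(1, true), (3, false), (1, true)] [(5, true)] [(5, true)] 2,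
  .conj [(5, true)] [(3, false)] [(0, false), (0, false), (0, false), (0, false), (1, false)] 5]

def rulesC_1 : List (Rule X) := [
  .conj [(3, false), (1, false), (3, true), (1, true)] [(5, true)] [(5, true)] 2,
  .conj [(0, false), (0, false), (2, false), (2, false)] [(0, false)] [(2, false)] 4,
  .conj [(2, true)] [(1, false), (0, false), (0, false), (1, true)] [(1, false), (0, false), (0, false), (1, true), (0, false)] 2,
  .conj [(2, false)] [(0, false), (0, false)] [(1, false), (1, false), (0, false), (0, false), (1, true), (0, true), (1, true)] 4,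
  .conj [(2, false), (0, true)] [(2, false), (2, false)] [(1, false), (0, false), (0, false), (1, true), (0, true)] 4,
  .conj [(2, true), (1, false)] [(2, false), (2, false)] [(1, false), (0, false), (1, true), (0, false), (0, false)] 4]

def rulesC_2 : List (Rule X) := [
  .conj [(3, true), (1, true)] [(3, true)] [(1, true), (1, true), (0, false), (1, false), (0, false), (0, false)] 5,
  .conj [(2, true), (3, false)] [(0, false), (0, false)] [(1, false), (0, true), (1, true), (0, false), (0, false)] 4]

def rulesC : List (Rule X) := rulesC_0 ++ rulesC_1 ++ rulesC_2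

def cenC : H64.TCMCC.Lt → Bool
  | _ => false

def CC : CP X H64.TCMCC.Lt where
  iv := fun x => decide (nn x = 2)
  wd := wdC
  cen := cenC
  q := 9
  exact := rulesC.map fun r => nrm (fun x => decide (nn x = 2)) (red (fun x => decide (nn x = 2)) (r.word nn))

theorem tkC_0 : (rulesC_0.all (Rule.chk nn ck)) = true := by decide +kernel

theorem tkC_1 : (rulesC_1.all (Rule.chk nn ck)) = true := by decide +kernel

theorem tkC_2 : (rulesC_2.all (Rule.chk nn ck)) = true := by decide +kernel

theorem htC : ∀ r ∈ rulesC, ∀ w ∈ r.needs nn, ev g w = 1 := by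
  intro r hr
  refine Rule.needs_of_chk tr ?_
  simp only [rulesC, List.mem_append] at hr
  rcases hr with (hr | hr) | hr
  · exact List.all_eq_true.1 tkC_0 r hr
  · exact List.all_eq_true.1 tkC_1 r hr
  · exact List.all_eq_true.1 tkC_2 r hr

theorem hcC : ∀ z, CC.cen z = true → ev g (CC.wd z) = 1 := by
  intro z hz
  refine tr1 ?_
  cases z <;> first | (exact absurd hz (by decide)) | decide +kernel

theorem lvC {Γ : Type} [Group Γ] [Finite Γ] {σ : Γ →* G} {f : X → Γ} (h : Lifts σ 9 nn g f) (hi : Inj g f TC) :
    Nat.card (Kl f SC) ≤ 42 * Nat.card (Kl f TC) := by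
  have hh : CC.Holds f := holdsF (Ss := [TC]) h (by intro S hS; simp only [List.mem_singleton] at hS; subst hS; exact hi) rfl (by decide) rfl (by decide +kernel) htC hcC
  obtain ⟨hinv, hrel⟩ := CP.relOK hh (inv := H64.TCMCC.inv) (mm := H64.TCMCC.mm) (ex := H64.TCMCC.extra) (by intro x; cases x <;> decide +kernel)
    (by intro x y; cases x <;> cases y <;> decide +kernel) (by decide +kernel)
  exact level (subs := H64.TCMCC.subs) (fun H hH => H64.TCMCC.main hinv hrel.1 hrel.2 hH) (by decide +kernel) (by
    intro x hx
    fin_cases x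
    · exact ⟨.p, rfl⟩
    · exact ⟨.q, rfl⟩
    · exact ⟨.r, rfl⟩
    · exact ⟨.s, rfl⟩
    · exact absurd hx (by decide)
    · exact ⟨.d, rfl⟩)

theorem lvdC {P' : Type} [Group P'] [Finite P'] {f : X → P'} (hiv : ∀ x, CC.iv x = true → f x * f x = 1)
    (ht : ∀ r ∈ rulesC, ev f (r.word nn) = 1) :
    Nat.card (Kl f SC) ≤ 42 * Nat.card (Kl f TC) := by
  have hh : CC.Holds f := holdsDF (rules := rulesC) (n := nn) hiv rfl ht (fun z hz => absurd hz (by cases z <;> decide)) (fun z hz => absurd hz (by cases z <;> decide))
  obtain ⟨hinv, hrel⟩ := CP.relOK hh (inv := H64.TCMCC.inv) (mm := H64.TCMCC.mm) (ex := H64.TCMCC.extra) (by intro x; cases x <;> decide +kernel)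
    (by intro x y; cases x <;> cases y <;> decide +kernel) (by decide +kernel)
  exact level (subs := H64.TCMCC.subs) (fun H hH => H64.TCMCC.main hinv hrel.1 hrel.2 hH) (by decide +kernel) (by
    intro x hx
    fin_cases x
    · exact ⟨.p, rfl⟩
    · exact ⟨.q, rfl⟩
    · exact ⟨.r, rfl⟩
    · exact ⟨.s, rfl⟩
    · exact absurd hx (by decide)
    · exact ⟨.d, rfl⟩)

/-- letters of level D -/
def SD : X → Bool := ![true, true, false, false, false, false]

/-- lower letters of level D -/
def TD : X → Bool := ![false, true, false, false, false, false]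

def wdD : H64.TCMCD.Lt → W X
  | .p => [(0, true)]
  | .pi => [(0, false)]
  | .q => [(1, true)]
  | .qi => [(1, false)]
  | .z => [(0, true), (1, false), (1, false), (0, true), (1, false), (1, false), (0, true), (1, false), (1, false)]
  | .zi => [(1, true), (1, true), (0, false), (1, true), (1, true), (0, false), (1, true), (1, true), (0, false)]
  | .y => [(0, true), (1, true), (0, false), (1, false), (1, false), (0, false), (1, true), (0, true), (1, false), (1, false)]
  | .yi => [(1, true), (1, true), (0, false), (1, false), (0, true), (1, true), (1, true), (0, true), (1, false), (0, false)]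

def rulesD_0 : List (Rule X) := [
  .conj [(1, true), (0, false), (0, false), (1, false)] [(0, true)] [(0, false)] 4,
  .conj [(1, true), (0, true), (1, false), (0, true), (1, true)] [(0, false)] [(0, false)] 4,
  .conj [(0, true), (1, true), (0, true), (1, true), (0, false), (1, true), (1, true), (0, true)] [(1, true)] [(1, false)] 5]

def rulesD : List (Rule X) := rulesD_0

def cenD : H64.TCMCD.Lt → Bool
  | .z => true
  | .zi => true
  | .y => true
  | .yi => true
  | _ => false

def CD : CP X H64.TCMCD.Lt where
  iv := fun x => decide (nn x = 2)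
  wd := wdD
  cen := cenD
  q := 9
  exact := rulesD.map fun r => nrm (fun x => decide (nn x = 2)) (red (fun x => decide (nn x = 2)) (r.word nn))

theorem tkD_0 : (rulesD_0.all (Rule.chk nn ck)) = true := by decide +kernel

theorem htD : ∀ r ∈ rulesD, ∀ w ∈ r.needs nn, ev g w = 1 := by
  intro r hr
  exact Rule.needs_of_chk tr (List.all_eq_true.1 tkD_0 r hr)

theorem hcD : ∀ z, CD.cen z = true → ev g (CD.wd z) = 1 := by
  intro z hz
  refine tr1 ?_
  cases z <;> first | (exact absurd hz (by decide)) | decide +kernel

theorem lvD {Γ : Type} [Group Γ] [Finite Γ] {σ : Γ →* G} {f : X → Γ} (h : Lifts σ 9 nn g f) (hi : Inj g f TD) :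
    Nat.card (Kl f SD) ≤ 192 * Nat.card (Kl f TD) := by
  have hh : CD.Holds f := holdsF (Ss := [TD]) h (by intro S hS; simp only [List.mem_singleton] at hS; subst hS; exact hi) rfl (by decide) rfl (by decide +kernel) htD hcD
  obtain ⟨hinv, hrel⟩ := CP.relOK hh (inv := H64.TCMCD.inv) (mm := H64.TCMCD.mm) (ex := H64.TCMCD.extra) (by intro x; cases x <;> decide +kernel)
    (by intro x y; cases x <;> cases y <;> decide +kernel) (by decide +kernel)
  exact level (subs := H64.TCMCD.subs) (fun H hH => H64.TCMCD.main hinv hrel.1 hrel.2 hH) (by decide +kernel) (by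
    intro x hx
    fin_cases x
    · exact ⟨.p, rfl⟩
    · exact ⟨.q, rfl⟩
    · exact absurd hx (by decide)
    · exact absurd hx (by decide)
    · exact absurd hx (by decide)
    · exact absurd hx (by decide))

theorem lvdD {P' : Type} [Group P'] [Finite P'] {f : X → P'} (hiv : ∀ x, CD.iv x = true → f x * f x = 1)
    (ht : ∀ r ∈ rulesD, ev f (r.word nn) = 1)
    (hcen : ∀ z, CD.cen z = true → ∀ y : P', ev f (CD.wd z) * y = y * ev f (CD.wd z))
    (hpow : ∀ z, CD.cen z = true → ev f (CD.wd z) ^ CD.q = 1) :
    Nat.card (Kl f SD) ≤ 192 * Nat.card (Kl f TD) := by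
  have hh : CD.Holds f := holdsDF (rules := rulesD) (n := nn) hiv rfl ht hcen hpow
  obtain ⟨hinv, hrel⟩ := CP.relOK hh (inv := H64.TCMCD.inv) (mm := H64.TCMCD.mm) (ex := H64.TCMCD.extra) (by intro x; cases x <;> decide +kernel)
    (by intro x y; cases x <;> cases y <;> decide +kernel) (by decide +kernel)
  exact level (subs := H64.TCMCD.subs) (fun H hH => H64.TCMCD.main hinv hrel.1 hrel.2 hH) (by decide +kernel) (by
    intro x hx
    fin_cases x
    · exact ⟨.p, rfl⟩
    · exact ⟨.q, rfl⟩
    · exact absurd hx (by decide)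
    · exact absurd hx (by decide)
    · exact absurd hx (by decide)
    · exact absurd hx (by decide))

def wdE : H64.TCMCE.Lt → W X
  | .p => [(0, true)]
  | .pi => [(0, false)]
  | .q => [(1, true)]
  | .qi => [(1, false)]
  | .r => [(2, true)]
  | .ri => [(2, false)]
  | .s => [(3, true)]
  | .si => [(3, false)]
  | .u => [(4, true)]

def rulesE : List (Rule X) := rulesB ++ [.low [(0, true), (3, false), (4, true), (1, true), (2, false), (4, true), (1, true), (3, false), (2, false), (4, true)]]
def CE : CP X H64.TCMCE.Lt where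
  iv := fun x => decide (nn x = 2)
  wd := wdE
  cen := fun _ => false
  q := 9
  exact := rulesE.map fun r => nrm (fun x => decide (nn x = 2)) (red (fun x => decide (nn x = 2)) (r.word nn))

theorem lvdE {P' : Type} [Group P'] [Finite P'] {f : X → P'} (hiv : ∀ x, CE.iv x = true → f x * f x = 1)
    (ht : ∀ r ∈ rulesE, ev f (r.word nn) = 1) :
    Nat.card (Kl f SB) ≤ 162 * Nat.card (Kl f TB) := by
  have hh : CE.Holds f := holdsDF (rules := rulesE) (n := nn) hiv rfl ht (fun z hz => absurd (show false = true from hz) (by decide)) (fun z hz => absurd (show false = true from hz) (by decide))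
  obtain ⟨hinv, hrel⟩ := CP.relOK hh (inv := H64.TCMCE.inv) (mm := H64.TCMCE.mm) (ex := H64.TCMCE.extra) (by intro x; cases x <;> decide +kernel)
    (by intro x y; cases x <;> cases y <;> decide +kernel) (by decide +kernel)
  exact level (subs := H64.TCMCE.subs) (fun H hH => H64.TCMCE.main hinv hrel.1 hrel.2 hH) (by decide +kernel) (by
    intro x hx
    fin_cases x
    · exact ⟨.p, rfl⟩
    · exact ⟨.q, rfl⟩
    · exact ⟨.r, rfl⟩
    · exact ⟨.s, rfl⟩
    · exact ⟨.u, rfl⟩
    · exact absurd hx (by decide))
theorem htE : ∀ r ∈ rulesE, ev g (r.word nn) = 1 := by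
  have h : (rulesE.all fun r => ck (r.word nn) 1) = true := by decide +kernel
  intro r hr
  exact tr1 (List.all_eq_true.1 h r hr)


theorem card_top : Nat.card (Kl g SA) = 898128000 := by
  rw [gen, Nat.card_congr (Subgroup.topEquiv (G := G)).toEquiv, card_G]
theorem hn : ∀ x, Nat.Coprime (nn x) 9 := by decide

/-- the letters of `TB` fix the point 0, `d` does not -/
theorem fix0 : ∀ x, TB x = true → ψ (g x) 0 = 0 := by
  intro x hx
  rw [ψ_g]
  apply Fin.ext
  rw [show ((sg x) 0 : Fin 275).val = tab 12 (MCG.code x) 0 from rep_s x 0]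
  fin_cases x <;> first | (exact absurd hx (by decide)) | decide +kernel
theorem mov0 : ψ (g 5) 0 ≠ 0 := by
  rw [ψ_g]
  intro h
  have h1 := rep_s 5 0
  change ((sg 5) 0 : Fin 275).val = tab 12 (MCG.code 5) 0 at h1
  rw [h] at h1
  exact absurd h1 (by decide +kernel)
theorem not_mem : g 5 ∉ Kl g TB := by
  intro h
  have h1 : Kl g TB ≤ (MulAction.stabilizer (Equiv.Perm (Fin 275)) (0 : Fin 275)).comap ψ := by
    rw [Kl, closure_le]
    rintro _ ⟨x, hx, rfl⟩
    exact fix0 x hx
  exact mov0 (h1 h)
theorem half {Γ : Type} [Group Γ] [Finite Γ] (σ : Γ →* G) (f : X → Γ) (h : ∀ x, σ (f x) = g x) :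
    2 * Nat.card (Kl f TB) ≤ Nat.card (Kl f K2) := by
  have hle : Kl f TB ≤ Kl f K2 := by
    rw [Kl, closure_le]
    rintro _ ⟨x, hx, rfl⟩
    refine mem_Kl ?_
    revert hx
    revert x
    decide
  have hne : Nat.card (Kl f TB) ≠ Nat.card (Kl f K2) := by
    intro he
    have h1 : Kl f TB = Kl f K2 := Subgroup.eq_of_le_of_card_ge hle he.ge
    have h2 : f 5 ∈ Kl f TB := by rw [h1]; exact mem_Kl (by decide)
    apply not_mem
    have h3 : σ (f 5) ∈ (Kl f TB).map σ := ⟨f 5, h2, rfl⟩
    rw [map_Kl, h] at h3
    have h4 : (fun x => σ (f x)) = g := funext h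
    rwa [h4] at h3
  obtain ⟨k, hk⟩ := Subgroup.card_dvd_of_le hle
  have hp : 0 < Nat.card (Kl f K2) := Nat.card_pos
  have hp' : 0 < Nat.card (Kl f TB) := Nat.card_pos
  rcases Nat.lt_or_ge k 2 with h1 | h1
  · interval_cases k
    · omega
    · omega
  · rw [hk, mul_comm]
    exact Nat.mul_le_mul_left _ h1

theorem bound (Γ : Type) [Group Γ] [Finite Γ] (σ : Γ →* G) (f : X → Γ) (h : Lifts σ 9 nn g f) :
    Nat.card (Kl f SA) ≤ 2694384000 := by
  have eA : Kl f TA = Kl f SB := by congr 1
  have eA' : Kl g TA = Kl g SB := by congr 1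
  have eC : Kl f TC = Kl f SD := by congr 1
  have eC' : Kl g TC = Kl g SD := by congr 1
  have e2 : Kl f SC = Kl f K2 := by congr 1
  have e2' : Kl g SC = Kl g K2 := by congr 1
  have hs : Lifts (MonoidHom.id G) 9 nn g g := Lifts.self hord
  -- sizes in the group
  have g0 := lvA hs (Inj.self K2)
  rw [card_top, eA'] at g0
  have g1 := lvdE (f := g) (fun x hx => by
    have h1 := hord x
    rw [of_decide_eq_true hx, pow_two] at h1
    exact h1) htE
  have g2 := half (MonoidHom.id G) g (fun _ => rfl)
  have g3 := lvC hs (Inj.self TC)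
  rw [e2', eC'] at g3
  have g4 := lvD hs (Inj.self TD)
  have c1' : Nat.card (Kl g TD) ≤ 5 := card_Kl_one (x0 := 1) (by decide) (by norm_num) (hord 1)
  -- the extension
  have c1 : Nat.card (Kl f TD) ≤ 5 := card_Kl_one (x0 := 1) (by decide) (by norm_num) (h.ord 1)
  have f4 := lvD h (h.inj_one' (x0 := 1) (by decide) (by decide))
  have i4 : Inj g f TC := h.inj (by rw [eC, eC']; omega)
  have f3 := lvC h i4
  rw [e2, eC] at f3
  have i3 : Inj g f K2 := h.inj (by omega)
  have f2 := half σ f h.lift
  have i2 : Inj g f TB := h.inj (by omega)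
  have f1 := lvB h i2
  have f0 := lvA h i3
  rw [eA] at f0
  omega
theorem noExt9 : NoExt G 9 := noExt_of_bound (q := 9) (by norm_num) hord hn gen bound (by rw [card_G]; norm_num)
theorem perf : commutator G = ⊤ := by
  have := H64.MCG.simple_G
  apply H9.Mult.perfect_of_simple
  rw [card_G]
  norm_num
end H64.MCM
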