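import Mathlib
import Cfsg.Agent.Lib.H64.MCM
import Cfsg.Agent.Lib.H64.NXMC
import Cfsg.Agent.Lib.H35.StemFS

set_option autoImplicit false
set_option maxRecDepth 100000
set_option linter.all false
set_option Elab.async false

/-! The threefold cover of the McLaughlin group. -/

namespace H64.MCM
open Subgroup H35.Stem H35.TC H35.Net H40.PermCode
open H63.McL (G ψ ψ_inj card_G fin)
open H64.MCG (X nn g ck tr tr1 hord gen SA)

theorem exp : ∃ p : X → FS 17, LetNet 17 (FS 17).subtype p NXMC.netX := exists_letNet NXMC.bpx NXMC.invx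
noncomputable def pp : X → FS 17 := exp.choose
theorem lnp : LetNet 17 (FS 17).subtype pp NXMC.netX := exp.choose_spec
noncomputable def ckp (w : W X) (m : ℕ) : Bool := chkW NXMC.netX 17 w m 0 17
theorem trp (w : W X) (m : ℕ) (h : ckp w m = true) : (ev pp w) ^ m = 1 := lnp.pow_one (FS 17).subtype_injective h
theorem pord (x : X) : pp x ^ nn x = 1 := by
  have h : ∀ x, ckp [(x, true)] (nn x) = true := by intro x; fin_cases x <;> decide +kernel
  have h1 := trp _ _ (h x)
  change (pp x * 1) ^ nn x = 1 at h1
  rwa [mul_one] at h1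
theorem pt2 {w : W X} (h : (ck w 1 && ckp w 1) = true) : ev (pr pp g) w = 1 := by
  rw [Bool.and_eq_true] at h
  rw [ev_pr, tr1 h.1, show ev pp w = 1 by simpa using trp w 1 h.2]
  rfl
def zw : W X := [(0, true), (3, false), (4, true), (1, true), (2, false), (4, true), (1, true), (3, false), (2, false), (4, true)]
theorem zw_order : orderOf (ev pp zw) = 3 := by
  have h := orderOf_eq_prime_pow (x := ev pp zw) (p := 3) (n := 0) ?_ ?_
  · simpa using h
  · rw [pow_zero, pow_one]
    exact lnp.ne_one (V := 1) (by decide +kernel)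
  · rw [show (3 : ℕ) ^ (0 + 1) = 3 by norm_num]
    exact trp zw 3 (by decide +kernel)
theorem zw_comm (x : X) : pp x * ev pp zw = ev pp zw * pp x :=
  lnp.comm (FS 17).subtype_injective (by fin_cases x <;> decide +kernel)

set_option maxHeartbeats 0 in
theorem tdA_0 : (rulesA_0.all fun r => ck (r.word nn) 1 && ckp (r.word nn) 1) = true := by decide +kernel

set_option maxHeartbeats 0 in
theorem tdA_1 : (rulesA_1.all fun r => ck (r.word nn) 1 && ckp (r.word nn) 1) = true := by decide +kernel

set_option maxHeartbeats 0 in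
theorem tdA_2 : (rulesA_2.all fun r => ck (r.word nn) 1 && ckp (r.word nn) 1) = true := by decide +kernel

theorem htdA : ∀ r ∈ rulesA, ev (pr pp g) (r.word nn) = 1 := by
  intro r hr
  apply pt2
  simp only [rulesA, List.mem_append] at hr
  rcases hr with (hr | hr) | hr
  · exact List.all_eq_true.1 tdA_0 r hr
  · exact List.all_eq_true.1 tdA_1 r hr
  · exact List.all_eq_true.1 tdA_2 r hr

set_option maxHeartbeats 0 in
theorem tdB_0 : (rulesB_0.all fun r => ck (r.word nn) 1 && ckp (r.word nn) 1) = true := by decide +kernel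

set_option maxHeartbeats 0 in
theorem tdB_1 : (rulesB_1.all fun r => ck (r.word nn) 1 && ckp (r.word nn) 1) = true := by decide +kernel

set_option maxHeartbeats 0 in
theorem tdB_2 : (rulesB_2.all fun r => ck (r.word nn) 1 && ckp (r.word nn) 1) = true := by decide +kernel

theorem htdB : ∀ r ∈ rulesB, ev (pr pp g) (r.word nn) = 1 := by
  intro r hr
  apply pt2
  simp only [rulesB, List.mem_append] at hr
  rcases hr with (hr | hr) | hr
  · exact List.all_eq_true.1 tdB_0 r hr
  · exact List.all_eq_true.1 tdB_1 r hr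
  · exact List.all_eq_true.1 tdB_2 r hr

set_option maxHeartbeats 0 in
theorem tdC_0 : (rulesC_0.all fun r => ck (r.word nn) 1 && ckp (r.word nn) 1) = true := by decide +kernel

set_option maxHeartbeats 0 in
theorem tdC_1 : (rulesC_1.all fun r => ck (r.word nn) 1 && ckp (r.word nn) 1) = true := by decide +kernel

set_option maxHeartbeats 0 in
theorem tdC_2 : (rulesC_2.all fun r => ck (r.word nn) 1 && ckp (r.word nn) 1) = true := by decide +kernel

theorem htdC : ∀ r ∈ rulesC, ev (pr pp g) (r.word nn) = 1 := by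
  intro r hr
  apply pt2
  simp only [rulesC, List.mem_append] at hr
  rcases hr with (hr | hr) | hr
  · exact List.all_eq_true.1 tdC_0 r hr
  · exact List.all_eq_true.1 tdC_1 r hr
  · exact List.all_eq_true.1 tdC_2 r hr

set_option maxHeartbeats 0 in
theorem tdD_0 : (rulesD_0.all fun r => ck (r.word nn) 1 && ckp (r.word nn) 1) = true := by decide +kernel

theorem htdD : ∀ r ∈ rulesD, ev (pr pp g) (r.word nn) = 1 := by
  intro r hr
  exact pt2 (List.all_eq_true.1 tdD_0 r hr)


theorem hcD1 : ∀ z, CD.cen z = true → ev (pr pp g) (CD.wd z) = 1 := by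
  intro z hz
  refine pt2 ?_
  cases z <;> first | (exact absurd hz (by decide)) | decide +kernel
theorem card_E : Nat.card (EE pp g SA) ≤ 3 * Nat.card G := by
  have hiv : ∀ x : X, decide (nn x = 2) = true → pr pp g x * pr pp g x = 1 := by
    intro x hx
    have h1 := pord x
    have h2 := hord x
    rw [of_decide_eq_true hx, pow_two] at h1 h2
    exact Prod.ext h1 h2
  have eA : Kl (pr pp g) TA = Kl (pr pp g) SB := by congr 1
  have eC : Kl (pr pp g) TC = Kl (pr pp g) SD := by congr 1
  have e2 : Kl (pr pp g) SC = Kl (pr pp g) K2 := by congr 1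
  have f0 := lvdA (f := pr pp g) hiv htdA
  have f1 := lvdB (f := pr pp g) hiv htdB
  have f2 := half (MonoidHom.snd (FS 17) G) (pr pp g) (fun _ => rfl)
  have f3 := lvdC (f := pr pp g) hiv htdC
  have f4 := lvdD (f := pr pp g) hiv htdD
    (fun z hz y => by rw [hcD1 z hz, one_mul, mul_one]) (fun z hz => by rw [hcD1 z hz, one_pow])
  rw [eA] at f0
  rw [e2, eC] at f3
  have c1 : Nat.card (Kl (pr pp g) TD) ≤ 5 := card_Kl_one (x0 := 1) (by decide) (by norm_num) (by
    apply Prod.ext
    · exact pord 1
    · exact hord 1)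
  rw [card_G]
  change Nat.card (Kl (pr pp g) SA) ≤ _
  omega
theorem ex3 : ∃ (Γ : Type) (_ : Group Γ) (_ : Finite Γ) (σ : Γ →* G), Cfsg.IsStemExtension σ ∧
      Nonempty (σ.ker ≃* Multiplicative (ZMod 3)) :=
  exists_cover (p := pp) (g := g) (S := SA) (n := nn) (by norm_num) gen perf card_E zw (by decide)
    (tr1 (by decide +kernel)) zw_order (fun x _ => zw_comm x) (fun x _ => pord x) (fun x _ => hord x) (fun x _ => by fin_cases x <;> decide)
end H64.MCM
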