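import Cfsg.Agent.Lib.H9.MultE

set_option autoImplicit false

/-! A criterion for a Sylow subgroup of order `p ^ 3` and an involution inverting it modulo its centre. -/

namespace H64.MCM

open Cfsg Subgroup H9.Mult

universe u v

variable {Γ : Type v} [Group Γ] [Finite Γ] {G : Type u} [Group G] {σ : Γ →* G}

theorem conj_sup_mem {N : Subgroup Γ} {r s : Γ} (hN : ∀ x ∈ N, s * x * s⁻¹ ∈ N ⊔ zpowers r)
    (hr : s * r * s⁻¹ ∈ N ⊔ zpowers r) : ∀ x ∈ N ⊔ zpowers r, s * x * s⁻¹ ∈ N ⊔ zpowers r := by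
  have h : N ⊔ zpowers r ≤ (N ⊔ zpowers r).comap (MulAut.conj s).toMonoidHom :=
    sup_le hN (by rw [zpowers_le]; exact hr)
  exact fun x hx => h hx

theorem lift_pow (hσ : Cfsg.IsStemExtension σ) {p : ℕ} (hp : p.Prime) (hp2 : p ≠ 2) (hc : Nat.card σ.ker = p) {H X : Γ}
    (h1 : σ H * σ X * (σ H)⁻¹ = (σ X)⁻¹) (h2 : (σ X) ^ p = 1) : X ^ p = 1 := by
  obtain ⟨z, hz, h3⟩ := lift_eq (σ := σ) (x := H * X * H⁻¹) (y := X⁻¹) (by rw [map_mul, map_mul, map_inv, map_inv, h1])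
  have h4 : σ (X ^ p) = 1 := by rw [map_pow, h2]
  apply eq_one_of_sq hp hp2 hc h4
  have h5 : (H * X * H⁻¹) ^ p = H * X ^ p * H⁻¹ := conj_pow
  rw [h3, comm_ker hσ h4 H, mul_inv_cancel_right] at h5
  have h6 : Commute X⁻¹ z := comm_ker hσ hz X⁻¹
  rw [h6.mul_pow, ker_pow hc hz, mul_one, inv_pow] at h5
  calc X ^ p * X ^ p = (X ^ p)⁻¹ * X ^ p := by rw [h5]
    _ = 1 := inv_mul_cancel _

theorem noStem_es [Finite G] {p : ℕ} (hp : p.Prime) (hp2 : p ≠ 2) (a b c h : G) (hab : a * b = b * a)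
    (hac : a * c = c * a) (ha : h * a * h⁻¹ = a) (hb : h * b * h⁻¹ = b⁻¹) (hh : h * c * h⁻¹ = c⁻¹)
    (hap : a ^ p = 1) (ha1 : a ≠ 1) (hbp : b ^ p = 1) (hba : ∀ i < p, b ≠ a ^ i) (hcp : c ^ p = 1)
    (hcb : c * b * c⁻¹ = a * b) (hG : ¬ p * p * p * p ∣ Nat.card G) : NoStem.{u, v} G p := by
  intro Γ _ _ σ hσ hc
  have h1 := comm_pre hσ hp hp2 hc a b h hab ha hb
  have h2 := comm_pre hσ hp hp2 hc a c h hac ha hh
  have hAc : ∀ x ∈ closure {a, b}, ∀ y ∈ closure {a, b}, x * y = y * x := by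
    intro x hx y hy
    obtain ⟨X, rfl⟩ := hσ.1 x
    obtain ⟨Y, rfl⟩ := hσ.1 y
    rw [← map_mul, ← map_mul, h1 X Y hx hy]
  have haA : a ∈ closure {a, b} := subset_closure (by simp)
  have hbA : b ∈ closure {a, b} := subset_closure (by simp)
  have hcA : c ∉ closure {a, b} := by
    intro h1
    have h2 := hAc c h1 b hbA
    rw [mul_inv_eq_iff_eq_mul, h2] at hcb
    have h3 : b * c = (a * b) * c := hcb
    have h4 := mul_right_cancel h3
    exact ha1 (mul_eq_right.mp h4.symm)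
  obtain ⟨B, rfl⟩ := hσ.1 b
  obtain ⟨C, rfl⟩ := hσ.1 c
  obtain ⟨H, rfl⟩ := hσ.1 h
  have hBp : B ^ p = 1 := lift_pow hσ hp hp2 hc hb hbp
  have hCp : C ^ p = 1 := lift_pow hσ hp hp2 hc hh hcp
  set A := C * B * C⁻¹ * B⁻¹ with hA
  have hsA : σ A = a := by
    rw [hA, map_mul, map_mul, map_mul, map_inv, map_inv, hcb, mul_inv_cancel_right]
  have hAB : A * B = B * A := h1 A B (by rw [hsA]; exact haA) hbA
  have hAC : A * C = C * A := h2 A C (by rw [hsA]; exact subset_closure (by simp)) (subset_closure (by simp))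
  have hCB : C * B * C⁻¹ = A * B := by rw [hA, inv_mul_cancel_right]
  have hAp : A ^ p = 1 := by
    have h3 : (C * B * C⁻¹) ^ p = C * B ^ p * C⁻¹ := conj_pow
    rw [hCB, (show Commute A B from hAB).mul_pow, hBp, mul_one, mul_one, mul_inv_cancel] at h3
    exact h3
  -- first step
  have s0 : Split σ (⊥ : Subgroup Γ) := fun x hx _ => by rwa [mem_bot] at hx
  obtain ⟨s1, c1⟩ := split_step hp s0 (r := A) (by
    intro x hx
    rw [mem_bot] at hx ⊢
    rw [hx]; group) (by rw [hAp]; exact one_mem _) (by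
    intro x hx h3
    rw [mem_bot] at hx
    rw [hx, map_one, hsA] at h3
    exact ha1 h3)
  set N1 : Subgroup Γ := ⊥ ⊔ zpowers A with hN1
  have hA1 : A ∈ N1 := mem_sup_right (mem_zpowers A)
  have m1 : N1.map σ ≤ zpowers a := by
    rw [hN1, Subgroup.map_sup, Subgroup.map_bot, bot_sup_eq, MonoidHom.map_zpowers, hsA]
  obtain ⟨s2, c2⟩ := split_step hp s1 (r := B) (by
    refine conj_sup_mem (fun x hx => ?_) ?_
    · rw [mem_bot] at hx
      rw [hx, mul_one, mul_inv_cancel]; exact one_mem _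
    · rw [← hAB, mul_inv_cancel_right]; exact hA1) (by rw [hBp]; exact one_mem _) (by
    intro x hx h3
    obtain ⟨i, hi⟩ := mem_zpowers_iff.1 (m1 ⟨x, hx, rfl⟩)
    have h3' : a ^ i = a ^ (i % (p : ℤ)).toNat := by
      have h4 : i = (p : ℤ) * (i / p) + i % p := (Int.mul_ediv_add_emod i p).symm
      have h5 : 0 ≤ i % (p : ℤ) := Int.emod_nonneg _ (by exact_mod_cast hp.ne_zero)
      conv_lhs => rw [h4, zpow_add, zpow_mul, zpow_natCast, hap, one_zpow, one_mul]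
      rw [← zpow_natCast, Int.toNat_of_nonneg h5]
    refine hba (i % (p : ℤ)).toNat ?_ ?_
    · have h5 : 0 ≤ i % (p : ℤ) := Int.emod_nonneg _ (by exact_mod_cast hp.ne_zero)
      have h6 : i % (p : ℤ) < p := Int.emod_lt_of_pos _ (by exact_mod_cast hp.pos)
      omega
    · rw [h3, ← hi, h3'])
  set N2 : Subgroup Γ := N1 ⊔ zpowers B with hN2
  have hA2 : A ∈ N2 := mem_sup_left hA1
  have hB2 : B ∈ N2 := mem_sup_right (mem_zpowers B)
  have m2 : N2.map σ ≤ closure {a, σ B} := by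
    rw [hN2, Subgroup.map_sup, MonoidHom.map_zpowers]
    refine sup_le (m1.trans ?_) ?_
    · rw [zpowers_le]; exact haA
    · rw [zpowers_le]; exact hbA
  have n1 : ∀ x ∈ N1, C * x * C⁻¹ ∈ N1 := by
    refine conj_sup_mem (fun x hx => ?_) ?_
    · rw [mem_bot] at hx
      rw [hx, mul_one, mul_inv_cancel]; exact one_mem _
    · rw [← hAC, mul_inv_cancel_right]; exact hA1
  obtain ⟨s3, c3⟩ := split_step hp s2 (r := C) (by
    refine conj_sup_mem (fun x hx => mem_sup_left (n1 x hx)) ?_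
    rw [hCB]
    exact mul_mem hA2 hB2) (by rw [hCp]; exact one_mem _) (by
    intro x hx h3
    apply hcA
    rw [h3]
    exact m2 ⟨x, hx, rfl⟩)
  refine false_of_split hσ hp hc s3 (n := p * p * p) ?_ hG
  refine dvd_trans (Nat.mul_dvd_mul_right ?_ p) c3
  refine dvd_trans (Nat.mul_dvd_mul_right ?_ p) c2
  refine dvd_trans ?_ c1
  exact Dvd.intro_left _ rfl

end H64.MCM
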