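import Mathlib
import Cfsg.Agent.Lib.H64.MCC
import Cfsg.Agent.Lib.H64.MCP5
import Cfsg.Agent.Lib.H9.McLP2
import Cfsg.Agent.Lib.H9.MultD
import Cfsg.Agent.Lib.H40.StemFinish

set_option autoImplicit false
set_option maxRecDepth 100000
set_option linter.all false

/-! The Schur multiplier of the McLaughlin group. -/

namespace H64.MCM
open Subgroup H35.Stem H35.TC H35.Net H40.PermCode H9.Mult
open H63.McL (G ψ ψ_inj card_G fin)
open H64.MCG (X nn g ck tr tr1 ne1 hord gen SA)

theorem rel {u v : W X} (h : ck (u ++ winv v) 1 = true) : ev g u = ev g v := by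
  have h1 := tr1 h
  rw [ev_append, ev_winv] at h1
  exact mul_inv_eq_one.1 h1
theorem mulw (u v : W X) : ev g u * ev g v = ev g (u ++ v) := (ev_append _ _ _).symm
theorem invw (u : W X) : (ev g u)⁻¹ = ev g (winv u) := (ev_winv _ _).symm
theorem poww (u : W X) (k : ℕ) : (ev g u) ^ k = ev g (rep u k) := (ev_rep _ _ _).symm
theorem onew : (1 : G) = ev g [] := rfl
theorem new {u v : W X} (h : ck (u ++ winv v) 1 = false) : ev g u ≠ ev g v := by
  intro h1
  apply ne1 h
  rw [ev_append, ev_winv, h1, mul_inv_cancel]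

def w5a : W X := [(0, false), (2, true), (0, false), (2, true), (5, true), (4, true), (1, false), (2, true), (1, false), (3, false), (4, true), (3, true), (1, false), (4, true), (5, true), (2, false), (0, true), (2, false), (0, true), (1, true), (3, false), (4, true), (3, true), (1, true), (2, false), (1, true)]
def w5b : W X := [(1, false), (2, true), (1, false), (3, false), (4, true), (3, true), (1, false)]
def w5c : W X := [(0, false), (2, true), (0, false), (2, true), (5, true), (4, true)]
def w5h : W X := [(4, true)]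

theorem noStem5 : NoStem.{0, 0} G 5 := by
  refine noStem_es (p := 5) (by norm_num) (by norm_num) (ev g w5a) (ev g w5b) (ev g w5c) (ev g w5h)
    ?_ ?_ ?_ ?_ ?_ ?_ ?_ ?_ ?_ ?_ ?_ ?_
  · rw [mulw, mulw]; exact rel (by decide +kernel)
  · rw [mulw, mulw]; exact rel (by decide +kernel)
  · rw [invw, mulw, mulw]; exact rel (by decide +kernel)
  · rw [invw, invw, mulw, mulw]; exact rel (by decide +kernel)
  · rw [invw, invw, mulw, mulw]; exact rel (by decide +kernel)
  · rw [poww, onew]; exact rel (by decide +kernel)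
  · rw [onew]; exact new (by decide +kernel)
  · rw [poww, onew]; exact rel (by decide +kernel)
  · intro i hi
    rw [poww]
    interval_cases i <;> exact new (by decide +kernel)
  · rw [poww, onew]; exact rel (by decide +kernel)
  · rw [invw, mulw, mulw, mulw]; exact rel (by decide +kernel)
  · rw [card_G]; norm_num

/-- the stabiliser as a subgroup of the permutations -/
def toMcL : H9.CoMat.GM ≃* G where
  toFun g := ⟨(g.1.1 : Equiv.Perm Cfsg.leechLattice), ⟨⟨g.1.1.2, g.2⟩, g.1.2⟩⟩
  invFun g := ⟨⟨⟨g.1, g.2.1.1⟩, g.2.2⟩, g.2.1.2⟩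
  left_inv _ := rfl
  right_inv _ := rfl
  map_mul' _ _ := rfl

theorem noStem2 : NoStem.{0, 0} G 2 := (H9.CoMat.M2.noStem2).congr toMcL

theorem multG : Cfsg.HasCyclicSchurMultiplier G 3 := by
  refine hasCyclic_list (by norm_num) ex3 [(2, 7), (3, 6), (5, 3), (7, 1), (11, 1)] (by decide +kernel) (by rw [card_G]; norm_num) ?_
  intro a ha
  fin_cases ha
  · exact Or.inl (fun Γ _ _ σ hσ hc => noStem2 Γ σ hσ hc)
  · exact Or.inr (Or.inr ⟨by simpa using noExt9, by decide +kernel⟩)
  · exact Or.inl (fun Γ _ _ σ hσ hc => noStem5 Γ σ hσ hc)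
  all_goals exact Or.inr (Or.inl (by rw [card_G]; norm_num))
end H64.MCM
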