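import Mathlib

/-!
# Two matrix lemmas for piece P11 of FRAMES (helper79, helper96)
-/

set_option autoImplicit false

namespace H64.P11M

open Matrix Polynomial

section conj

variable {F : Type*} [Field F] [Fintype F]

/-- `x ^ 2 - D * y ^ 2 = c` is solvable -/
theorem norm_solve (h2 : (2:F) ≠ 0) {D : F} (hD : D ≠ 0) (c : F) : ∃ x y : F, x ^ 2 - D * y ^ 2 = c := by
  have hodd : Fintype.card F % 2 = 1 := FiniteField.odd_card_of_char_ne_two (by
    intro h
    apply h2
    have := CharP.cast_eq_zero F (ringChar F)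
    rw [h] at this
    exact_mod_cast this)
  have hf : degree (X ^ 2 - C c : F[X]) = 2 := degree_X_pow_sub_C (by norm_num) c
  have hg : degree (C (-D) * X ^ 2 : F[X]) = 2 := by
    rw [degree_C_mul_X_pow 2 (neg_ne_zero.mpr hD)]; rfl
  obtain ⟨a, b, hab⟩ := FiniteField.exists_root_sum_quadratic hf hg hodd
  refine ⟨a, b, ?_⟩
  simp only [eval_sub, eval_pow, eval_X, eval_C, eval_mul] at hab
  linear_combination hab

/-- the quadratic form `r x ^ 2 - 2 p x y - q y ^ 2` takes the value `1` -/
theorem form_one (h2 : (2:F) ≠ 0) {p q r : F} (hD : p * p + q * r ≠ 0) :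
    ∃ x y : F, r * x ^ 2 - 2 * p * x * y - q * y ^ 2 = 1 := by
  by_cases hr : r = 0
  · by_cases hq : q = 0
    · subst hr; subst hq
      have hp : p ≠ 0 := by
        rintro rfl
        apply hD; ring
      refine ⟨1, -(1 / (2 * p)), ?_⟩
      field_simp
      ring
    · obtain ⟨u, x, hu⟩ := norm_solve h2 hD (-q)
      refine ⟨x, (u - p * x) / q, ?_⟩
      subst hr
      have h1 : q * ((u - p * x) / q) = u - p * x := by field_simp
      have h3 : q * (0 * x ^ 2 - 2 * p * x * ((u - p * x) / q) - q * ((u - p * x) / q) ^ 2) = q * 1 := by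
        have : q * (0 * x ^ 2 - 2 * p * x * ((u - p * x) / q) - q * ((u - p * x) / q) ^ 2)
            = - 2 * p * x * (q * ((u - p * x) / q)) - (q * ((u - p * x) / q)) ^ 2 := by ring
        rw [this, h1]
        linear_combination -hu
      exact mul_left_cancel₀ hq h3
  · obtain ⟨u, y, hu⟩ := norm_solve h2 hD r
    refine ⟨(u + p * y) / r, y, ?_⟩
    have h1 : r * ((u + p * y) / r) = u + p * y := by field_simp
    have h3 : r * (r * ((u + p * y) / r) ^ 2 - 2 * p * ((u + p * y) / r) * y - q * y ^ 2) = r * 1 := by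
      have : r * (r * ((u + p * y) / r) ^ 2 - 2 * p * ((u + p * y) / r) * y - q * y ^ 2)
          = (r * ((u + p * y) / r)) ^ 2 - 2 * p * y * (r * ((u + p * y) / r)) - r * q * y ^ 2 := by ring
      rw [this, h1]
      linear_combination hu
    exact mul_left_cancel₀ hr h3

/-- a trace zero matrix of determinant `d ≠ 0` is `SL2`-conjugate to a companion matrix -/
theorem exists_std (h2 : (2:F) ≠ 0) (A : Matrix (Fin 2) (Fin 2) F) (hA : A.trace = 0) {d : F}
    (hd : A.det = d) (h0 : d ≠ 0) :
    ∃ P : Matrix (Fin 2) (Fin 2) F, P.det = 1 ∧ A * P = P * !![0, -d; 1, 0] := by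
  have hs : A 1 1 = - A 0 0 := by
    rw [Matrix.trace_fin_two] at hA
    linear_combination hA
  rw [Matrix.det_fin_two, hs] at hd
  have hD : A 0 0 * A 0 0 + A 0 1 * A 1 0 ≠ 0 := by
    intro h
    apply h0
    rw [← hd]
    linear_combination -h
  obtain ⟨x, y, hxy⟩ := form_one h2 hD
  refine ⟨!![x, A 0 0 * x + A 0 1 * y; y, A 1 0 * x - A 0 0 * y], ?_, ?_⟩
  · rw [Matrix.det_fin_two]
    simp only [Matrix.of_apply, Matrix.cons_val', Matrix.cons_val_zero, Matrix.cons_val_one,
      Matrix.cons_val_fin_one]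
    linear_combination hxy
  · ext i j
    fin_cases i <;> fin_cases j <;>
      simp only [Matrix.mul_apply, Fin.sum_univ_two, Matrix.of_apply, Matrix.cons_val',
        Matrix.cons_val_zero, Matrix.cons_val_one, Matrix.cons_val_fin_one, Fin.zero_eta, Fin.mk_one,
        Fin.isValue, hs]
    · ring
    · linear_combination -x * hd
    · ring
    · linear_combination -y * hd

theorem conj_tr (h2 : (2:F) ≠ 0) (A B : Matrix (Fin 2) (Fin 2) F)
    (hA : A.trace = 0) (hB : B.trace = 0) (hd : A.det = B.det) (h0 : A.det ≠ 0) :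
    ∃ X : Matrix (Fin 2) (Fin 2) F, X.det = 1 ∧ X * A = B * X := by
  obtain ⟨P, hP, hAP⟩ := exists_std h2 A hA rfl h0
  obtain ⟨Q, hQ, hBQ⟩ := exists_std h2 B hB hd.symm h0
  have h1 : P * P.adjugate = 1 := by rw [Matrix.mul_adjugate, hP, one_smul]
  have h3 : P.adjugate * P = 1 := by rw [Matrix.adjugate_mul, hP, one_smul]
  refine ⟨Q * P.adjugate, ?_, ?_⟩
  · rw [Matrix.det_mul, Matrix.det_adjugate, hP, hQ]; simp
  · have h4 : P.adjugate * A = !![0, -A.det; 1, 0] * P.adjugate := by
      calc P.adjugate * A = P.adjugate * A * (P * P.adjugate) := by rw [h1, Matrix.mul_one]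
        _ = P.adjugate * (A * P) * P.adjugate := by simp only [Matrix.mul_assoc]
        _ = P.adjugate * (P * !![0, -A.det; 1, 0]) * P.adjugate := by rw [hAP]
        _ = (P.adjugate * P) * !![0, -A.det; 1, 0] * P.adjugate := by simp only [Matrix.mul_assoc]
        _ = !![0, -A.det; 1, 0] * P.adjugate := by rw [h3, Matrix.one_mul]
    calc Q * P.adjugate * A = Q * (P.adjugate * A) := by rw [Matrix.mul_assoc]
      _ = (Q * !![0, -A.det; 1, 0]) * P.adjugate := by rw [h4, Matrix.mul_assoc]
      _ = B * Q * P.adjugate := by rw [← hBQ]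
      _ = B * (Q * P.adjugate) := by rw [Matrix.mul_assoc]

end conj

section gen

variable {F : Type*} [Field F]

/-- upper transvection -/
def up (x : F) : GeneralLinearGroup (Fin 2) F :=
  ⟨!![1, x; 0, 1], !![1, -x; 0, 1], by ext i j; fin_cases i <;> fin_cases j <;> simp,
    by ext i j; fin_cases i <;> fin_cases j <;> simp⟩

/-- lower transvection -/
def lo (x : F) : GeneralLinearGroup (Fin 2) F :=
  ⟨!![1, 0; x, 1], !![1, 0; -x, 1], by ext i j; fin_cases i <;> fin_cases j <;> simp,
    by ext i j; fin_cases i <;> fin_cases j <;> simp⟩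

theorem up_mul (x y : F) : up x * up y = up (x + y) := by
  apply Units.ext
  ext i j; fin_cases i <;> fin_cases j <;> simp [up, add_comm]

theorem lo_mul (x y : F) : lo x * lo y = lo (x + y) := by
  apply Units.ext
  ext i j; fin_cases i <;> fin_cases j <;> simp [lo, add_comm]

theorem det_up (x : F) : (up x : Matrix (Fin 2) (Fin 2) F).det = 1 := by simp [up, Matrix.det_fin_two]

theorem det_lo (x : F) : (lo x : Matrix (Fin 2) (Fin 2) F).det = 1 := by simp [lo, Matrix.det_fin_two]

/-- a subgroup of `GL2` containing the transvections contains all matrices of determinant one -/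
theorem sl_gen (M : Subgroup (GeneralLinearGroup (Fin 2) F)) (hu : ∀ x, up x ∈ M) (hl : ∀ x, lo x ∈ M)
    (g : GeneralLinearGroup (Fin 2) F) (hg : (g : Matrix (Fin 2) (Fin 2) F).det = 1) : g ∈ M := by
  have key : ∀ g : GeneralLinearGroup (Fin 2) F, (g : Matrix (Fin 2) (Fin 2) F).det = 1 →
      (g : Matrix (Fin 2) (Fin 2) F) 1 0 ≠ 0 → g ∈ M := by
    intro g hg hc
    have h : g = up (((g : Matrix (Fin 2) (Fin 2) F) 0 0 - 1) / (g : Matrix (Fin 2) (Fin 2) F) 1 0)
        * lo ((g : Matrix (Fin 2) (Fin 2) F) 1 0)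
        * up (((g : Matrix (Fin 2) (Fin 2) F) 1 1 - 1) / (g : Matrix (Fin 2) (Fin 2) F) 1 0) := by
      apply Units.ext
      rw [Matrix.det_fin_two] at hg
      ext i j
      fin_cases i <;> fin_cases j
      · simp [up, lo, Matrix.mul_apply, Fin.sum_univ_two]; field_simp; ring
      · simp [up, lo, Matrix.mul_apply, Fin.sum_univ_two]; field_simp; linear_combination -hg
      · simp [up, lo, Matrix.mul_apply, Fin.sum_univ_two]
      · simp [up, lo, Matrix.mul_apply, Fin.sum_univ_two]; field_simp; ring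
    rw [h]
    exact M.mul_mem (M.mul_mem (hu _) (hl _)) (hu _)
  by_cases hc : (g : Matrix (Fin 2) (Fin 2) F) 1 0 = 0
  · have h1 : ((g * lo 1 : GeneralLinearGroup (Fin 2) F) : Matrix (Fin 2) (Fin 2) F) 1 0 ≠ 0 := by
      have hd : (g : Matrix (Fin 2) (Fin 2) F) 1 1 ≠ 0 := by
        intro h
        rw [Matrix.det_fin_two, hc, h] at hg
        simp at hg
      simp [lo, Matrix.mul_apply, Fin.sum_univ_two, hc, hd]
    have h3 : ((g * lo 1 : GeneralLinearGroup (Fin 2) F) : Matrix (Fin 2) (Fin 2) F).det = 1 := by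
      rw [Units.val_mul, Matrix.det_mul, hg, det_lo, one_mul]
    have h4 := M.mul_mem (key _ h3 h1) (hl (-1))
    rw [mul_assoc, lo_mul] at h4
    have h5 : (lo ((1:F) + -1) : GeneralLinearGroup (Fin 2) F) = 1 := by
      apply Units.ext
      ext i j; fin_cases i <;> fin_cases j <;> simp [lo]
    rw [h5, mul_one] at h4
    exact h4
  · exact key g hg hc

theorem sl_sq {F : Type*} [Field F] [Fintype F] (h2 : (2:F) ≠ 0)
    (S N : Subgroup (Matrix.ProjGenLinGroup (Fin 2) F))
    (hSL : ∀ g : Matrix.GeneralLinearGroup (Fin 2) F,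
      (g : Matrix (Fin 2) (Fin 2) F).det = 1 → Matrix.ProjGenLinGroup.mk g ∈ S)
    (hsq : ∀ x ∈ S, x * x ∈ N) :
    ∀ g : Matrix.GeneralLinearGroup (Fin 2) F,
      (g : Matrix (Fin 2) (Fin 2) F).det = 1 → Matrix.ProjGenLinGroup.mk g ∈ N := by
  intro g hg
  have : NeZero (2:F) := ⟨h2⟩
  have h : g ∈ N.comap Matrix.ProjGenLinGroup.mk := by
    apply sl_gen _ _ _ g hg
    · intro x
      rw [Subgroup.mem_comap]
      have h1 := hsq _ (hSL (up (x / 2)) (det_up _))
      rw [← map_mul, up_mul, add_halves] at h1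
      exact h1
    · intro x
      rw [Subgroup.mem_comap]
      have h1 := hsq _ (hSL (lo (x / 2)) (det_lo _))
      rw [← map_mul, lo_mul, add_halves] at h1
      exact h1
  exact h

end gen

end H64.P11M
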